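import Mathlib
import Cfsg.Prelude.Def_Transfer

/-!
Large Fischer type: arithmetic of the normaliser of a self-centralising elementary abelian subgroup of order
`2 ^ 11`: the length of the orbit of an element, the element of order `23`, and control of fusion.
-/

set_option autoImplicit false
set_option linter.unusedSectionVars false
set_option linter.style.haveILetI false

namespace CfsgLib.LargeFischer.Base

open scoped Classical

variable {G : Type*} [Group G] [Finite G] (A : Subgroup G)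

/-- Orbit and stabiliser in the normaliser. -/
theorem card_normOrbit_mul (a : G) :
    Nat.card {b : G | ∃ m ∈ Subgroup.normalizer (A : Set G), m * a * m⁻¹ = b} *
      Nat.card ↥(Subgroup.normalizer (A : Set G) ⊓ Subgroup.centralizer ({a} : Set G)) =
        Nat.card ↥(Subgroup.normalizer (A : Set G)) := by
  set N := Subgroup.normalizer (A : Set G)
  letI : MulAction N G := MulAction.compHom G ((MulAut.conj (G := G)).comp N.subtype)
  have hsmul : ∀ (m : N) (b : G), m • b = (m : G) * b * (m : G)⁻¹ := fun _ _ => rfl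
  have ho : {b : G | ∃ m ∈ N, m * a * m⁻¹ = b} = MulAction.orbit N a := by
    ext b
    exact ⟨fun ⟨m, hm, e⟩ => ⟨⟨m, hm⟩, e⟩, fun ⟨m, e⟩ => ⟨m, m.2, e⟩⟩
  have hst : MulAction.stabilizer N a = (N ⊓ Subgroup.centralizer ({a} : Set G)).subgroupOf N := by
    ext m
    rw [MulAction.mem_stabilizer_iff, hsmul, mul_inv_eq_iff_eq_mul, Subgroup.mem_subgroupOf, Subgroup.mem_inf,
      Subgroup.mem_centralizer_singleton_iff]
    exact ⟨fun e => ⟨m.2, e⟩, fun e => e.2⟩
  rw [ho, Nat.card_congr (MulAction.orbitEquivQuotientStabilizer N a), ← Subgroup.index, hst,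
    ← Nat.card_congr (Subgroup.subgroupOfEquivOfLe (inf_le_left : N ⊓ Subgroup.centralizer {a} ≤ N)).toEquiv,
    Subgroup.index_mul_card]

variable (hel : Cfsg.IsElementaryAbelian 2 A) (hcard : Nat.card A = 2 ^ 11)
  (hcen : Subgroup.centralizer (A : Set G) ≤ A) (z : G) (hzA : z ∈ A)
include hel hcard hcen

/-- An element of odd prime order normalising `A` fixes `2 ^ j` elements of it. -/
theorem exists_fix_pow {p : ℕ} (hp : p.Prime) (hp2 : p ≠ 2) {x : G} (hx : x ∈ Subgroup.normalizer (A : Set G))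
    (hox : orderOf x = p) : ∃ i, 1 ≤ i ∧ i ≤ 11 ∧ p ∣ 2 ^ i - 1 ∧
      (i = 11 → ∀ a ∈ A, x * a * x⁻¹ = a → a = 1) := by
  haveI : Fact p.Prime := ⟨hp⟩
  set X := Subgroup.zpowers x
  have hXN : X ≤ Subgroup.normalizer (A : Set G) := by rw [Subgroup.zpowers_le]; exact hx
  have hX : IsPGroup p X := IsPGroup.of_card (n := 1) (by rw [Nat.card_zpowers, hox, pow_one])
  letI : MulAction X A :=
    { smul := fun w a => ⟨(w : G) * a * (w : G)⁻¹, (Subgroup.mem_normalizer_iff.1 (hXN w.2) _).1 a.2⟩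
      one_smul := fun a => Subtype.ext (show (1 : G) * a * (1 : G)⁻¹ = a by group)
      mul_smul := fun v w a => Subtype.ext (show (v : G) * w * a * ((v : G) * w)⁻¹ =
        (v : G) * ((w : G) * a * (w : G)⁻¹) * (v : G)⁻¹ by group) }
  let F : Subgroup A :=
    { carrier := MulAction.fixedPoints X A
      one_mem' := fun w => Subtype.ext (show (w : G) * 1 * (w : G)⁻¹ = 1 by group)
      mul_mem' := fun {a b} ha hb w => Subtype.ext (by
        have h1 : (w : G) * a * (w : G)⁻¹ = a := congrArg Subtype.val (ha w)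
        have h2 : (w : G) * b * (w : G)⁻¹ = b := congrArg Subtype.val (hb w)
        show (w : G) * ((a : G) * b) * (w : G)⁻¹ = (a : G) * b
        calc (w : G) * ((a : G) * b) * (w : G)⁻¹
            = ((w : G) * a * (w : G)⁻¹) * ((w : G) * b * (w : G)⁻¹) := by group
          _ = _ := by rw [h1, h2])
      inv_mem' := fun {a} ha w => Subtype.ext (by
        have h1 : (w : G) * a * (w : G)⁻¹ = a := congrArg Subtype.val (ha w)
        show (w : G) * (a : G)⁻¹ * (w : G)⁻¹ = (a : G)⁻¹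
        calc (w : G) * (a : G)⁻¹ * (w : G)⁻¹ = ((w : G) * a * (w : G)⁻¹)⁻¹ := by group
          _ = _ := by rw [h1]) }
  obtain ⟨j, hj, hFj⟩ := (Nat.dvd_prime_pow Nat.prime_two).1 (hcard ▸ F.card_subgroup_dvd_card)
  have hmod := hX.card_modEq_card_fixedPoints A
  rw [show Nat.card (MulAction.fixedPoints X A) = 2 ^ j from hFj, hcard] at hmod
  have hj11 : j ≠ 11 := by
    rintro rfl
    have htop : F = ⊤ := Subgroup.eq_top_of_card_eq F (by rw [hFj, hcard])
    have hxC : x ∈ Subgroup.centralizer (A : Set G) := Subgroup.mem_centralizer_iff.2 fun a ha => by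
      have h1 : (⟨a, ha⟩ : A) ∈ F := htop ▸ Subgroup.mem_top _
      have h2 : x * a * x⁻¹ = a := congrArg Subtype.val (h1 ⟨x, Subgroup.mem_zpowers x⟩)
      exact (mul_inv_eq_iff_eq_mul.1 h2).symm
    have h2 := orderOf_dvd_of_pow_eq_one (hel.2 x (hcen hxC))
    rw [hox] at h2
    exact hp2 ((Nat.prime_dvd_prime_iff_eq hp Nat.prime_two).1 h2)
  refine ⟨11 - j, by omega, by omega, ?_, fun h11 a ha hfix => ?_⟩
  · have h1 := (Nat.modEq_iff_dvd' (Nat.pow_le_pow_right (by norm_num) hj)).1 hmod.symm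
    rw [show 2 ^ 11 - 2 ^ j = 2 ^ j * (2 ^ (11 - j) - 1) by
      rw [Nat.mul_sub, mul_one, ← pow_add, Nat.add_sub_cancel' hj]] at h1
    exact ((Nat.coprime_primes hp Nat.prime_two).2 hp2).pow_right j |>.dvd_of_dvd_mul_left h1
  · obtain rfl : j = 0 := by omega
    have hbot : F = ⊥ := Subgroup.eq_bot_of_card_eq F hFj
    have hmem : (⟨a, ha⟩ : A) ∈ F := fun w => Subtype.ext (by
      obtain ⟨n, hn⟩ := Subgroup.mem_zpowers_iff.1 w.2
      show (w : G) * a * (w : G)⁻¹ = a
      have hc : Commute x a := mul_inv_eq_iff_eq_mul.1 hfix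
      rw [← hn, (hc.zpow_left n).eq, mul_inv_cancel_right])
    rw [hbot, Subgroup.mem_bot] at hmem
    exact congrArg Subtype.val hmem

/-- A prime dividing an orbit length is small. -/
theorem dvd_two_pow_of_dvd_normOrbit {p : ℕ} (hp : p.Prime) (hp2 : p ≠ 2) (a : G)
    (hd : p ∣ Nat.card {b : G | ∃ m ∈ Subgroup.normalizer (A : Set G), m * a * m⁻¹ = b}) :
    ∃ i, 1 ≤ i ∧ i ≤ 11 ∧ p ∣ 2 ^ i - 1 := by
  haveI : Fact p.Prime := ⟨hp⟩
  obtain ⟨x, hx⟩ := exists_prime_orderOf_dvd_card' (G := ↥(Subgroup.normalizer (A : Set G))) p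
    (card_normOrbit_mul A a ▸ hd.mul_right _)
  obtain ⟨i, h1, h2, h3, -⟩ := exists_fix_pow A hel hcard hcen hp hp2 x.2 (by rw [Subgroup.orderOf_coe, hx])
  exact ⟨i, h1, h2, h3⟩

/-- The orbit of `z` has length `1771`. -/
theorem card_orb_of_form
    (hform : ∃ k ≤ 8, Nat.card {b : G | ∃ m ∈ Subgroup.normalizer (A : Set G), m * z * m⁻¹ = b} = 91 + 240 * k) :
    Nat.card {b : G | ∃ m ∈ Subgroup.normalizer (A : Set G), m * z * m⁻¹ = b} = 1771 := by
  obtain ⟨k, hk, hc⟩ := hform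
  have kill : ∀ p : ℕ, p.Prime → p ≠ 2 → p ∣ 91 + 240 * k →
      ((List.range 12).all fun i => i == 0 || (2 ^ i - 1) % p != 0) = true → False := by
    intro p hp hp2 hd hcheck
    obtain ⟨i, h1, h2, h3⟩ := dvd_two_pow_of_dvd_normOrbit A hel hcard hcen hp hp2 z (hc ▸ hd)
    have := List.all_eq_true.1 hcheck i (List.mem_range.2 (by omega))
    simp only [Bool.or_eq_true, beq_iff_eq, bne_iff_ne] at this
    rcases this with e | e
    · omega
    · exact e (Nat.mod_eq_zero_of_dvd h3)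
  interval_cases k
  · exact (kill 13 (by norm_num) (by norm_num) (by norm_num) (by decide +kernel)).elim
  · exact (kill 331 (by norm_num) (by norm_num) (by norm_num) (by decide +kernel)).elim
  · exact (kill 571 (by norm_num) (by norm_num) (by norm_num) (by decide +kernel)).elim
  · exact (kill 811 (by norm_num) (by norm_num) (by norm_num) (by decide +kernel)).elim
  · exact (kill 1051 (by norm_num) (by norm_num) (by norm_num) (by decide +kernel)).elim
  · exact (kill 1291 (by norm_num) (by norm_num) (by norm_num) (by decide +kernel)).elim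
  · exact (kill 1531 (by norm_num) (by norm_num) (by norm_num) (by decide +kernel)).elim
  · omega
  · exact (kill 2011 (by norm_num) (by norm_num) (by norm_num) (by decide +kernel)).elim

/-- The element of order `23` fixes only the identity. -/
theorem dvd_orb (h : Nat.card {b : G | ∃ m ∈ Subgroup.normalizer (A : Set G), m * z * m⁻¹ = b} = 1771) :
    ∀ a ∈ A, a ≠ 1 → 23 ∣ Nat.card {b : G | ∃ m ∈ Subgroup.normalizer (A : Set G), m * a * m⁻¹ = b} := by
  intro a ha ha1
  haveI : Fact (Nat.Prime 23) := ⟨by norm_num⟩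
  set N := Subgroup.normalizer (A : Set G)
  obtain ⟨x, hx⟩ := exists_prime_orderOf_dvd_card' (G := N) 23
    (card_normOrbit_mul A z ▸ (h ▸ (by norm_num : (23 : ℕ) ∣ 1771)).mul_right _)
  have hox : orderOf (x : G) = 23 := by rw [Subgroup.orderOf_coe, hx]
  obtain ⟨i, h1, h2, h3, h4⟩ := exists_fix_pow A hel hcard hcen (p := 23) (by norm_num) (by norm_num) x.2 hox
  have hi : i = 11 := by
    interval_cases i <;> first | rfl | norm_num at h3
  set O := {b : G | ∃ m ∈ N, m * a * m⁻¹ = b}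
  have hclosed : ∀ w ∈ Subgroup.zpowers (x : G), ∀ b ∈ O, w * b * w⁻¹ ∈ O := by
    rintro w hw b ⟨m, hm, rfl⟩
    exact ⟨w * m, mul_mem (Subgroup.zpowers_le.2 x.2 hw) hm, by group⟩
  letI : MulAction (Subgroup.zpowers (x : G)) O :=
    { smul := fun w b => ⟨(w : G) * b * (w : G)⁻¹, hclosed w w.2 b b.2⟩
      one_smul := fun b => Subtype.ext (show (1 : G) * b * (1 : G)⁻¹ = b by group)
      mul_smul := fun v w b => Subtype.ext (show (v : G) * w * b * ((v : G) * w)⁻¹ =
        (v : G) * ((w : G) * b * (w : G)⁻¹) * (v : G)⁻¹ by group) }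
  have hX : IsPGroup 23 (Subgroup.zpowers (x : G)) :=
    IsPGroup.of_card (n := 1) (by rw [Nat.card_zpowers, hox, pow_one])
  have hfix : Nat.card (MulAction.fixedPoints (Subgroup.zpowers (x : G)) O) = 0 := by
    rw [Nat.card_eq_zero]
    refine Or.inl ⟨?_⟩
    rintro ⟨⟨b, hb⟩, hbf⟩
    obtain ⟨m, hm, e⟩ := hb
    have hbA : b ∈ A := e ▸ (Subgroup.mem_normalizer_iff.1 hm a).1 ha
    have hb1 := h4 hi b hbA (congrArg Subtype.val (hbf ⟨(x : G), Subgroup.mem_zpowers _⟩))
    rw [hb1] at e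
    exact ha1 (conj_eq_one_iff.1 e)
  have := hX.card_modEq_card_fixedPoints O
  rw [hfix] at this
  exact Nat.modEq_zero_iff_dvd.1 this

omit hcen in
/-- Burnside: the normaliser controls fusion in a weakly closed abelian subgroup. -/
theorem normalizer_controls (T : Sylow 2 G) (_hAT : A ≤ (T : Subgroup G))
    (huniq : ∀ B : Subgroup G, B ≤ (T : Subgroup G) → Cfsg.IsElementaryAbelian 2 B → Nat.card B = 2 ^ 11 → B = A) :
    ∀ a ∈ A, ∀ g : G, g * a * g⁻¹ ∈ A →
      ∃ m ∈ Subgroup.normalizer (A : Set G), m * a * m⁻¹ = g * a * g⁻¹ := by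
  intro a ha g hb
  haveI : Fact (Nat.Prime 2) := ⟨Nat.prime_two⟩
  set b := g * a * g⁻¹
  set C := Subgroup.centralizer ({b} : Set G)
  have hcomm : ∀ u ∈ A, ∀ w ∈ A, u * w = w * u := fun u hu w hw =>
    congrArg Subtype.val (hel.1.is_comm.comm ⟨u, hu⟩ ⟨w, hw⟩)
  have himg : ∀ c : G, Cfsg.IsElementaryAbelian 2 (A.map (MulAut.conj c).toMonoidHom) ∧
      Nat.card (A.map (MulAut.conj c).toMonoidHom) = 2 ^ 11 := fun c => by
    refine ⟨⟨⟨⟨?_⟩⟩, ?_⟩, ?_⟩
    · rintro ⟨_, u, hu, rfl⟩ ⟨_, w, hw, rfl⟩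
      refine Subtype.ext ?_
      show (MulAut.conj c) u * (MulAut.conj c) w = (MulAut.conj c) w * (MulAut.conj c) u
      rw [← map_mul, ← map_mul, hcomm u hu w hw]
    · rintro _ ⟨u, hu, rfl⟩
      rw [← map_pow, hel.2 u hu, map_one]
    · rw [Subgroup.card_map_of_injective (MulAut.conj c).injective, hcard]
  have hAC : A ≤ C := fun u hu => Subgroup.mem_centralizer_singleton_iff.2 (hcomm u hu b hb)
  have hgC : A.map (MulAut.conj g).toMonoidHom ≤ C := by
    rintro _ ⟨u, hu, rfl⟩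
    refine Subgroup.mem_centralizer_singleton_iff.2 ?_
    show g * u * g⁻¹ * (g * a * g⁻¹) = g * a * g⁻¹ * (g * u * g⁻¹)
    calc g * u * g⁻¹ * (g * a * g⁻¹) = g * (u * a) * g⁻¹ := by group
      _ = _ := by rw [hcomm u hu a ha]; group
  have hA2 : IsPGroup 2 A := IsPGroup.of_card hcard
  obtain ⟨S₁, hS₁⟩ := (hA2.of_equiv (Subgroup.subgroupOfEquivOfLe hAC).symm).exists_le_sylow
  obtain ⟨S₂, hS₂⟩ := ((IsPGroup.of_card (himg g).2).of_equiv
    (Subgroup.subgroupOfEquivOfLe hgC).symm).exists_le_sylow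
  obtain ⟨c, hc⟩ := MulAction.exists_smul_eq C S₂ S₁
  obtain ⟨R, hR⟩ := (S₁.isPGroup'.map C.subtype).exists_le_sylow
  obtain ⟨k, hk⟩ := MulAction.exists_smul_eq G R T
  have hT : ∀ u ∈ (S₁ : Subgroup C), k * (u : G) * k⁻¹ ∈ (T : Subgroup G) := fun u hu => by
    rw [← hk]
    exact ⟨(u : G), hR ⟨u, hu, rfl⟩, rfl⟩
  have key : ∀ d : G, (∀ u ∈ A, ∃ w : C, w ∈ (S₁ : Subgroup C) ∧ (w : G) = d * u * d⁻¹) →
      A.map (MulAut.conj (k * d)).toMonoidHom = A := fun d hd => by
    refine huniq _ ?_ (himg _).1 (himg _).2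
    rintro _ ⟨u, hu, rfl⟩
    obtain ⟨w, hw, he⟩ := hd u hu
    show k * d * u * (k * d)⁻¹ ∈ (T : Subgroup G)
    rw [show k * d * u * (k * d)⁻¹ = k * (d * u * d⁻¹) * k⁻¹ by group, ← he]
    exact hT w hw
  have h1 := key 1 fun u hu => ⟨⟨u, hAC hu⟩, hS₁ (Subgroup.mem_subgroupOf.2 hu), by simp⟩
  have h2 := key ((c : G) * g) fun u hu => by
    refine ⟨c * ⟨g * u * g⁻¹, hgC ⟨u, hu, rfl⟩⟩ * c⁻¹, ?_, ?_⟩
    · rw [← hc]
      exact ⟨_, hS₂ (Subgroup.mem_subgroupOf.2 ⟨u, hu, rfl⟩), rfl⟩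
    · simp only [Subgroup.coe_mul, Subgroup.coe_inv]; group
  rw [mul_one] at h1
  have hN : ∀ d : G, A.map (MulAut.conj d).toMonoidHom = A → d ∈ Subgroup.normalizer (A : Set G) := fun d e => by
    rw [Subgroup.mem_normalizer_iff]
    refine fun u => ⟨fun hu => e ▸ ⟨u, hu, rfl⟩, fun hu => ?_⟩
    rw [← e] at hu
    obtain ⟨w, hw, hwe⟩ := hu
    rwa [← (MulAut.conj d).injective hwe]
  refine ⟨(c : G) * g, ?_, ?_⟩
  · have := mul_mem (inv_mem (hN k h1)) (hN (k * ((c : G) * g)) h2)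
    rwa [inv_mul_cancel_left] at this
  · have hcb := Subgroup.mem_centralizer_singleton_iff.1 c.2
    rw [show (c : G) * g * a * ((c : G) * g)⁻¹ = (c : G) * b * (c : G)⁻¹ by simp only [b]; group, hcb,
      mul_inv_cancel_right]

omit hel hcard hcen in
/-- The order of the normaliser. -/
theorem card_normalizer : Nat.card ↥(Subgroup.normalizer (A : Set G)) =
    Nat.card {b : G | ∃ m ∈ Subgroup.normalizer (A : Set G), m * z * m⁻¹ = b} *
      Nat.card ↥(Subgroup.normalizer (A : Set G) ⊓ Subgroup.centralizer ({z} : Set G)) :=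
  (card_normOrbit_mul A z).symm

end CfsgLib.LargeFischer.Base
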