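import Cfsg.Agent.Lib.LargeFischer.Base.Layers
import Cfsg.Agent.Lib.LargeFischer.Base.DuadData

/-!
Large Fischer type: a choice of lifts for which the non-conjugates of `z` have exactly the codes in
`tMask`.

In each layer the non-conjugates form one of the two blocks on the axis. After correcting the four
lifts by `z`, the choice in the other layers is determined by two bits, the exponents of `z` in the
products along two representative lines; three of the four possible sets are excluded because the
normaliser is transitive on the non-conjugates.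
-/

set_option autoImplicit false
set_option linter.unusedSectionVars false
set_option linter.style.haveILetI false

namespace CfsgLib.LargeFischer.Base

open Orbits CfsgLib.ExtraspecialLarge

/-- The image of an index under a word, read from the right. -/
def layW (w : List Nat) (p : Nat) : Nat := w.foldr layF p

/-- A triple equals another one up to order. -/
def samePerm (a b c x y w : Nat) : Bool :=
  (a == x && b == y && c == w) || (a == x && b == w && c == y) || (a == y && b == x && c == w) ||
    (a == y && b == w && c == x) || (a == w && b == x && c == y) || (a == w && b == y && c == x)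

theorem lineWords_check : ((List.range 35).all fun j =>
    let w := (lineWords.getD j ([], 0)).1
    let r := (lineWords.getD j ([], 0)).2
    let s := layLines.getD (lineReps.getD r 0) (0, 0, 0)
    let t := layLines.getD j (0, 0, 0)
    decide (r < 2) && w.all (fun i => decide (i < 3)) &&
      samePerm (layW w s.1) (layW w s.2.1) (layW w s.2.2) t.1 t.2.1 t.2.2 &&
      decide (1 ≤ s.1 ∧ s.1 < 16 ∧ 1 ≤ s.2.1 ∧ s.2.1 < 16 ∧ 1 ≤ s.2.2 ∧ s.2.2 < 16) &&
      (s.1 ^^^ s.2.1 ^^^ s.2.2 == 0)) = true := by
  decide +kernel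

theorem layF_range : ∀ i : Fin 3, ∀ p : Fin 16, 1 ≤ p.val →
    1 ≤ layF i.val p.val ∧ layF i.val p.val < 16 := by
  decide +kernel

theorem axis_check : ((List.range 2048).all fun n =>
    !(decide (1 ≤ layN n) && (wN n == 0)) || (n == 64 * layN n || n == 64 * layN n + 1024)) = true ∧
    ((List.range 16).all fun p => (wN (64 * p) == 0) && (wN (64 * p + 1024) == 0) &&
      (layN (64 * p) == p) && (layN (64 * p + 1024) == p) && !zbN (64 * p) && zbN (64 * p + 1024)) = true := by
  constructor <;> decide +kernel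

/-- The exponent of `z` on a line for given bits. -/
def piB (dl : Nat → Bool) (a b c : Nat) : Bool := xor (xor (dl a) (dl b)) (dl c)

theorem piB_perm {dl : Nat → Bool} {a b c x y w : Nat} (h : samePerm a b c x y w = true) :
    piB dl a b c = piB dl x y w := by
  simp only [samePerm, Bool.or_eq_true, Bool.and_eq_true, beq_iff_eq] at h
  unfold piB
  rcases h with ((((h | h) | h) | h) | h) | h <;> obtain ⟨⟨rfl, rfl⟩, rfl⟩ := h <;>
    cases dl a <;> cases dl b <;> cases dl c <;> rfl

/-- The two bits in the order of the four sets. -/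
def candPis : List (Bool × Bool) := [(false, true), (false, false), (true, false), (true, true)]

/-- The bit of layer `p` in the set `k`. -/
def candBit (k p : Nat) : Bool := (layBits.getD k []).getD p 0 == 1

theorem cand_inner : ((List.range 4).all fun k => (List.range 2048).all fun n =>
    !(layN n == 0) || ((tCands.getD k 0).testBit n == shortN (wN n))) = true := by
  decide +kernel

theorem cand_outer : ((List.range 4).all fun k => (List.range 15).all fun i =>
    let B := blockN (i + 1) (64 * (i + 1) + if candBit k (i + 1) then 1024 else 0)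
    B.all (fun n => (tCands.getD k 0).testBit n) &&
    (((List.range 2048).filter fun n => layN n == i + 1 && (tCands.getD k 0).testBit n).all
      fun n => B.contains n)) = true := by
  decide +kernel

theorem bad_check : ((List.range 3).all fun j =>
    let t := badWitness.getD j (0, 0)
    let T := tCands.getD (j + 1) 0
    decide (t.1 < 2048) && decide (t.2 < 2048) && T.testBit t.1 && T.testBit t.2 &&
      decide ((List.range 2048).countP (fun u => T.testBit u && T.testBit (t.1 ^^^ u)) ≠
        (List.range 2048).countP (fun u => T.testBit u && T.testBit (t.2 ^^^ u)))) = true := by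
  decide +kernel

theorem tCands_zero : tCands.getD 0 0 = tMask := rfl

/-- Bits vanishing on the powers of two and with the line values given by two bits. -/
theorem exists_cand (dl : Nat → Bool) (h1 : dl 1 = false) (h2 : dl 2 = false) (h4 : dl 4 = false)
    (h8 : dl 8 = false)
    (hlines : ∀ j < 35, piB dl (layLines.getD j (0, 0, 0)).1 (layLines.getD j (0, 0, 0)).2.1
      (layLines.getD j (0, 0, 0)).2.2 =
      if (lineWords.getD j ([], 0)).2 = 0 then piB dl 1 2 3 else piB dl 1 4 5) :
    ∃ k < 4, ∀ p, 1 ≤ p → p < 16 → dl p = candBit k p := by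
  have e7 := hlines 7 (by norm_num)
  have e13 := hlines 13 (by norm_num)
  have e3 := hlines 3 (by norm_num)
  have e9 := hlines 9 (by norm_num)
  have e15 := hlines 15 (by norm_num)
  have e19 := hlines 19 (by norm_num)
  have e20 := hlines 20 (by norm_num)
  have e21 := hlines 21 (by norm_num)
  have e22 := hlines 22 (by norm_num)
  simp [layLines, lineWords, piB, h1, h2, h4, h8] at e7 e13 e3 e9 e15 e19 e20 e21 e22
  clear hlines
  refine ⟨if dl 3 then (if dl 5 then 3 else 2) else (if dl 5 then 0 else 1),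
    by split_ifs <;> norm_num, ?_⟩
  cases h3 : dl 3 <;> cases h5 : dl 5 <;> simp [h3, h5] at e7 e13 e3 e9 e15 e19 e20 e21 e22 ⊢ <;>
    intro p hp1 hp2 <;> interval_cases p <;> simp_all [candBit, layBits]

theorem countP_range_eq (N : Nat) (P : Nat → Bool) :
    (List.range N).countP P = ((Finset.range N).filter fun u => P u = true).card := by
  rw [List.countP_eq_length_filter, ← List.toFinset_card_of_nodup (List.nodup_range.filter _)]
  congr 1
  ext u; simp

variable {G : Type*} [Group G] [Finite G] {z : G}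
  {Q : Subgroup ↥(Subgroup.centralizer ({z} : Set G))} [Q.Normal]
  (hs : Cfsg.IsExtraspecialCentralizerSetting z Q 6) {C : Coords z Q} (hc : C.ClassData 0)
include hs hc

theorem rP_mem_16 (p : Nat) (hp : p < 16) : wN (64 * p) = 0 ∧ wN (64 * p + 1024) = 0 ∧
    layN (64 * p) = p ∧ layN (64 * p + 1024) = p ∧ zbN (64 * p) = false ∧
    zbN (64 * p + 1024) = true := by
  have h := List.all_eq_true.1 axis_check.2 p (List.mem_range.2 hp)
  simp only [Bool.and_eq_true, beq_iff_eq, Bool.not_eq_true'] at h
  obtain ⟨⟨⟨⟨⟨h1, h2⟩, h3⟩, h4⟩, h5⟩, h6⟩ := h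
  exact ⟨h1, h2, h3, h4, h5, h6⟩

theorem pt_axis_mem (L : Lifts C) (p : Nat) (hp : p < 16) (b : Bool) :
    pt L (64 * p + if b then 1024 else 0) ∈ radLift C := by
  obtain ⟨h1, h2, -, -, h5, h6⟩ := rP_mem_16 hs hc p hp
  have hd : dec 0 = zeroPt := by rw [← enc_zeroPt, dec_enc]
  rw [pt_split hs L]
  cases b
  · rw [if_neg Bool.false_ne_true, Nat.add_zero, h1, hd, canon_zero hs C, one_mul, h5]
    show rPart L (64 * p) * 1 ∈ _
    rw [mul_one]; exact rPart_mem hs L _
  · rw [if_pos rfl, h2, hd, canon_zero hs C, one_mul, h6]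
    exact mul_mem (rPart_mem hs L _) (zH_mem_radLift hs C)

theorem nonZ_iff_of_gpt {L L' : Lifts C} {n m : Nat} (hn : n < 2048) (hm : m < 2048)
    (h : gpt L' n = gpt L m) : NonZ L' n ↔ NonZ L m := by
  unfold NonZ
  rw [h]
  refine and_congr_left fun _ => not_congr ⟨fun e => ?_, fun e => ?_⟩
  · subst e
    exact gpt_injective hs L hc hm (by norm_num)
      ((h.symm.trans (gpt_zero hs L' hc)).trans (gpt_zero hs L hc).symm)
  · subst e
    exact gpt_injective hs L' hc hn (by norm_num)
      ((h.trans (gpt_zero hs L hc)).trans (gpt_zero hs L' hc).symm)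

omit hc in
theorem rPart_unit (L : Lifts C) (i : Fin 4) : rPart L (64 * 2 ^ i.val) = L.r i := by
  fin_cases i <;> simp [rPart, prodL]

/-- The lifts may be chosen with the four axes outside the class of `z`. -/
theorem exists_lifts_unit
    (h16 : ∀ (L : Lifts C) (p : Nat), 1 ≤ p → p < 16 → (layerT L p).card = 16) :
    ∃ L : Lifts C, ∀ i : Fin 4, NonZ L (64 * 2 ^ i.val) := by
  classical
  obtain ⟨L⟩ := exists_lifts hs C hc
  let d : Fin 4 → Bool := fun i => decide (¬ NonZ L (64 * 2 ^ i.val))
  have hlt : ∀ i : Fin 4, 1 ≤ 2 ^ i.val ∧ 2 ^ i.val < 16 := by decide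
  let L' : Lifts C :=
    { r := fun i => L.r i * pw z (d i)
      mem := fun i => mul_mem (L.mem i) (by
        cases d i
        · exact one_mem _
        · exact zH_mem_radLift hs C)
      act_r := fun i => by
        rw [QuotientGroup.mk_mul, map_mul, L.act_r i, (QuotientGroup.eq_one_iff _).2 (pw_mem hs _),
          map_one, mul_one] }
  refine ⟨L', fun i => ?_⟩
  obtain ⟨h1, h2, -, -, h5, h6⟩ := rP_mem_16 hs hc _ (hlt i).2
  have hd : dec 0 = zeroPt := by rw [← enc_zeroPt, dec_enc]
  have he : gpt L' (64 * 2 ^ i.val) = gpt L (64 * 2 ^ i.val + if d i then 1024 else 0) := by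
    refine congrArg Subtype.val ?_
    rw [pt_split hs L', pt_split hs L, rPart_unit hs L' i]
    show _ * (L.r i * pw z (d i)) * _ = _
    cases d i
    · rw [if_neg Bool.false_ne_true, Nat.add_zero, rPart_unit hs L i, h5]
      simp [pw]
    · rw [if_pos rfl, h1, h2, h5, h6, hd]
      have e : rPart L (64 * 2 ^ i.val + 1024) = L.r i := by
        fin_cases i <;> simp [rPart, prodL]
      rw [e]
      simp [pw, mul_assoc]
  have hbound : 64 * 2 ^ i.val + 1024 < 2048 := by have := (hlt i).2; omega
  rw [nonZ_iff_of_gpt hs hc (by omega) (by split_ifs <;> omega) he]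
  have hax := (layer_axis hs L hc (hlt i) (h16 L _ (hlt i).1 (hlt i).2)).1
  by_cases hn : NonZ L (64 * 2 ^ i.val)
  · have : d i = false := by simp [d, hn]
    rw [this, if_neg Bool.false_ne_true, Nat.add_zero]; exact hn
  · have : d i = true := by simp [d, hn]
    rw [this, if_pos rfl]
    by_contra hne
    exact hn (hax.2 hne)

/-- An element normalising the subgroup gives an additive map of codes. -/
theorem exists_code_map (L : Lifts C) {a b : Nat} (hab : MConj C (gpt L a) (gpt L b))
    (hb : b < 2048) :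
    ∃ f : Nat → Nat, (∀ n < 2048, f n < 2048) ∧ f a = b ∧
      (∀ n < 2048, ∀ m < 2048, f (n ^^^ m) = f n ^^^ f m) ∧
      (∀ n < 2048, ∀ m < 2048, f n = f m → n = m) ∧ ∀ n < 2048, (NonZ L (f n) ↔ NonZ L n) := by
  obtain ⟨m, hm, hmab⟩ := hab
  have hex : ∀ n, ∃ k < 2048, gpt L k = m * gpt L n * m⁻¹ := fun n =>
    exists_gpt hs L hc ((Subgroup.mem_normalizer_iff.1 hm _).1 (gpt_mem hs L hc n))
  choose f hf1 hf2 using hex
  have hxor : ∀ n k : Nat, n < 2048 → k < 2048 → n ^^^ k < 2048 := fun n k h h' =>
    Nat.xor_lt_two_pow (n := 11) h h'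
  refine ⟨f, fun n _ => hf1 n, gpt_injective hs L hc (hf1 a) hb ((hf2 a).trans hmab),
    fun n hn k hk => ?_, fun n hn k hk e => ?_, fun n hn => ?_⟩
  · refine gpt_injective hs L hc (hf1 _) (hxor _ _ (hf1 n) (hf1 k)) ?_
    rw [hf2, gpt_xor hs L hc, gpt_xor hs L hc, hf2, hf2]
    group
  · have h := (hf2 n).symm.trans ((congrArg (gpt L) e).trans (hf2 k))
    exact gpt_injective hs L hc hn hk (mul_left_cancel (mul_right_cancel h))
  · have hM : MConj C (gpt L n) (gpt L (f n)) := ⟨m, hm, (hf2 n).symm⟩
    refine and_congr (not_congr ⟨fun e => ?_, fun e => ?_⟩) (not_congr hM.isConj.symm)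
    · have h := hf2 n
      rw [e, gpt_zero hs L hc, eq_comm, conj_eq_one_iff] at h
      exact gpt_injective hs L hc hn (by norm_num) (h.trans (gpt_zero hs L hc).symm)
    · refine gpt_injective hs L hc (hf1 n) (by norm_num) ?_
      rw [hf2, e, gpt_zero hs L hc, mul_one, mul_inv_cancel]

set_option maxHeartbeats 800000 in
theorem exists_lifts_tMask
    (h16 : ∀ (L : Lifts C) (p : Nat), 1 ≤ p → p < 16 → (layerT L p).card = 16)
    (hone : ∀ (L : Lifts C) (a b : Nat), a < 2048 → b < 2048 → NonZ L a → NonZ L b →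
      MConj C (gpt L a) (gpt L b)) :
    ∃ L : Lifts C, ∀ n < 2048, (NonZ L n ↔ tMask.testBit n = true) := by
  classical
  obtain ⟨L, hunit⟩ := exists_lifts_unit hs hc h16
  refine ⟨L, ?_⟩
  let dl : Nat → Bool := fun p => decide (¬ NonZ L (64 * p))
  let ax : Nat → Nat := fun p => 64 * p + if dl p then 1024 else 0
  have hax : ∀ p, 1 ≤ p → p < 16 → ∀ r ∈ ([64 * p, 64 * p + 1024] : List Nat),
      (NonZ L r ↔ r = ax p) := by
    intro p h1 h2 r hr
    have h := (layer_axis hs L hc ⟨h1, h2⟩ (h16 L p h1 h2)).1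
    simp only [List.mem_cons, List.not_mem_nil, or_false] at hr
    by_cases hn : NonZ L (64 * p)
    · have e : dl p = false := by simp [dl, hn]
      rcases hr with rfl | rfl
      · simp [ax, e, hn]
      · simp [ax, e, h.1 hn]
    · have e : dl p = true := by simp [dl, hn]
      rcases hr with rfl | rfl
      · simp [ax, e, hn]
      · have hn2 : NonZ L (64 * p + 1024) := by
          by_contra hne
          exact hn (h.2 hne)
        simp [ax, e, hn2]
  have haxlt : ∀ p, p < 16 → ax p < 2048 := fun p h => by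
    simp only [ax]; split_ifs <;> omega
  -- the maps carry axes to axes
  have hmap : ∀ i : Fin 3, ∀ a b c : Nat, 1 ≤ a → a < 16 → 1 ≤ b → b < 16 → 1 ≤ c → c < 16 →
      a ^^^ b ^^^ c = 0 →
      layF i.val a ^^^ layF i.val b ^^^ layF i.val c = 0 ∧
        piB dl (layF i.val a) (layF i.val b) (layF i.val c) = piB dl a b c := by
    intro i a b c ha1 ha2 hb1 hb2 hc1 hc2 habc
    obtain ⟨γ, hγn, -, -, hγr, hγmap⟩ := exists_layer_map hs L hc i
    choose! f hf1 hf2 hf3 using hγmap
    have hxor : ∀ n k : Nat, n < 2048 → k < 2048 → n ^^^ k < 2048 := fun n k h h' =>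
      Nat.xor_lt_two_pow (n := 11) h h'
    have hfx : ∀ n < 2048, ∀ k < 2048, f (n ^^^ k) = f n ^^^ f k := by
      intro n hn k hk
      refine pt_injective hs L hc (hf1 _ (hxor _ _ hn hk)) (hxor _ _ (hf1 _ hn) (hf1 _ hk)) ?_
      rw [← hf2 _ (hxor _ _ hn hk), pt_xor hs L hc, pt_xor hs L hc, ← hf2 _ hn, ← hf2 _ hk]
      group
    have hfa : ∀ p, 1 ≤ p → p < 16 → f (ax p) = ax (layF i.val p) := by
      intro p h1 h2
      obtain ⟨hF1, hF2⟩ := layF_range i ⟨p, h2⟩ h1
      have hlay : layN (ax p) = p := by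
        obtain ⟨-, -, h3, h4, -, -⟩ := rP_mem_16 hs hc p h2
        simp only [ax]
        cases dl p
        · rw [if_neg Bool.false_ne_true, Nat.add_zero]; exact h3
        · rw [if_pos rfl]; exact h4
      have hmem : pt L (f (ax p)) ∈ radLift C :=
        hf2 _ (haxlt p h2) ▸ hγr _ (pt_axis_mem hs hc L p h2 (dl p))
      have hl' : layN (f (ax p)) = layF i.val p := by rw [hf3 _ (haxlt p h2), hlay]
      have hnz : NonZ L (f (ax p)) := by
        have hnp : NonZ L (ax p) := by
          refine (hax p h1 h2 _ ?_).2 rfl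
          simp only [ax]; cases dl p <;> simp
        have hM : MConj C (gpt L (ax p)) (gpt L (f (ax p))) :=
          ⟨γ.1, hγn, congrArg Subtype.val (hf2 _ (haxlt p h2))⟩
        refine ⟨fun e => ?_, fun h => hnp.2 (hM.isConj.2 h)⟩
        have h := hf2 _ (haxlt p h2)
        rw [e, show pt L 0 = 1 from Subtype.ext (gpt_zero hs L hc), conj_eq_one_iff] at h
        exact hnp.1 (pt_eq_one hs L hc (haxlt p h2) h)
      have hk := List.all_eq_true.1 axis_check.1 (f (ax p)) (List.mem_range.2 (hf1 _ (haxlt p h2)))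
      rw [hl', wN_zero_of_radLift hs L hc hmem] at hk
      simp only [hF1, decide_true, beq_self_eq_true, Bool.and_self, Bool.not_true, Bool.false_or,
        Bool.or_eq_true, beq_iff_eq] at hk
      exact (hax _ hF1 hF2 _ (by simpa using hk)).1 hnz
    have hline : ∀ x y w : Nat, x < 16 → y < 16 → w < 16 → x ^^^ y ^^^ w = 0 →
        ax x ^^^ ax y ^^^ ax w = if piB dl x y w then 1024 else 0 := by
      have key : ((List.range 16).all fun x => (List.range 16).all fun y =>
          [false, true].all fun dx => [false, true].all fun dy => [false, true].all fun dw =>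
            (64 * x + (if dx then 1024 else 0)) ^^^ (64 * y + (if dy then 1024 else 0)) ^^^
              (64 * (x ^^^ y) + (if dw then 1024 else 0)) ==
              (if xor (xor dx dy) dw then 1024 else 0)) = true := by decide +kernel
      intro x y w hx hy hw hxyw
      obtain rfl : w = x ^^^ y := (Nat.xor_eq_zero_iff.1 hxyw).symm
      have hall : ∀ b : Bool, b ∈ [false, true] := fun b => by cases b <;> simp
      exact beq_iff_eq.1 (List.all_eq_true.1 (List.all_eq_true.1 (List.all_eq_true.1
        (List.all_eq_true.1 (List.all_eq_true.1 key x (List.mem_range.2 hx)) y (List.mem_range.2 hy))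
        (dl x) (hall _)) (dl y) (hall _)) (dl (x ^^^ y)) (hall _))
    have e := hline a b c ha2 hb2 hc2 habc
    have hA := haxlt a ha2
    have hB := haxlt b hb2
    have hC' := haxlt c hc2
    have himg : f (ax a ^^^ ax b ^^^ ax c) =
        ax (layF i.val a) ^^^ ax (layF i.val b) ^^^ ax (layF i.val c) := by
      rw [hfx _ (hxor _ _ hA hB) _ hC', hfx _ hA _ hB, hfa a ha1 ha2, hfa b hb1 hb2,
        hfa c hc1 hc2]
    have hfz : ∀ q : Bool, f (if q then 1024 else 0) = if q then 1024 else 0 := by
      intro q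
      refine pt_injective hs L hc (hf1 _ (by split_ifs <;> norm_num)) (by split_ifs <;> norm_num) ?_
      rw [← hf2 _ (by split_ifs <;> norm_num), pt_bit hs L hc, pw_conj]
    rw [e, hfz] at himg
    have hxF : layF i.val a ^^^ layF i.val b ^^^ layF i.val c = 0 := by
      have key : ∀ (i : Fin 3) (x y : Fin 16),
          layF i.val x.val ^^^ layF i.val y.val ^^^ layF i.val (x.val ^^^ y.val) = 0 := by
        decide +kernel
      have hcx : c = a ^^^ b := (Nat.xor_eq_zero_iff.1 habc).symm
      exact hcx ▸ key i ⟨a, ha2⟩ ⟨b, hb2⟩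
    refine ⟨hxF, ?_⟩
    rw [hline _ _ _ (layF_range i ⟨a, ha2⟩ ha1).2 (layF_range i ⟨b, hb2⟩ hb1).2
      (layF_range i ⟨c, hc2⟩ hc1).2 hxF] at himg
    generalize piB dl (layF i.val a) (layF i.val b) (layF i.val c) = u at himg ⊢
    generalize piB dl a b c = v at himg ⊢
    cases u <;> cases v <;> simp_all
  have hword : ∀ w : List Nat, (∀ i ∈ w, i < 3) → ∀ a b c : Nat, 1 ≤ a → a < 16 → 1 ≤ b → b < 16 →
      1 ≤ c → c < 16 → a ^^^ b ^^^ c = 0 →
      (1 ≤ layW w a ∧ layW w a < 16) ∧ (1 ≤ layW w b ∧ layW w b < 16) ∧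
      (1 ≤ layW w c ∧ layW w c < 16) ∧ layW w a ^^^ layW w b ^^^ layW w c = 0 ∧
        piB dl (layW w a) (layW w b) (layW w c) = piB dl a b c := by
    intro w
    induction w with
    | nil => intro _ a b c h1 h2 h3 h4 h5 h6 h7; exact ⟨⟨h1, h2⟩, ⟨h3, h4⟩, ⟨h5, h6⟩, h7, rfl⟩
    | cons i w ih =>
      intro hw a b c h1 h2 h3 h4 h5 h6 h7
      obtain ⟨⟨A1, A2⟩, ⟨B1, B2⟩, ⟨C1, C2⟩, hX, hP⟩ :=
        ih (fun j hj => hw j (List.mem_cons_of_mem _ hj)) a b c h1 h2 h3 h4 h5 h6 h7
      have hi : i < 3 := hw i List.mem_cons_self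
      obtain ⟨hX', hP'⟩ := hmap ⟨i, hi⟩ _ _ _ A1 A2 B1 B2 C1 C2 hX
      exact ⟨layF_range ⟨i, hi⟩ ⟨_, A2⟩ A1, layF_range ⟨i, hi⟩ ⟨_, B2⟩ B1,
        layF_range ⟨i, hi⟩ ⟨_, C2⟩ C1, hX', hP'.trans hP⟩
  have hlines : ∀ j < 35, piB dl (layLines.getD j (0, 0, 0)).1 (layLines.getD j (0, 0, 0)).2.1
      (layLines.getD j (0, 0, 0)).2.2 =
      if (lineWords.getD j ([], 0)).2 = 0 then piB dl 1 2 3 else piB dl 1 4 5 := by
    intro j hj
    have h := List.all_eq_true.1 lineWords_check j (List.mem_range.2 hj)
    simp only [Bool.and_eq_true, decide_eq_true_eq, List.all_eq_true, beq_iff_eq] at h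
    obtain ⟨⟨⟨⟨hr, hw⟩, hperm⟩, h1, h2, h3, h4, h5, h6⟩, hx⟩ := h
    rw [← piB_perm hperm]
    obtain ⟨-, -, -, -, hP⟩ := hword _ (fun i hi => by simpa using hw i hi) _ _ _ h1 h2 h3 h4 h5 h6 hx
    rw [hP]
    rcases (show (lineWords.getD j ([], 0)).2 = 0 ∨ (lineWords.getD j ([], 0)).2 = 1 by omega) with
      e | e <;> rw [e] <;> rfl
  -- the bits are those of one of the four sets
  obtain ⟨k, hk, hbits⟩ : ∃ k < 4, ∀ p, 1 ≤ p → p < 16 → dl p = candBit k p := by
    have h1 : dl 1 = false := by
      have h : NonZ L (64 * 1) := hunit 0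
      simp [dl, h]
    have h2 : dl 2 = false := by
      have h : NonZ L (64 * 2) := hunit 1
      simp [dl, h]
    have h4 : dl 4 = false := by
      have h : NonZ L (64 * 4) := hunit 2
      simp [dl, h]
    have h8 : dl 8 = false := by
      have h : NonZ L (64 * 8) := hunit 3
      simp [dl, h]
    exact exists_cand dl h1 h2 h4 h8 hlines
  have hchar : ∀ n < 2048, (NonZ L n ↔ (tCands.getD k 0).testBit n = true) := by
    intro n hn
    rcases Nat.eq_zero_or_pos (layN n) with hl | hl
    · have h := List.all_eq_true.1 (List.all_eq_true.1 cand_inner k (List.mem_range.2 hk)) n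
        (List.mem_range.2 hn)
      rw [hl] at h
      simp only [beq_self_eq_true, Bool.not_true, Bool.false_or, beq_iff_eq] at h
      rw [h, nonZ_inner hs L hc hn hl]
    · have hp : 1 ≤ layN n ∧ layN n < 16 := ⟨hl, layN_lt n⟩
      set p := layN n with hpdef
      have h := List.all_eq_true.1 (List.all_eq_true.1 cand_outer k (List.mem_range.2 hk)) (p - 1)
        (List.mem_range.2 (by omega))
      simp only [Nat.sub_add_cancel hp.1, Bool.and_eq_true, List.all_eq_true, List.mem_filter,
        List.mem_range, beq_iff_eq, List.contains_eq_mem, decide_eq_true_eq, and_imp] at h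
      have hrep : (64 * p + if candBit k p then 1024 else 0) = ax p := by
        simp only [ax, hbits p hp.1 hp.2]
      rw [hrep] at h
      have hA := (layer_axis hs L hc hp (h16 L p hp.1 hp.2)).2 n
      rw [mem_layerT] at hA
      constructor
      · intro hnz
        obtain ⟨r, hr, hrn, hnr⟩ := hA.1 ⟨hn, rfl, hnz⟩
        rw [(hax p hp.1 hp.2 r hr).1 hrn] at hnr
        exact h.1 n hnr
      · intro hb
        refine (hA.2 ⟨ax p, ?_, ?_, h.2 n hn rfl hb⟩).2.2
        · simp only [ax]; cases dl p <;> simp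
        · refine (hax p hp.1 hp.2 _ ?_).2 rfl
          simp only [ax]; cases dl p <;> simp
  rcases Nat.eq_zero_or_pos k with rfl | hk0
  · intro n hn
    rw [hchar n hn, tCands_zero]
  exfalso
  have h := List.all_eq_true.1 bad_check (k - 1) (List.mem_range.2 (by omega))
  simp only [Nat.sub_add_cancel hk0, Bool.and_eq_true, decide_eq_true_eq] at h
  obtain ⟨⟨⟨⟨ht1, ht2⟩, hb1⟩, hb2⟩, hne⟩ := h
  apply hne
  set T := tCands.getD k 0 with hT
  set t1 := (badWitness.getD (k - 1) (0, 0)).1
  set t2 := (badWitness.getD (k - 1) (0, 0)).2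
  have hle : ∀ a b : Nat, a < 2048 → b < 2048 → T.testBit a = true → T.testBit b = true →
      (List.range 2048).countP (fun u => T.testBit u && T.testBit (a ^^^ u)) ≤
        (List.range 2048).countP (fun u => T.testBit u && T.testBit (b ^^^ u)) := by
    intro a b ha hb hTa hTb
    obtain ⟨f, hf1, hfab, hfx, hfi, hfnz⟩ := exists_code_map hs hc L
      (hone L a b ha hb ((hchar a ha).2 hTa) ((hchar b hb).2 hTb)) hb
    rw [countP_range_eq, countP_range_eq]
    refine Finset.card_le_card_of_injOn f (fun u hu => ?_) (fun u hu v hv e => ?_)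
    · simp only [Finset.coe_filter, Finset.mem_range, Set.mem_ofPred_eq, Bool.and_eq_true] at hu ⊢
      obtain ⟨hu, h1, h2⟩ := hu
      have hau : a ^^^ u < 2048 := Nat.xor_lt_two_pow (n := 11) ha hu
      refine ⟨hf1 u hu, (hchar _ (hf1 u hu)).1 ((hfnz u hu).2 ((hchar u hu).2 h1)), ?_⟩
      rw [← hfab, ← hfx a ha u hu]
      exact (hchar _ (hf1 _ hau)).1 ((hfnz _ hau).2 ((hchar _ hau).2 h2))
    · simp only [Finset.coe_filter, Finset.mem_range, Set.mem_ofPred_eq] at hu hv
      exact hfi u hu.1 v hv.1 e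
  exact le_antisymm (hle t1 t2 ht1 ht2 hb1 hb2) (hle t2 t1 ht2 ht1 hb2 hb1)

end CfsgLib.LargeFischer.Base
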