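import Cfsg.Agent.Lib.LargeFischer.Base.Layers

/-!
Large Fischer type: the two orbits of the normaliser on the nonidentity elements of the elementary
abelian subgroup, given control of fusion and the arithmetic of orbit lengths.
-/

set_option autoImplicit false
set_option linter.unusedSectionVars false
set_option linter.style.haveILetI false

namespace CfsgLib.LargeFischer.Base

open Orbits CfsgLib.ExtraspecialLarge

theorem inner_count : (List.range 2048).countP (fun n => layN n == 0 && shortN (wN n)) = 36 := by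
  decide +kernel

theorem inner_word_check : ((List.range 2048).all fun n => layN n != 0 || !shortN (wN n) ||
    ((word18.any fun w => wordN w (wN 1) == wN n) &&
      bitsN.any fun b => trN b n == n ^^^ 1024)) = true := by decide +kernel

theorem inner_pair_check : ((List.range 2048).all fun n => layN n != 0 ||
    (decide (n / 64 % 16 = 0) && (cdN (wN n) == n % 64))) = true := by decide +kernel

theorem layF_zero : ((List.range 3).all fun i => layF i 0 == 0) = true := by decide +kernel

theorem inner_one : layN 1 = 0 ∧ shortN (wN 1) = true := by decide +kernel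

variable {G : Type*} [Group G] [Finite G] {z : G}
  {Q : Subgroup ↥(Subgroup.centralizer ({z} : Set G))} [Q.Normal]
  (hs : Cfsg.IsExtraspecialCentralizerSetting z Q 6) {C : Coords z Q} (hc : C.ClassData 0)
  (L : Lifts C)
include hs hc

omit hs hc in
/-- The orbit of an element under the normaliser. -/
def orbN (C : Coords z Q) (a : G) : Set G :=
  {b | ∃ m ∈ Subgroup.normalizer (baseA C : Set G), m * a * m⁻¹ = b}

open scoped Classical in
omit hs hc in
/-- The codes of an orbit. -/
noncomputable def orbCodes (a : G) : Finset Nat :=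
  (Finset.range 2048).filter fun n => MConj C a (gpt L n)

theorem card_orbN {a : G} (ha : a ∈ baseA C) : Nat.card (orbN C a) = (orbCodes L a).card := by
  classical
  rw [← Nat.card_eq_finsetCard]
  have hmem : ∀ b ∈ orbN C a, b ∈ baseA C := by
    rintro b ⟨m, hm, rfl⟩
    exact (Subgroup.mem_normalizer_iff.1 hm a).1 ha
  choose! f hf1 hf2 using fun b (hb : b ∈ baseA C) => exists_gpt hs L hc hb
  refine Nat.card_eq_of_bijective
    (fun b : orbN C a => (⟨f b.1, Finset.mem_filter.2 ⟨Finset.mem_range.2 (hf1 _ (hmem _ b.2)), by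
      rw [hf2 _ (hmem _ b.2)]; exact b.2⟩⟩ : {n // n ∈ orbCodes L a})) ⟨?_, ?_⟩
  · intro b d h
    have h' : f b.1 = f d.1 := congrArg Subtype.val h
    exact Subtype.ext (by rw [← hf2 _ (hmem _ b.2), h', hf2 _ (hmem _ d.2)])
  · rintro ⟨n, hn⟩
    obtain ⟨hn1, hn2⟩ := Finset.mem_filter.1 hn
    refine ⟨⟨gpt L n, hn2⟩, Subtype.ext ?_⟩
    exact gpt_injective hs L hc (hf1 _ (hmem _ hn2)) (Finset.mem_range.1 hn1) (hf2 _ (hmem _ hn2))

variable (hctl : ∀ a ∈ baseA C, ∀ g : G, g * a * g⁻¹ ∈ baseA C →
  ∃ m ∈ Subgroup.normalizer (baseA C : Set G), m * a * m⁻¹ = g * a * g⁻¹)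

theorem card_inner : (layerT L 0).card = 36 := by
  classical
  have h : layerT L 0 = ((List.range 2048).filter fun n => layN n == 0 && shortN (wN n)).toFinset := by
    ext n
    rw [mem_layerT, List.mem_toFinset, List.mem_filter, List.mem_range, Bool.and_eq_true, beq_iff_eq]
    exact ⟨fun ⟨h1, h2, h3⟩ => ⟨h1, h2, (nonZ_inner hs L hc h1 h2).1 h3⟩,
      fun ⟨h1, h2, h3⟩ => ⟨h1, h2, (nonZ_inner hs L hc h1 h2).2 h3⟩⟩
  rw [h, List.toFinset_card_of_nodup (List.nodup_range.filter _), ← List.countP_eq_length_filter,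
    inner_count]

open scoped Classical in
include hctl in
/-- The number of conjugates of `z` in terms of one layer. -/
theorem card_orb_layer :
    Nat.card (orbN C z) + 36 + 15 * (layerT L 1).card = 2047 := by
  rw [card_orbN hs hc L (z_mem_baseA hs C hc)]
  set T := (Finset.range 2048).filter fun n => NonZ L n with hT
  have hTc : T.card = 36 + 15 * (layerT L 1).card := by
    have hfib := Finset.card_eq_sum_card_fiberwise
      (s := T) (t := Finset.range 16) (f := layN) (fun n _ => Finset.mem_range.2 (layN_lt n))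
    have heach : ∀ p, (T.filter fun n => layN n = p) = layerT L p := by
      intro p
      ext n
      simp only [mem_layerT, hT, Finset.mem_filter, Finset.mem_range]
      exact ⟨fun h => ⟨h.1.1, h.2, h.1.2⟩, fun h => ⟨⟨h.1, h.2.2⟩, h.2.1⟩⟩
    simp only [heach] at hfib
    rw [hfib, Finset.sum_range_succ']
    rw [Finset.sum_congr rfl fun p hp => card_layerT_eq hs L hc (p := p + 1) (q := 1)
      ⟨by omega, by have := Finset.mem_range.1 hp; omega⟩ ⟨le_rfl, by norm_num⟩]
    rw [card_inner hs hc L, Finset.sum_const, Finset.card_range, smul_eq_mul]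
    omega
  have hdisj : Disjoint (orbCodes L z) T := by
    rw [Finset.disjoint_left]
    intro n hn hnT
    obtain ⟨-, hm⟩ := Finset.mem_filter.1 hn
    exact (Finset.mem_filter.1 hnT).2.2 (hm.isConj.1 (IsConj.refl z))
  have hunion : orbCodes L z ∪ T = (Finset.range 2048).erase 0 := by
    ext n
    simp only [Finset.mem_union, orbCodes, hT, Finset.mem_filter, Finset.mem_range,
      Finset.mem_erase]
    constructor
    · rintro (⟨hn, hm⟩ | ⟨hn, h0, -⟩)
      · refine ⟨fun e => ?_, hn⟩
        subst e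
        obtain ⟨m, -, hmn⟩ := hm
        rw [gpt_zero hs L hc, conj_eq_one_iff] at hmn
        exact zH_ne_one hs (Subtype.ext hmn)
      · exact ⟨h0, hn⟩
    · rintro ⟨h0, hn⟩
      by_cases hcj : IsConj z (gpt L n)
      · left
        obtain ⟨g, hg⟩ := isConj_iff.1 hcj
        obtain ⟨m, hm, hmg⟩ := hctl z (z_mem_baseA hs C hc) g (by rw [hg]; exact gpt_mem hs L hc n)
        exact ⟨hn, m, hm, hmg.trans hg⟩
      · exact Or.inr ⟨hn, h0, hcj⟩
  have h := congrArg Finset.card hunion
  rw [Finset.card_union_of_disjoint hdisj, Finset.card_erase_of_mem (Finset.mem_range.2 (by norm_num)),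
    Finset.card_range, hTc] at h
  omega

include hctl in
theorem orb_form : ∃ k ≤ 8, Nat.card (orbN C z) = 91 + 240 * k := by
  classical
  obtain ⟨L⟩ := exists_lifts hs C hc
  have h := card_orb_layer hs hc L hctl
  have hb := layerT_blocks hs L hc (p := 1) ⟨le_rfl, by norm_num⟩
  set a := (blockReps 1).countP fun r => decide (NonZ L r)
  have ha : a ≤ 8 := (List.countP_le_length).trans (le_of_eq (by decide +kernel))
  exact ⟨8 - a, by omega, by omega⟩

variable (h1771 : Nat.card (orbN C z) = 1771)

include hctl h1771 in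
theorem card_layerT {p : Nat} (hp1 : 1 ≤ p) (hp2 : p < 16) : (layerT L p).card = 16 := by
  have h := card_orb_layer hs hc L hctl
  rw [card_layerT_eq hs L hc (p := p) (q := 1) ⟨hp1, hp2⟩ ⟨le_rfl, by norm_num⟩]
  omega

/-- The non-conjugates of `z` in the layer of the 3-space are conjugate. -/
theorem mconj_inner {n : Nat} (hn : n < 2048) (hl : layN n = 0) (hs' : shortN (wN n) = true) :
    MConj C (gpt L 1) (gpt L n) := by
  have key : ∀ w : List Nat, (∀ i ∈ w, i < 3) →
      ∃ m < 2048, MConj C (gpt L 1) (gpt L m) ∧ layN m = 0 ∧ wN m = wordN w (wN 1) := by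
    intro w
    induction w with
    | nil => intro _; exact ⟨1, by norm_num, MConj.refl C _, inner_one.1, rfl⟩
    | cons i w ih =>
      intro hw
      obtain ⟨m, hm, hmc, hml, hmw⟩ := ih fun j hj => hw j (List.mem_cons_of_mem _ hj)
      obtain ⟨c, hcn, -, hcm, -, hmap⟩ :=
        exists_layer_map hs L hc ⟨i, hw i List.mem_cons_self⟩
      obtain ⟨m', hm', hcm', hl'⟩ := hmap m hm
      have hl0 : layN m' = 0 := by
        rw [hl', hml]
        simpa using List.all_eq_true.1 layF_zero i (List.mem_range.2 (hw i List.mem_cons_self))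
      refine ⟨m', hm', hmc.trans ⟨c.1, hcn, congrArg Subtype.val hcm'⟩, hl0, ?_⟩
      have h1 := (rep_inner hs L hc hm hml).conj hs c
      rw [hcm'] at h1
      have h2 := congrArg enc ((rep_inner hs L hc hm' hl0).unique hs h1)
      rw [hcm, enc_dec (wN m') (appN_lt _ _ (by decide)), enc_dec (wN m) (appN_lt _ _ (by decide))] at h2
      rw [h2, hmw]
      rfl
  have hk := List.all_eq_true.1 inner_word_check n (List.mem_range.2 hn)
  simp only [hl, hs', bne_self_eq_false, Bool.not_true, Bool.or_self, Bool.false_or,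
    Bool.and_eq_true, List.any_eq_true, beq_iff_eq] at hk
  obtain ⟨⟨w, hwm, hw⟩, b, hb, hflip⟩ := hk
  obtain ⟨m, hm, hmc, hml, hmw⟩ := key w fun i hi => by
    simpa using List.all_eq_true.1
      (List.all_eq_true.1 word_lt_check w (List.mem_append_left _ hwm)) i hi
  rw [hw] at hmw
  have hpn := List.all_eq_true.1 inner_pair_check n (List.mem_range.2 hn)
  have hpm := List.all_eq_true.1 inner_pair_check m (List.mem_range.2 hm)
  simp only [hl, hml, bne_self_eq_false, Bool.false_or, Bool.and_eq_true, decide_eq_true_eq,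
    beq_iff_eq, hmw] at hpn hpm
  rcases (by omega : n / 1024 = m / 1024 ∨ n / 1024 ≠ m / 1024) with h | h
  · obtain rfl : m = n := by omega
    exact hmc
  · have hblt : b < 4096 := by simp [bitsN] at hb; omega
    have hflip' : MConj C (gpt L n) (gpt L (n ^^^ 1024)) := hflip ▸ mconj_trN hs L hc hblt n
    obtain rfl : n ^^^ 1024 = m := by
      have hx : ∀ x < 2048, x ^^^ 1024 = if x < 1024 then x + 1024 else x - 1024 := by decide +kernel
      rw [hx n hn]
      split_ifs <;> omega
    exact hmc.trans hflip'.symm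

variable (h23 : ∀ a ∈ baseA C, a ≠ 1 → 23 ∣ Nat.card (orbN C a))

open scoped Classical in
include hctl h1771 h23 in
/-- The non-conjugates of `z` form one orbit. -/
theorem mconj_nonZ {a b : Nat} (ha : a < 2048) (hb : b < 2048) (hA : NonZ L a) (hB : NonZ L b) :
    MConj C (gpt L a) (gpt L b) := by
  have h16 : ∀ p, 1 ≤ p → p < 16 → (layerT L p).card = 16 :=
    fun p hp1 hp2 => card_layerT hs hc L hctl h1771 hp1 hp2
  -- one class in each layer
  have hlayer : ∀ p, 1 ≤ p → p < 16 → ∀ n ∈ layerT L p, ∀ m ∈ layerT L p,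
      MConj C (gpt L n) (gpt L m) := by
    intro p hp1 hp2 n hn m hm
    obtain ⟨hiff, hblk⟩ := layer_axis hs L hc ⟨hp1, hp2⟩ (h16 p hp1 hp2)
    obtain ⟨r, hr, hrn, hnr⟩ := (hblk n).1 hn
    obtain ⟨r', hr', hrn', hmr⟩ := (hblk m).1 hm
    have : r = r' := by
      simp only [List.mem_cons, List.not_mem_nil, or_false] at hr hr'
      rcases hr with rfl | rfl <;> rcases hr' with rfl | rfl <;> first
        | rfl
        | exact absurd hrn' (hiff.1 hrn)
        | exact absurd hrn (hiff.1 hrn')
    subst this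
    exact (mconj_block hs L hc ⟨hp1, hp2⟩ hnr).symm.trans (mconj_block hs L hc ⟨hp1, hp2⟩ hmr)
  -- the layers are joined
  have houter : ∀ n m, n < 2048 → m < 2048 → NonZ L n → NonZ L m → layN n ≠ 0 → layN m ≠ 0 →
      MConj C (gpt L n) (gpt L m) := by
    intro n m hn hm hnz hmz hn0 hm0
    have key : ∀ (k : Nat) (l : List Nat),
        (∀ p ∈ l, ∃ x ∈ layerT L p, MConj C (gpt L n) (gpt L x)) →
        ∀ p ∈ layReach k l, ∃ x ∈ layerT L p, MConj C (gpt L n) (gpt L x) := by
      intro k
      induction k with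
      | zero => intro l h; exact h
      | succ k ih =>
        intro l h
        refine ih _ fun p hp => ?_
        rw [List.mem_dedup, List.mem_append, List.mem_flatMap] at hp
        rcases hp with hp | ⟨q, hq, hp⟩
        · exact h p hp
        obtain ⟨x, hx, hnx⟩ := h q hq
        obtain ⟨hx1, hx2, hxz⟩ := (mem_layerT L).1 hx
        obtain ⟨i, hi⟩ : ∃ i : Fin 3, p = layF i.val q := by
          simp only [List.mem_cons, List.not_mem_nil, or_false] at hp
          rcases hp with rfl | rfl | rfl
          exacts [⟨0, rfl⟩, ⟨1, rfl⟩, ⟨2, rfl⟩]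
        obtain ⟨c, hcn, -, -, -, hmap⟩ := exists_layer_map hs L hc i
        obtain ⟨y, hy, hcy, hly⟩ := hmap x hx1
        have hmc : MConj C (gpt L x) (gpt L y) := ⟨c.1, hcn, congrArg Subtype.val hcy⟩
        refine ⟨y, (mem_layerT L).2 ⟨hy, by rw [hly, hx2, hi], ?_, fun h' => hxz.2 (hmc.isConj.2 h')⟩,
          hnx.trans hmc⟩
        rintro rfl
        obtain ⟨m', -, hm'⟩ := hmc
        rw [gpt_zero hs L hc, conj_eq_one_iff] at hm'
        exact gpt_ne_one hs L hc hx1 hxz.1 hm'
    have h := List.all_eq_true.1 (List.all_eq_true.1 layReach_check (layN n - 1)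
      (List.mem_range.2 (by have := layN_lt n; omega))) (layN m - 1)
      (List.mem_range.2 (by have := layN_lt m; omega))
    rw [Nat.sub_add_cancel (Nat.pos_of_ne_zero hn0), Nat.sub_add_cancel (Nat.pos_of_ne_zero hm0)] at h
    obtain ⟨x, hx, hnx⟩ := key 8 [layN n] (fun p hp => by
      rw [List.mem_singleton] at hp
      subst hp
      exact ⟨n, (mem_layerT L).2 ⟨hn, rfl, hnz⟩, MConj.refl C _⟩) (layN m) (by simpa using h)
    exact hnx.trans (hlayer _ (Nat.pos_of_ne_zero hm0) (layN_lt m) x hx m
      ((mem_layerT L).2 ⟨hm, rfl, hmz⟩))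
  -- the layer of the 3-space joins them
  obtain ⟨x, hx, hx0, hxz, hx1⟩ : ∃ x < 2048, layN x ≠ 0 ∧ NonZ L x ∧
      MConj C (gpt L 1) (gpt L x) := by
    by_contra hno
    push Not at hno
    have h1z : NonZ L 1 := (nonZ_inner hs L hc (by norm_num) inner_one.1).2 inner_one.2
    have hset : orbCodes L (gpt L 1) = layerT L 0 := by
      ext n
      rw [orbCodes, Finset.mem_filter, Finset.mem_range, mem_layerT]
      constructor
      · rintro ⟨hn, hm⟩
        have hnz : NonZ L n := by
          refine ⟨fun e => ?_, fun h' => h1z.2 (hm.isConj.2 h')⟩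
          subst e
          obtain ⟨m', -, hm'⟩ := hm
          rw [gpt_zero hs L hc, conj_eq_one_iff] at hm'
          exact gpt_ne_one hs L hc (by norm_num) one_ne_zero hm'
        exact ⟨hn, by_contra fun h => hno n hn h hnz hm, hnz⟩
      · rintro ⟨hn, hl, hnz⟩
        exact ⟨hn, mconj_inner hs hc L hn hl ((nonZ_inner hs L hc hn hl).1 hnz)⟩
    have h := h23 _ (gpt_mem hs L hc 1) (gpt_ne_one hs L hc (by norm_num) one_ne_zero)
    rw [card_orbN hs hc L (gpt_mem hs L hc 1), hset, card_inner hs hc L] at h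
    norm_num at h
  have hall : ∀ n, n < 2048 → NonZ L n → MConj C (gpt L 1) (gpt L n) := by
    intro n hn hnz
    by_cases hl : layN n = 0
    · exact mconj_inner hs hc L hn hl ((nonZ_inner hs L hc hn hl).1 hnz)
    · exact hx1.trans (houter x n hx hn hxz hnz hx0 hl)
  exact (hall a ha hA).symm.trans (hall b hb hB)

include hctl h1771 h23 in
/-- Two orbits on the nonidentity elements. -/
theorem two_orbits_baseA : ∀ a ∈ baseA C, ∀ b ∈ baseA C, a ≠ 1 → b ≠ 1 →
    (IsConj z a ↔ IsConj z b) → MConj C a b := by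
  intro a ha b hb ha1 hb1 hiff
  obtain ⟨L⟩ := exists_lifts hs C hc
  obtain ⟨n, hn, rfl⟩ := exists_gpt hs L hc ha
  obtain ⟨m, hm, rfl⟩ := exists_gpt hs L hc hb
  by_cases hcj : IsConj z (gpt L n)
  · obtain ⟨g, hg⟩ := isConj_iff.1 ((hcj.symm).trans (hiff.1 hcj))
    obtain ⟨k, hk, hkg⟩ := hctl _ ha g (by rw [hg]; exact hb)
    exact ⟨k, hk, hkg.trans hg⟩
  · have h0 : ∀ k, gpt L k ≠ 1 → k ≠ 0 := fun k h e => h (e ▸ gpt_zero hs L hc)
    exact mconj_nonZ hs hc L hctl h1771 h23 hn hm ⟨h0 n ha1, hcj⟩
      ⟨h0 m hb1, fun h => hcj (hiff.2 h)⟩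

end CfsgLib.LargeFischer.Base
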