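import Cfsg.Agent.Lib.LargeFischer.Base.Unique
import Mathlib.GroupTheory.Sylow
import Mathlib.GroupTheory.Nilpotent

/-!
Large Fischer type: `baseA` is the only elementary abelian subgroup of largest order of a Sylow
2-subgroup containing it, and a Sylow 2-subgroup of the centraliser of `z` is one of the group.
-/

set_option autoImplicit false
set_option linter.unusedSectionVars false
set_option linter.style.haveILetI false

namespace CfsgLib.LargeFischer.Base

open Orbits CfsgLib.ExtraspecialLarge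

theorem elem_map {G G' : Type*} [Group G] [Group G'] (f : G →* G') {A : Subgroup G}
    (hA : Cfsg.IsElementaryAbelian 2 A) : Cfsg.IsElementaryAbelian 2 (A.map f) := by
  refine ⟨⟨⟨?_⟩⟩, ?_⟩
  · rintro ⟨_, a, ha, rfl⟩ ⟨_, b, hb, rfl⟩
    have h : a * b = b * a := congrArg Subtype.val (hA.1.is_comm.comm ⟨a, ha⟩ ⟨b, hb⟩)
    exact Subtype.ext (by show f a * f b = f b * f a; rw [← map_mul, ← map_mul, h])
  · rintro _ ⟨a, ha, rfl⟩
    rw [← map_pow, hA.2 a ha, map_one]

theorem elem_subgroupOf {G : Type*} [Group G] {A T : Subgroup G}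
    (hA : Cfsg.IsElementaryAbelian 2 A) : Cfsg.IsElementaryAbelian 2 (A.subgroupOf T) := by
  refine ⟨⟨⟨?_⟩⟩, ?_⟩
  · rintro ⟨a, ha⟩ ⟨b, hb⟩
    exact Subtype.ext (Subtype.ext
      (congrArg Subtype.val (hA.1.is_comm.comm ⟨a.1, ha⟩ ⟨b.1, hb⟩) :))
  · intro a ha
    exact Subtype.ext (by rw [Subgroup.coe_pow, hA.2 a.1 ha, Subgroup.coe_one])

theorem maxElem_eq_singleton {G : Type*} [Group G] [Finite G] {A T : Subgroup G} {n : ℕ}
    (hA : Cfsg.IsElementaryAbelian 2 A) (hle : A ≤ T) (hn : Nat.card A = n)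
    (huniq : ∀ B : Subgroup G, B ≤ T → Cfsg.IsElementaryAbelian 2 B → n ≤ Nat.card B → B = A) :
    Cfsg.maxElementaryAbelianSubgroups 2 ↥T = {A.subgroupOf T} := by
  have key : ∀ B : Subgroup ↥T, Cfsg.IsElementaryAbelian 2 B → n ≤ Nat.card B →
      B = A.subgroupOf T := by
    intro B hB hBn
    have h := huniq (B.map T.subtype) (Subgroup.map_subtype_le B) (elem_map _ hB)
      (by rwa [Subgroup.card_map_of_injective (Subgroup.subtype_injective _)])
    rw [← h, Subgroup.subgroupOf, Subgroup.comap_map_eq_self_of_injective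
      (Subgroup.subtype_injective _)]
  have hcA : Nat.card (A.subgroupOf T) = n :=
    (Nat.card_congr (Subgroup.subgroupOfEquivOfLe hle).toEquiv).trans hn
  ext B
  rw [Set.mem_singleton_iff]
  refine ⟨fun h => key B h.1 (hcA ▸ h.2 _ (elem_subgroupOf hA)), ?_⟩
  rintro rfl
  refine ⟨elem_subgroupOf hA, fun B hB => ?_⟩
  by_contra hlt
  push Not at hlt
  rw [hcA] at hlt
  have := key B hB hlt.le
  rw [this, hcA] at hlt
  exact lt_irrefl _ hlt

theorem thompson_eq_of_unique {G : Type*} [Group G] [Finite G] {A T : Subgroup G} {n : ℕ}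
    (hA : Cfsg.IsElementaryAbelian 2 A) (hle : A ≤ T) (hn : Nat.card A = n)
    (huniq : ∀ B : Subgroup G, B ≤ T → Cfsg.IsElementaryAbelian 2 B → n ≤ Nat.card B → B = A) :
    Cfsg.thompsonSubgroupOf 2 T = A := by
  rw [Cfsg.thompsonSubgroupOf, Cfsg.thompsonSubgroup, maxElem_eq_singleton hA hle hn huniq,
    sSup_singleton, Subgroup.map_subgroupOf_eq_of_le hle]

theorem unique_map {G G' : Type*} [Group G] [Group G'] (e : G ≃* G') {A T : Subgroup G} {n : ℕ}
    (huniq : ∀ B : Subgroup G, B ≤ T → Cfsg.IsElementaryAbelian 2 B → n ≤ Nat.card B → B = A) :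
    ∀ B : Subgroup G', B ≤ T.map e.toMonoidHom → Cfsg.IsElementaryAbelian 2 B → n ≤ Nat.card B →
      B = A.map e.toMonoidHom := by
  intro B hB hel hn
  have h := huniq (B.map e.symm.toMonoidHom) ?_ (elem_map _ hel) ?_
  · rw [← h, Subgroup.map_map]
    convert (Subgroup.map_id B).symm using 2
    ext a
    simp
  · rintro _ ⟨b, hb, rfl⟩
    obtain ⟨a, ha, rfl⟩ := hB hb
    simpa using ha
  · rwa [Subgroup.card_map_of_injective e.symm.injective]

variable {G : Type*} [Group G] [Finite G] {z : G}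
  {Q : Subgroup ↥(Subgroup.centralizer ({z} : Set G))} [Q.Normal]
  (hs : Cfsg.IsExtraspecialCentralizerSetting z Q 6) (C : Coords z Q) (hc : C.ClassData 0)
include hs hc

theorem isPGroup_baseH : IsPGroup 2 (baseH C) := fun a => ⟨1, by
  rw [pow_one, pow_two]
  exact Subtype.ext (baseH_sq hs C hc a.2)⟩

theorem eq_baseH_of_elem {B : Subgroup ↥(Subgroup.centralizer ({z} : Set G))}
    (hB : Cfsg.IsElementaryAbelian 2 B) (hcard : 2 ^ 11 ≤ Nat.card B)
    (hnorm : ∀ b ∈ B, ∀ a ∈ baseH C, b * a * b⁻¹ ∈ baseH C) : B = baseH C :=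
  eq_baseH hs C B hc
    (fun a ha b hb => congrArg Subtype.val (hB.1.is_comm.comm ⟨a, ha⟩ ⟨b, hb⟩))
    (fun a ha => (pow_two a).symm.trans (hB.2 a ha)) hcard hnorm

/-- A 2-subgroup containing `baseH` normalises it. -/
theorem conj_mem_baseH {T : Subgroup ↥(Subgroup.centralizer ({z} : Set G))} (hT : IsPGroup 2 T)
    (hle : baseH C ≤ T) : ∀ g ∈ T, ∀ a ∈ baseH C, g * a * g⁻¹ ∈ baseH C := by
  haveI : Fact (Nat.Prime 2) := ⟨Nat.prime_two⟩
  haveI : Group.IsNilpotent T := hT.isNilpotent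
  set A' := (baseH C).subgroupOf T with hA'
  set S := Subgroup.normalizer (A' : Set T) with hS
  have hmem : ∀ g ∈ S, ∀ a ∈ baseH C, (g : ↥(Subgroup.centralizer ({z} : Set G))) * a *
      (g : ↥(Subgroup.centralizer ({z} : Set G)))⁻¹ ∈ baseH C := by
    intro g hg a ha
    exact (Subgroup.mem_normalizer_iff.1 hg ⟨a, hle ha⟩).1 ha
  suffices htop : S = ⊤ by
    intro g hg a ha
    exact hmem ⟨g, hg⟩ (by rw [htop]; exact Subgroup.mem_top _) a ha
  by_contra hne
  have hlt := Group.normalizerCondition_of_isNilpotent (G := T) S (lt_top_iff_ne_top.2 hne)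
  obtain ⟨g, hg, hgS⟩ := SetLike.exists_of_lt hlt
  set B := (baseH C).map (MulAut.conj (g : ↥(Subgroup.centralizer ({z} : Set G)))).toMonoidHom
  have helem : Cfsg.IsElementaryAbelian 2 (baseH C) :=
    ⟨⟨⟨fun a b => Subtype.ext (baseH_comm hs C hc a.2 b.2)⟩⟩,
      fun a ha => (pow_two a).trans (baseH_sq hs C hc ha)⟩
  have hB : B = baseH C := by
    refine eq_baseH_of_elem hs C hc (elem_map _ helem) ?_ ?_
    · rw [Subgroup.card_map_of_injective (MulAut.conj _).injective, card_baseH hs C hc]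
    · rintro _ ⟨b, hb, rfl⟩ a ha
      have hbS : (⟨b, hle hb⟩ : T) ∈ S := Subgroup.le_normalizer (by exact hb)
      exact hmem _ ((Subgroup.mem_normalizer_iff.1 hg _).1 hbS) a ha
  refine hgS ?_
  refine Subgroup.mem_normalizer_fintype fun a ha => ?_
  show (g : ↥(Subgroup.centralizer ({z} : Set G))) * a * (g : ↥(Subgroup.centralizer ({z} : Set G)))⁻¹
    ∈ baseH C
  rw [← hB]
  exact ⟨a, ha, rfl⟩

theorem unique_in_H {T : Subgroup ↥(Subgroup.centralizer ({z} : Set G))} (hT : IsPGroup 2 T)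
    (hle : baseH C ≤ T) : ∀ B : Subgroup ↥(Subgroup.centralizer ({z} : Set G)), B ≤ T →
      Cfsg.IsElementaryAbelian 2 B → 2 ^ 11 ≤ Nat.card B → B = baseH C :=
  fun _ hBT hB hcard => eq_baseH_of_elem hs C hc hB hcard
    fun b hb => conj_mem_baseH hs C hc hT hle b (hBT hb)

theorem exists_sylow_baseH : ∃ T : Sylow 2 ↥(Subgroup.centralizer ({z} : Set G)),
    baseH C ≤ (T : Subgroup ↥(Subgroup.centralizer ({z} : Set G))) :=
  (isPGroup_baseH hs C hc).exists_le_sylow

/-- A Sylow 2-subgroup containing `baseA`, inside the centraliser of `z`. -/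
theorem exists_sylow_baseA : ∃ T : Sylow 2 G, baseA C ≤ (T : Subgroup G) ∧
    (T : Subgroup G) ≤ Subgroup.centralizer ({z} : Set G) ∧
    ∀ B : Subgroup G, B ≤ (T : Subgroup G) → Cfsg.IsElementaryAbelian 2 B →
      2 ^ 11 ≤ Nat.card B → B = baseA C := by
  haveI : Fact (Nat.Prime 2) := ⟨Nat.prime_two⟩
  obtain ⟨T₀, h₀⟩ := exists_sylow_baseH hs C hc
  set T₁ := (T₀ : Subgroup ↥(Subgroup.centralizer ({z} : Set G))).map
    (Subgroup.centralizer ({z} : Set G)).subtype with hT₁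
  have hQ : Q ≤ (T₀ : Subgroup ↥(Subgroup.centralizer ({z} : Set G))) :=
    (IsPGroup.of_card hs.2.2.2.1).le_sylow_of_normal T₀
  have hz1 : z ∈ T₁ := ⟨zH z, hQ (zH_mem hs), rfl⟩
  have hA1 : baseA C ≤ T₁ := Subgroup.map_mono h₀
  obtain ⟨P, hP⟩ := (T₀.2.map (Subgroup.centralizer ({z} : Set G)).subtype).exists_le_sylow
  have hH1 : T₁ ≤ Subgroup.centralizer ({z} : Set G) := Subgroup.map_subtype_le _
  have hPeq : T₁ = (P : Subgroup G) := by
    refine le_antisymm hP ?_
    by_contra hne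
    haveI : Group.IsNilpotent (P : Subgroup G) := P.2.isNilpotent
    set S := T₁.subgroupOf (P : Subgroup G) with hS
    have hSne : S ≠ ⊤ := fun e => hne (Subgroup.subgroupOf_eq_top.1 e)
    obtain ⟨x, hx, hxS⟩ := SetLike.exists_of_lt
      (Group.normalizerCondition_of_isNilpotent (G := (P : Subgroup G)) S (lt_top_iff_ne_top.2 hSne))
    have hconj : ∀ a ∈ T₁, x.1 * a * x.1⁻¹ ∈ T₁ ∧ x.1⁻¹ * a * x.1 ∈ T₁ := fun a ha =>
      ⟨(Subgroup.mem_normalizer_iff.1 hx ⟨a, hP ha⟩).1 ha,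
        (Subgroup.mem_normalizer_iff''.1 hx ⟨a, hP ha⟩).1 ha⟩
    -- the conjugate of `z` is central
    have hzc : ∀ a ∈ T₁, x.1 * z * x.1⁻¹ * a = a * (x.1 * z * x.1⁻¹) := by
      intro a ha
      have h := Subgroup.mem_centralizer_singleton_iff.1 (hH1 (hconj a ha).2)
      calc x.1 * z * x.1⁻¹ * a = x.1 * (z * (x.1⁻¹ * a * x.1)) * x.1⁻¹ := by group
        _ = x.1 * ((x.1⁻¹ * a * x.1) * z) * x.1⁻¹ := by rw [h]
        _ = _ := by group
    have hz' : x.1 * z * x.1⁻¹ ∈ baseA C := centralizer_baseA hs C hc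
      (Subgroup.mem_centralizer_iff.2 fun a ha => (hzc a (hA1 ha)).symm)
    have hzH : (⟨_, baseA_le hs C hc hz'⟩ : ↥(Subgroup.centralizer ({z} : Set G))) = 1 ∨
        (⟨_, baseA_le hs C hc hz'⟩ : ↥(Subgroup.centralizer ({z} : Set G))) = zH z :=
      centralizer_cases hs fun y hy => Subtype.ext (hzc y.1 ⟨y, hQ hy, rfl⟩)
    have hxz : x.1 * z * x.1⁻¹ = z := by
      rcases hzH with e | e
      · exact absurd (Subtype.ext (conj_eq_one_iff.1 (congrArg Subtype.val e)) : zH z = 1) (zH_ne_one hs)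
      · exact congrArg Subtype.val e
    have hxH : x.1 ∈ Subgroup.centralizer ({z} : Set G) :=
      Subgroup.mem_centralizer_singleton_iff.2 (mul_inv_eq_iff_eq_mul.1 hxz)
    have hmax := T₀.is_maximal'
      (P.2.comap_subtype (K := Subgroup.centralizer ({z} : Set G)))
      (fun a ha => hP ⟨a, ha, rfl⟩)
    refine hxS ⟨⟨x.1, hxH⟩, ?_, rfl⟩
    rw [← hmax]
    exact x.2
  refine ⟨P, hPeq ▸ hA1, hPeq ▸ hH1, fun B hB hel hn => ?_⟩
  rw [← hPeq] at hB
  have hBH : B ≤ Subgroup.centralizer ({z} : Set G) := hB.trans hH1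
  have h := unique_in_H hs C hc T₀.2 h₀ (B.subgroupOf (Subgroup.centralizer ({z} : Set G)))
    (fun a ha => by
      obtain ⟨b, hb, e⟩ := hB ha
      rwa [← Subtype.ext (e :)])
    (elem_subgroupOf hel)
    (by rwa [Nat.card_congr (Subgroup.subgroupOfEquivOfLe hBH).toEquiv])
  rw [baseA, ← h, Subgroup.map_subgroupOf_eq_of_le hBH]

/-- The Thompson subgroup of a Sylow 2-subgroup is conjugate to `baseA`. -/
theorem thompsonSubgroupOf_eq_conj (T : Sylow 2 G) :
    ∃ g : G, Cfsg.thompsonSubgroupOf 2 (T : Subgroup G) =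
      (baseA C).map (MulAut.conj g).toMonoidHom := by
  haveI : Fact (Nat.Prime 2) := ⟨Nat.prime_two⟩
  obtain ⟨T₁, hle, -, huniq⟩ := exists_sylow_baseA hs C hc
  obtain ⟨g, hg⟩ := MulAction.exists_smul_eq G T₁ T
  have hT : (T : Subgroup G) = (T₁ : Subgroup G).map (MulAut.conj g).toMonoidHom := by
    rw [← hg]; rfl
  refine ⟨g, ?_⟩
  rw [hT]
  exact thompson_eq_of_unique (elem_map _ (elem_baseA hs C hc)) (Subgroup.map_mono hle)
    ((Subgroup.card_map_of_injective (MulAut.conj g).injective).trans (card_baseA hs C hc))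
    (unique_map (MulAut.conj g) huniq)

/-- Each Sylow 2-subgroup of the centraliser of `z` has one elementary abelian subgroup of
largest order. -/
theorem sylow_unique_max (T : Sylow 2 ↥(Subgroup.centralizer ({z} : Set G))) :
    ∃ A : Subgroup ↥(T : Subgroup (Subgroup.centralizer ({z} : Set G))),
      Cfsg.maxElementaryAbelianSubgroups 2
        ↥(T : Subgroup (Subgroup.centralizer ({z} : Set G))) = {A} ∧
      Nat.card A = 2 ^ 11 ∧
      Nat.card ↥(A.map (T : Subgroup (Subgroup.centralizer ({z} : Set G))).subtype ⊓ Q) = 2 ^ 7 ∧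
      Nat.card ↥((A.map (T : Subgroup (Subgroup.centralizer ({z} : Set G))).subtype).map
        (QuotientGroup.mk' Q)) = 16 := by
  haveI : Fact (Nat.Prime 2) := ⟨Nat.prime_two⟩
  obtain ⟨T₀, h₀⟩ := exists_sylow_baseH hs C hc
  obtain ⟨g, hg⟩ := MulAction.exists_smul_eq ↥(Subgroup.centralizer ({z} : Set G)) T₀ T
  set A₁ := (baseH C).map (MulAut.conj g).toMonoidHom with hA₁
  have hT : (T : Subgroup ↥(Subgroup.centralizer ({z} : Set G))) =
      (T₀ : Subgroup ↥(Subgroup.centralizer ({z} : Set G))).map (MulAut.conj g).toMonoidHom := by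
    rw [← hg]; rfl
  have hle : A₁ ≤ (T : Subgroup ↥(Subgroup.centralizer ({z} : Set G))) :=
    hT ▸ Subgroup.map_mono h₀
  have helem : Cfsg.IsElementaryAbelian 2 A₁ := elem_map _
    ⟨⟨⟨fun a b => Subtype.ext (baseH_comm hs C hc a.2 b.2)⟩⟩,
      fun a ha => (pow_two a).trans (baseH_sq hs C hc ha)⟩
  have hcA : Nat.card A₁ = 2 ^ 11 :=
    (Subgroup.card_map_of_injective (MulAut.conj g).injective).trans (card_baseH hs C hc)
  have hQg : Q.map (MulAut.conj g).toMonoidHom = Q := Subgroup.Normal.map_conj_eq Q g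
  have hinf : Nat.card ↥(A₁ ⊓ Q) = 2 ^ 7 := by
    have h : A₁ ⊓ Q = (wLift C).map (MulAut.conj g).toMonoidHom := by
      rw [← baseH_inf hs C hc, Subgroup.map_inf _ _ _ (MulAut.conj g).injective, hQg]
    rw [h, Subgroup.card_map_of_injective (MulAut.conj g).injective, card_wLift hs C]
    norm_num
  refine ⟨A₁.subgroupOf T, maxElem_eq_singleton helem hle hcA
    (hT ▸ unique_map (MulAut.conj g) (unique_in_H hs C hc T₀.2 h₀)),
    (Nat.card_congr (Subgroup.subgroupOfEquivOfLe hle).toEquiv).trans hcA, ?_, ?_⟩ <;>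
    rw [Subgroup.map_subgroupOf_eq_of_le hle]
  · exact hinf
  · have h := card_eq_mul (z := z) (Q := Q) A₁
    rw [hcA, hinf] at h
    omega

end CfsgLib.LargeFischer.Base
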