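import Cfsg.Agent.Lib.LargeFischer.Semilinear
import Cfsg.Agent.Lib.LargeFischer.CoordsExists

/-!
Large Fischer type: coordinates in which the shorter class has exponent sum zero in weight six.
-/

set_option autoImplicit false
set_option linter.unusedSectionVars false

namespace CfsgLib.LargeFischer.Base

open Orbits

variable {G : Type*} [Group G] [Finite G] {z : G}
  {Q : Subgroup ↥(Subgroup.centralizer ({z} : Set G))} [Q.Normal]

/-- The shift of the first coordinate. -/
def tau (d : ZMod 3) : Pt ≃ Pt where
  toFun := shift (Pi.single 0 d)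
  invFun := shift (Pi.single 0 (-d))
  left_inv v := by
    funext i
    rcases hv : v i with _ | e
    · simp [shift, hv]
    · by_cases hi : i = 0
      · subst hi; simp [shift, hv]
      · simp [shift, hv, hi]
  right_inv v := by
    funext i
    rcases hv : v i with _ | e
    · simp [shift, hv]
    · by_cases hi : i = 0
      · subst hi; simp [shift, hv]
      · simp [shift, hv, hi]

theorem tau_apply (d : ZMod 3) (v : Pt) : tau d v = shift (Pi.single 0 d) v := rfl

theorem tau_symm_apply (d : ZMod 3) (v : Pt) : (tau d).symm v = shift (Pi.single 0 (-d)) v := rfl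

theorem shift_comm (a b : Fin 6 → ZMod 3) (v : Pt) : shift a (shift b v) = shift b (shift a v) := by
  funext i
  rcases hv : v i with _ | e <;> simp [shift, hv, add_right_comm]

theorem shift_addPt (a : Fin 6 → ZMod 3) (v w : Pt) :
    shift a (addPt v w) = addPt (shift a v) (shift a w) := by
  have h : ∀ (t : ZMod 3) (b c : Option (ZMod 3)), (addCoord b c).map (· + t) =
      addCoord (b.map (· + t)) (c.map (· + t)) := by decide
  funext i
  exact h _ _ _

/-- Coordinates after the shift. -/
def rescale (C : Coords z Q) (d : ZMod 3) : Coords z Q where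
  act := (MulEquiv.toMonoidHom (Equiv.permCongrHom (tau d).symm)).comp C.act
  act_injective := (Equiv.permCongrHom (tau d).symm).injective.comp C.act_injective
  lift v := C.lift (tau d v)
  lift_mem v := C.lift_mem _
  lift_surj q hq := by
    obtain ⟨v, hv⟩ := C.lift_surj q hq
    exact ⟨(tau d).symm v, by simpa using hv⟩
  lift_inj v w h := (tau d).injective (C.lift_inj _ _ h)
  lift_add v w := by
    have h := C.lift_add (tau d v) (tau d w)
    simp only [tau_apply] at h ⊢
    rwa [← shift_addPt] at h
  lift_sq v := by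
    rw [C.lift_sq, tau_apply, wt_shift]
  conj_lift a v := by
    simpa [Equiv.permCongrHom, Equiv.permCongr_apply] using C.conj_lift a (tau d v)
  P := C.P
  card_P := C.card_P
  P_mono γ hγ := by
    obtain ⟨σ, hσ, a, ha⟩ := C.P_mono γ hγ
    refine ⟨σ, hσ, fun i => a i + (Pi.single 0 d : Fin 6 → ZMod 3) i +
      (Pi.single 0 (-d) : Fin 6 → ZMod 3) (σ i), fun v i => ?_⟩
    show (tau d).symm (C.act γ (tau d v)) (σ i) = _
    rw [tau_symm_apply]
    show (C.act γ (tau d v) (σ i)).map _ = _
    rw [ha, tau_apply]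
    rcases hv : v i with _ | e <;> simp [shift, hv]
    abel
  P_diag a ha := by
    obtain ⟨γ, hγ, h⟩ := C.P_diag a ha
    refine ⟨γ, hγ, fun v => ?_⟩
    show (tau d).symm (C.act γ (tau d v)) = _
    rw [h, tau_apply, shift_comm, ← tau_apply, Equiv.symm_apply_apply]
  P_perm σ hσ := by
    obtain ⟨γ, hγ, h⟩ := C.P_perm σ hσ
    refine ⟨γ, hγ, fun v => ?_⟩
    show supp ((tau d).symm (C.act γ (tau d v))) = _
    rw [tau_symm_apply, supp_shift, h, tau_apply, supp_shift]
  x := C.x
  act_x v := by
    show (tau d).symm (C.act (QuotientGroup.mk C.x) (tau d v)) = _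
    rw [C.act_x, tau_apply, shift_comm, ← tau_apply, Equiv.symm_apply_apply]
  act_semilinear γ := by
    rcases C.act_semilinear γ with h | h
    · refine Or.inl fun v => ?_
      show (tau d).symm (C.act γ (tau d (shift _ v))) = shift _ ((tau d).symm (C.act γ (tau d v)))
      rw [tau_apply, shift_comm, h, tau_symm_apply, tau_symm_apply, tau_apply, shift_comm]
    · refine Or.inr fun v => ?_
      show (tau d).symm (C.act γ (tau d (shift _ v))) = shift _ ((tau d).symm (C.act γ (tau d v)))
      rw [tau_apply, shift_comm, h, tau_symm_apply, tau_symm_apply, tau_apply, shift_comm]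
  card_quot := C.card_quot
  seven v hv := by
    have hs : Singular (tau d v) := by
      rw [tau_apply, Orbits.singular_iff, wt_shift]
      exact Orbits.singular_iff.1 hv
    refine (C.seven _ hs).trans (dvd_of_eq (Nat.card_congr ((tau d).symm.subtypeEquiv fun w => ?_)))
    constructor
    · rintro ⟨⟨_, γ, rfl⟩, h⟩
      refine ⟨⟨_, γ, rfl⟩, ?_⟩
      show (tau d).symm (C.act γ (tau d v)) = (tau d).symm w
      rw [← h]
      rfl
    · rintro ⟨⟨_, γ, rfl⟩, h⟩
      exact ⟨⟨_, γ, rfl⟩, (tau d).symm.injective h⟩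

/-- Coordinates in which the shorter class has exponent sum zero in weight six. -/
theorem exists_normal_coords (hF : Cfsg.IsOfLargeFischerTypeAt z Q) :
    ∃ C : Coords z Q, C.ClassData 0 := by
  obtain ⟨C⟩ := exists_coords hF
  obtain ⟨c, hc⟩ := C.exists_classData hF.1
  refine ⟨rescale C c, ?_⟩
  have h2 : ∀ v, InTwo 0 v ↔ InTwo c (tau c v) := by
    intro v
    simp only [InTwo, tau_apply, wt_shift]
    refine or_congr Iff.rfl (and_congr_right fun h6 => ?_)
    rw [total_shift h6, Finset.sum_pi_single']
    simp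
  have h4 : ∀ v, InFour 0 v ↔ InFour c (tau c v) := by
    intro v
    simp only [InFour, tau_apply, wt_shift]
    refine or_congr Iff.rfl (and_congr_right fun h6 => ?_)
    rw [total_shift h6, Finset.sum_pi_single']
    simp
  have hstab : ∀ v, (rescale C c).stab v = C.stab (tau c v) := by
    intro v
    ext γ
    rw [Coords.mem_stab, Coords.mem_stab]
    show (tau c).symm (C.act γ (tau c v)) = v ↔ _
    rw [Equiv.symm_apply_eq]
  have htr : ∀ γ v, tau c ((rescale C c).act γ v) = C.act γ (tau c v) := fun γ v => by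
    show tau c ((tau c).symm (C.act γ (tau c v))) = _
    rw [Equiv.apply_symm_apply]
  refine ⟨fun γ v hv => ?_, fun γ v hv => ?_, fun v w hv hw => ?_, fun v w hv hw => ?_,
    fun v hv => ?_, fun v hv => ?_⟩
  · rw [h2, htr]; exact hc.two_act γ _ ((h2 v).1 hv)
  · rw [h4, htr]; exact hc.four_act γ _ ((h4 v).1 hv)
  · obtain ⟨γ, h⟩ := hc.two_trans _ _ ((h2 v).1 hv) ((h2 w).1 hw)
    exact ⟨γ, (tau c).injective (by rw [htr, h])⟩
  · obtain ⟨γ, h⟩ := hc.four_trans _ _ ((h4 v).1 hv) ((h4 w).1 hw)
    exact ⟨γ, (tau c).injective (by rw [htr, h])⟩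
  · rw [hstab]; exact hc.two_card _ ((h2 v).1 hv)
  · rw [hstab]; exact hc.four_card _ ((h4 v).1 hv)

end CfsgLib.LargeFischer.Base
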