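import Cfsg.Agent.Lib.LargeFischer.Base.Abelian
import Cfsg.Agent.Lib.LargeFischer.Base.Normal

/-!
Large Fischer type: existence of the self-centralising elementary abelian subgroup.
-/

set_option autoImplicit false
set_option linter.unusedSectionVars false

namespace CfsgLib.LargeFischer.Base

open CfsgLib.ExtraspecialLarge

variable {G : Type*} [Group G] [Finite G]

/-- A self-centralising elementary abelian subgroup of order `2 ^ 11` in position with `Q`. -/
structure IsBase (z : G) (Q : Subgroup ↥(Subgroup.centralizer ({z} : Set G))) [Q.Normal]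
    (A : Subgroup G) : Prop where
  elem : Cfsg.IsElementaryAbelian 2 A
  card : Nat.card A = 2 ^ 11
  z_mem : z ∈ A
  card_inter : Nat.card ↥(A ⊓ QG Q) = 2 ^ 7
  normQ : QG Q ≤ Subgroup.normalizer (A : Set G)
  cen : Subgroup.centralizer (A : Set G) ≤ A
  exists_t : ∃ t ∈ A ⊓ QG Q, t ≠ 1 ∧ ¬ IsConj z t

theorem exists_base {z : G} {Q : Subgroup ↥(Subgroup.centralizer ({z} : Set G))} [Q.Normal]
    (hF : Cfsg.IsOfLargeFischerTypeAt z Q) : ∃ A : Subgroup G, IsBase z Q A := by
  obtain ⟨C, hc⟩ := exists_normal_coords hF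
  have hs := hF.1
  exact ⟨baseA C, elem_baseA hs C hc, card_baseA hs C hc, z_mem_baseA hs C hc,
    card_baseA_inf hs C hc, QG_le_normalizer hs C hc, centralizer_baseA hs C hc,
    exists_nonconj hs C hc⟩

end CfsgLib.LargeFischer.Base
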