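import Cfsg.Agent.Lib.LargeFischer.Base.Exp

/-!
Large Fischer type: the self-centralising elementary abelian subgroup of order `2 ^ 11`, normalised
by `Q` and by the elements preserving the singular 3-space.
-/

set_option autoImplicit false
set_option linter.unusedSectionVars false
set_option linter.style.haveILetI false

namespace CfsgLib.LargeFischer.Base

open Orbits CfsgLib.ExtraspecialLarge

theorem InW.zero : InW zeroPt := by
  show enc zeroPt ∈ wList
  decide +kernel

theorem card_inW : Nat.card {v : Pt // InW v} = 64 := by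
  have hnd : wList.Nodup := by decide +kernel
  have hlt : ∀ n ∈ wList, n < 4096 := by
    intro n hn
    have h := List.all_eq_true.1 wList_check n hn
    simp only [Bool.and_eq_true, decide_eq_true_eq] at h
    exact h.1.1.1
  let e : {v : Pt // InW v} ≃ {n // n ∈ wList.toFinset} :=
    { toFun := fun v => ⟨enc v.1, List.mem_toFinset.2 v.2⟩
      invFun := fun n => ⟨dec n.1, by
        show enc (dec n.1) ∈ wList
        rw [enc_dec _ (hlt _ (List.mem_toFinset.1 n.2))]
        exact List.mem_toFinset.1 n.2⟩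
      left_inv := fun v => Subtype.ext (dec_enc v.1)
      right_inv := fun n => Subtype.ext (enc_dec _ (hlt _ (List.mem_toFinset.1 n.2))) }
  rw [Nat.card_congr e, Nat.card_eq_finsetCard, List.toFinset_card_of_nodup hnd]
  decide +kernel

/-- A linear map with kernel the 3-space. -/
def projN (n : Nat) : Nat := (n ^^^ (n >>> 2)) &&& 819

theorem projN_xor (a b : Nat) : projN (a ^^^ b) = projN a ^^^ projN b := by
  unfold projN
  rw [Nat.shiftRight_xor_distrib, ← Nat.and_xor_distrib_right]
  congr 1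
  simp only [Nat.xor_assoc, Nat.xor_comm, Nat.xor_left_comm]

theorem proj_check : ((List.range 4096).all fun n => projN n != 0 || wList.contains n) = true := by
  decide +kernel

theorem inW_of_proj {v : Pt} (h : projN (enc v) = 0) : InW v := by
  have h' := List.all_eq_true.1 proj_check (enc v) (List.mem_range.2 (enc_lt v))
  simp only [h, bne_self_eq_false, Bool.false_or, List.contains_eq_mem, decide_eq_true_eq] at h'
  exact h'

theorem move_check : ∀ p : Fin 16, (bitsN.all fun n =>
    projN (n ^^^ appN (rImg p) n) == 0) = true := by decide +kernel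

theorem rP_move (p : Fin 16) (v : Pt) : InW (addPt v (rP p v)) := by
  refine inW_of_proj ?_
  rw [enc_addPt, enc_rP]
  exact eq_of_bits (f := fun n => projN (n ^^^ appN (rImg p) n)) (g := fun _ => 0)
    (fun a b => by
      rw [← projN_xor, appN_xor]
      congr 1
      simp only [Nat.xor_assoc, Nat.xor_comm, Nat.xor_left_comm])
    (fun _ _ => rfl)
    (fun b hb => by simpa using List.all_eq_true.1 (move_check p) b hb) (enc v) (enc_lt v)

theorem wperp_check : ((List.range 4096).all fun n =>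
    projN n == 0 || ([5, 10, 80, 160, 1280, 2560] : List Nat).any fun b =>
      (qN (n ^^^ b) != qN n)) = true := by decide +kernel

/-- The 3-space is its own perpendicular. -/
theorem inW_of_perp {v : Pt}
    (h : ∀ w, InW w → (Even (wt (addPt v w)) ↔ Even (wt v))) : InW v := by
  have hb : ∀ b ∈ ([5, 10, 80, 160, 1280, 2560] : List Nat), b ∈ wList ∧ b < 4096 := by
    decide +kernel
  have h1 := List.all_eq_true.1 wperp_check (enc v) (List.mem_range.2 (enc_lt v))
  simp only [Bool.or_eq_true, beq_iff_eq, List.any_eq_true, bne_iff_ne] at h1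
  rcases h1 with h1 | ⟨b, hbm, hne⟩
  · exact inW_of_proj h1
  · exfalso
    obtain ⟨hbW, hblt⟩ := hb b hbm
    have hw : InW (dec b) := by
      show enc (dec b) ∈ wList
      rw [enc_dec b hblt]; exact hbW
    have h2 := h (dec b) hw
    rw [even_iff, even_iff, enc_addPt, enc_dec b hblt] at h2
    exact hne (Bool.eq_iff_iff.2 h2)

variable {G : Type*} [Group G] [Finite G] {z : G}
  {Q : Subgroup ↥(Subgroup.centralizer ({z} : Set G))} [Q.Normal]
  (hs : Cfsg.IsExtraspecialCentralizerSetting z Q 6) (C : Coords z Q)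

/-- The elements of `Q` over the 3-space. -/
def wLift : Subgroup ↥(Subgroup.centralizer ({z} : Set G)) :=
  Subgroup.closure {q | ∃ v, InW v ∧ C.Rep v q}

include hs

theorem mem_wLift {q : ↥(Subgroup.centralizer ({z} : Set G))} :
    q ∈ wLift C ↔ ∃ v, InW v ∧ C.Rep v q := by
  refine ⟨fun hq => ?_, fun hq => Subgroup.subset_closure hq⟩
  induction hq using Subgroup.closure_induction with
  | mem a ha => exact ha
  | one => exact ⟨zeroPt, InW.zero, C.rep_one hs⟩
  | mul a b _ _ iha ihb =>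
    obtain ⟨u, hu, hua⟩ := iha
    obtain ⟨w, hw, hwb⟩ := ihb
    exact ⟨addPt u w, hu.add hw, Coords.Rep.mul hs C hua hwb⟩
  | inv a _ iha =>
    obtain ⟨u, hu, hua⟩ := iha
    exact ⟨u, hu, by rwa [inv_eq_of_mul_eq_one_right ((hua.sq hs).2 hu.even)]⟩

theorem wLift_le : wLift C ≤ Q := fun q hq => by
  obtain ⟨v, -, hv⟩ := (mem_wLift hs C).1 hq
  exact hv.mem hs

theorem zH_mem_wLift : zH z ∈ wLift C := by
  refine (mem_wLift hs C).2 ⟨zeroPt, InW.zero, ?_⟩
  have h := (C.rep_one hs).mul_z hs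
  rwa [one_mul] at h

theorem wLift_sq {q : ↥(Subgroup.centralizer ({z} : Set G))} (hq : q ∈ wLift C) : q * q = 1 := by
  obtain ⟨v, hv, hr⟩ := (mem_wLift hs C).1 hq
  exact (hr.sq hs).2 hv.even

theorem wLift_comm {q r : ↥(Subgroup.centralizer ({z} : Set G))} (hq : q ∈ wLift C)
    (hr : r ∈ wLift C) : q * r = r * q := by
  obtain ⟨u, hu, hqu⟩ := (mem_wLift hs C).1 hq
  obtain ⟨w, hw, hrw⟩ := (mem_wLift hs C).1 hr
  exact commute_of_even hs C hqu hrw hu.even hw.even (hu.add hw).even

theorem card_wLift : Nat.card (wLift C) = 128 := by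
  let f : {v : Pt // InW v} × Bool → wLift C := fun a =>
    ⟨if a.2 then C.lift a.1.1 * zH z else C.lift a.1.1, (mem_wLift hs C).2
      ⟨a.1.1, a.1.2, by rcases a with ⟨v, _ | _⟩ <;> first | exact Or.inl rfl | exact Or.inr rfl⟩⟩
  have hinj : Function.Injective f := by
    rintro ⟨v, a⟩ ⟨w, b⟩ h
    have h' : (if a then C.lift v.1 * zH z else C.lift v.1) =
        (if b then C.lift w.1 * zH z else C.lift w.1) := congrArg Subtype.val h
    have hr : C.Rep v.1 (if a then C.lift v.1 * zH z else C.lift v.1) := by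
      cases a <;> first | exact Or.inl rfl | exact Or.inr rfl
    have hr' : C.Rep w.1 (if b then C.lift w.1 * zH z else C.lift w.1) := by
      cases b <;> first | exact Or.inl rfl | exact Or.inr rfl
    rw [h'] at hr
    obtain rfl : v = w := Subtype.ext (hr.unique hs hr')
    cases a <;> cases b <;> first
      | rfl
      | exact absurd h' (by simp [zH_ne_one hs])
  have hsurj : Function.Surjective f := by
    rintro ⟨q, hq⟩
    obtain ⟨v, hv, rfl | rfl⟩ := (mem_wLift hs C).1 hq
    · exact ⟨(⟨v, hv⟩, false), rfl⟩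
    · exact ⟨(⟨v, hv⟩, true), rfl⟩
  rw [← Nat.card_eq_of_bijective f ⟨hinj, hsurj⟩, Nat.card_prod, card_inW]
  simp

theorem wLift_comm_radLift {q a : ↥(Subgroup.centralizer ({z} : Set G))} (hq : q ∈ wLift C)
    (ha : a ∈ radLift C) : q * a = a * q := by
  obtain ⟨v, hv, hr⟩ := (mem_wLift hs C).1 hq
  obtain ⟨hax, p, hp⟩ := ha
  have hcanon : a * canon C v * a⁻¹ = canon C v := by rw [canon_conj hs C hax, hp, rP_fix p hv]
  have h : a * q * a⁻¹ = q := by
    rcases (canon_spec hs C v).1.pair hs hr with e | e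
    · rw [e, hcanon]
    · rw [e]
      calc a * (canon C v * zH z) * a⁻¹ = a * canon C v * a⁻¹ * (a * zH z * a⁻¹) := by group
        _ = _ := by rw [hcanon, conj_zH]
  exact (mul_inv_eq_iff_eq_mul.1 h).symm

theorem radLift_comm (hc : C.ClassData 0) {a b : ↥(Subgroup.centralizer ({z} : Set G))}
    (ha : a ∈ radLift C) (hb : b ∈ radLift C) : a * b = b * a := by
  have h := radLift_sq hs C hc (mul_mem ha hb)
  rw [← eq_inv_iff_mul_eq_one, mul_inv_rev, inv_eq_of_mul_eq_one_right (radLift_sq hs C hc ha),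
    inv_eq_of_mul_eq_one_right (radLift_sq hs C hc hb)] at h
  exact h

omit hs in
/-- The subgroup generated by the lifts of the 3-space and of the sixteen maps. -/
def baseH : Subgroup ↥(Subgroup.centralizer ({z} : Set G)) :=
  Subgroup.closure {a | ∃ d ∈ wLift C, ∃ r ∈ radLift C, a = d * r}

omit hs in
/-- The subgroup in `G`. -/
def baseA : Subgroup G := (baseH C).map (Subgroup.centralizer ({z} : Set G)).subtype

variable (hc : C.ClassData 0)
include hc

theorem mem_baseH {a : ↥(Subgroup.centralizer ({z} : Set G))} :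
    a ∈ baseH C ↔ ∃ d ∈ wLift C, ∃ r ∈ radLift C, a = d * r := by
  refine ⟨fun ha => ?_, fun ha => Subgroup.subset_closure ha⟩
  induction ha using Subgroup.closure_induction with
  | mem a ha => exact ha
  | one => exact ⟨1, one_mem _, 1, one_mem _, (one_mul 1).symm⟩
  | mul a b _ _ iha ihb =>
    obtain ⟨d, hd, r, hr, rfl⟩ := iha
    obtain ⟨d', hd', r', hr', rfl⟩ := ihb
    refine ⟨d * d', mul_mem hd hd', r * r', mul_mem hr hr', ?_⟩
    rw [mul_assoc, ← mul_assoc r, ← wLift_comm_radLift hs C hd' hr]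
    simp only [mul_assoc]
  | inv a _ iha =>
    obtain ⟨d, hd, r, hr, rfl⟩ := iha
    refine ⟨d⁻¹, inv_mem hd, r⁻¹, inv_mem hr, ?_⟩
    rw [mul_inv_rev, wLift_comm_radLift hs C (inv_mem hd) (inv_mem hr)]

theorem baseH_sq {a : ↥(Subgroup.centralizer ({z} : Set G))} (ha : a ∈ baseH C) : a * a = 1 := by
  obtain ⟨d, hd, r, hr, rfl⟩ := (mem_baseH hs C hc).1 ha
  calc d * r * (d * r) = d * (r * d) * r := by group
    _ = (d * d) * (r * r) := by rw [← wLift_comm_radLift hs C hd hr]; group
    _ = 1 := by rw [wLift_sq hs C hd, radLift_sq hs C hc hr, one_mul]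

theorem baseH_comm {a b : ↥(Subgroup.centralizer ({z} : Set G))} (ha : a ∈ baseH C)
    (hb : b ∈ baseH C) : a * b = b * a := by
  have h := baseH_sq hs C hc (mul_mem ha hb)
  rw [← eq_inv_iff_mul_eq_one, mul_inv_rev, inv_eq_of_mul_eq_one_right (baseH_sq hs C hc ha),
    inv_eq_of_mul_eq_one_right (baseH_sq hs C hc hb)] at h
  exact h

theorem card_baseH : Nat.card (baseH C) = 2 ^ 11 := by
  classical
  let g : wLift C × radLift C → baseH C := fun a =>
    ⟨a.1.1 * a.2.1, (mem_baseH hs C hc).2 ⟨_, a.1.2, _, a.2.2, rfl⟩⟩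
  let g' : wLift C × radLift C →* baseH C :=
    { toFun := g
      map_one' := Subtype.ext (one_mul (1 : ↥(Subgroup.centralizer ({z} : Set G))))
      map_mul' := fun a b => Subtype.ext (by
        show (a.1.1 * b.1.1) * (a.2.1 * b.2.1) = a.1.1 * a.2.1 * (b.1.1 * b.2.1)
        rw [mul_assoc, ← mul_assoc b.1.1, wLift_comm_radLift hs C b.1.2 a.2.2]
        simp only [mul_assoc]) }
  have hsurj : Function.Surjective g' := by
    rintro ⟨a, ha⟩
    obtain ⟨d, hd, r, hr, rfl⟩ := (mem_baseH hs C hc).1 ha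
    exact ⟨(⟨d, hd⟩, ⟨r, hr⟩), rfl⟩
  have hker : Nat.card g'.ker = 2 := by
    have e : ∀ a : g'.ker, a.1.2.1 = 1 ∨ a.1.2.1 = zH z := by
      intro a
      have h : a.1.1.1 * a.1.2.1 = 1 := congrArg Subtype.val (MonoidHom.mem_ker.1 a.2)
      refine radLift_inter hs C a.1.2.2 ?_
      rw [eq_inv_of_mul_eq_one_right h]
      exact Q.inv_mem (wLift_le hs C a.1.1.2)
    let k : Bool → g'.ker := fun b =>
      if b then ⟨(⟨zH z, zH_mem_wLift hs C⟩, ⟨zH z, zH_mem_radLift hs C⟩),
        MonoidHom.mem_ker.2 (Subtype.ext (zH_sq hs))⟩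
      else 1
    refine (Nat.card_eq_of_bijective k ⟨?_, ?_⟩).symm.trans (by simp)
    · intro b c h
      cases b <;> cases c <;> first
        | rfl
        | exact absurd (congrArg (fun a : g'.ker => a.1.2.1) h) (by simp [k, zH_ne_one hs, Ne.symm (zH_ne_one hs)])
    · intro a
      have h : a.1.1.1 * a.1.2.1 = 1 := congrArg Subtype.val (MonoidHom.mem_ker.1 a.2)
      rcases e a with e' | e' <;> rw [e'] at h
      · refine ⟨false, Subtype.ext (Prod.ext (Subtype.ext ?_) (Subtype.ext e'.symm))⟩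
        rw [mul_one] at h
        exact h.symm
      · refine ⟨true, Subtype.ext (Prod.ext (Subtype.ext ?_) (Subtype.ext e'.symm))⟩
        show zH z = a.1.1.1
        rw [eq_inv_of_mul_eq_one_left h, inv_eq_of_mul_eq_one_right (zH_sq hs)]
  have h := Subgroup.card_eq_card_quotient_mul_card_subgroup g'.ker
  rw [Nat.card_congr (QuotientGroup.quotientKerEquivOfSurjective g' hsurj).toEquiv, hker,
    Nat.card_prod, card_wLift hs C, card_radLift hs C hc] at h
  omega

theorem baseA_le : baseA C ≤ Subgroup.centralizer ({z} : Set G) := by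
  rintro _ ⟨a, -, rfl⟩
  exact a.2

theorem card_baseA : Nat.card (baseA C) = 2 ^ 11 :=
  (Subgroup.card_map_of_injective (Subgroup.subtype_injective _)).trans (card_baseH hs C hc)

theorem elem_baseA : Cfsg.IsElementaryAbelian 2 (baseA C) := by
  refine ⟨⟨⟨?_⟩⟩, ?_⟩
  · rintro ⟨_, a, ha, rfl⟩ ⟨_, b, hb, rfl⟩
    exact Subtype.ext (congrArg Subtype.val (baseH_comm hs C hc ha hb) :)
  · rintro _ ⟨a, ha, rfl⟩
    rw [pow_two]
    exact congrArg Subtype.val (baseH_sq hs C hc ha)

theorem wLift_le_baseH : wLift C ≤ baseH C := fun d hd =>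
  (mem_baseH hs C hc).2 ⟨d, hd, 1, one_mem _, (mul_one d).symm⟩

theorem radLift_le_baseH : radLift C ≤ baseH C := fun r hr =>
  (mem_baseH hs C hc).2 ⟨1, one_mem _, r, hr, (one_mul r).symm⟩

theorem z_mem_baseA : z ∈ baseA C :=
  ⟨zH z, wLift_le_baseH hs C hc (zH_mem_wLift hs C), rfl⟩

theorem baseH_inf : baseH C ⊓ Q = wLift C := by
  refine le_antisymm ?_ (le_inf (wLift_le_baseH hs C hc) (wLift_le hs C))
  rintro a ⟨ha, haQ⟩
  obtain ⟨d, hd, r, hr, rfl⟩ := (mem_baseH hs C hc).1 ha
  have hrQ : r ∈ Q := (Q.mul_mem_cancel_left (wLift_le hs C hd)).1 haQ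
  rcases radLift_inter hs C hr hrQ with rfl | rfl
  · rwa [mul_one]
  · exact mul_mem hd (zH_mem_wLift hs C)

theorem baseA_inf : baseA C ⊓ QG Q = (wLift C).map (Subgroup.centralizer ({z} : Set G)).subtype := by
  rw [← baseH_inf hs C hc, baseA, QG, ← Subgroup.map_inf _ _ _ (Subgroup.subtype_injective _)]

theorem card_baseA_inf : Nat.card ↥(baseA C ⊓ QG Q) = 2 ^ 7 := by
  rw [baseA_inf hs C hc, Subgroup.card_map_of_injective (Subgroup.subtype_injective _),
    card_wLift hs C]
  norm_num

/-- `Q` normalises the lifts. -/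
theorem conj_baseH {q a : ↥(Subgroup.centralizer ({z} : Set G))} (hq : q ∈ Q) (ha : a ∈ baseH C) :
    q * a * q⁻¹ ∈ baseH C := by
  obtain ⟨d, hd, r, hr, rfl⟩ := (mem_baseH hs C hc).1 ha
  have h1 : q * d * q⁻¹ ∈ baseH C := by
    rcases conj_cases hs (wLift_le hs C hd) hq with e | e <;> rw [e]
    · exact wLift_le_baseH hs C hc hd
    · exact wLift_le_baseH hs C hc (mul_mem (zH_mem_wLift hs C) hd)
  have h2 : q * r * q⁻¹ ∈ baseH C := by
    have hinv : r⁻¹ = r := inv_eq_of_mul_eq_one_right (radLift_sq hs C hc hr)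
    have h3 : q * r * q⁻¹ * r ∈ wLift C := by
      obtain ⟨v, hv⟩ := Coords.exists_rep (C := C) (Q.inv_mem hq)
      obtain ⟨w, hw⟩ := Coords.exists_rep (C := C) hq
      obtain ⟨-, p, hp⟩ := hr
      have hvw : v = w := by
        have h := Coords.Rep.mul hs C hw hv
        rw [mul_inv_cancel] at h
        have h' := addPt_left_inj (u := w) (v := addPt v w) ?_
        · have hh : ∀ a b : Option (ZMod 3), addCoord a b = none → a = b := by decide
          funext i
          exact hh _ _ (congrFun h' i)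
        · have h0 := (h.zero_iff hs).2 (Or.inl rfl)
          have hh : ∀ a b : Option (ZMod 3), addCoord a b = none → addCoord a (addCoord b a) = a := by
            decide
          funext i
          exact hh _ _ (congrFun h0 i)
      subst hvw
      have h := Coords.Rep.mul hs C hw (hv.conj hs r)
      rw [hinv, hp] at h
      refine (mem_wLift hs C).2 ⟨_, rP_move p v, ?_⟩
      rwa [show q * r * q⁻¹ * r = q * (r * q⁻¹ * r) by group]
    have : q * r * q⁻¹ = (q * r * q⁻¹ * r) * r := by
      rw [mul_assoc (q * r * q⁻¹), radLift_sq hs C hc hr, mul_one]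
    rw [this]
    exact mul_mem (wLift_le_baseH hs C hc h3) (radLift_le_baseH hs C hc hr)
  rw [show q * (d * r) * q⁻¹ = q * d * q⁻¹ * (q * r * q⁻¹) by group]
  exact mul_mem h1 h2

omit hc in
theorem mem_normalizer_of_conj {h : ↥(Subgroup.centralizer ({z} : Set G))}
    (hh : ∀ a ∈ baseH C, h * a * h⁻¹ ∈ baseH C) :
    (h : G) ∈ Subgroup.normalizer (baseA C : Set G) := by
  refine Subgroup.mem_normalizer_fintype ?_
  rintro _ ⟨a, ha, rfl⟩
  exact ⟨h * a * h⁻¹, hh a ha, rfl⟩

theorem QG_le_normalizer : QG Q ≤ Subgroup.normalizer (baseA C : Set G) := by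
  rintro _ ⟨q, hq, rfl⟩
  exact mem_normalizer_of_conj hs C fun a ha => conj_baseH hs C hc hq ha

/-- An element of the centraliser of `baseA` lies in it. -/
theorem centralizer_baseA : Subgroup.centralizer (baseA C : Set G) ≤ baseA C := by
  intro g hg
  rw [Subgroup.mem_centralizer_iff] at hg
  have hgH : g ∈ Subgroup.centralizer ({z} : Set G) :=
    Subgroup.mem_centralizer_singleton_iff.2 (hg z (z_mem_baseA hs C hc)).symm
  set h : ↥(Subgroup.centralizer ({z} : Set G)) := ⟨g, hgH⟩ with hh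
  have hcomm : ∀ a ∈ baseH C, h * a = a * h := fun a ha =>
    Subtype.ext (hg a.1 ⟨a, ha, rfl⟩).symm
  have hfix : ∀ v, InW v → C.act (QuotientGroup.mk h) v = v := by
    intro v hv
    have hd : C.lift v ∈ baseH C :=
      wLift_le_baseH hs C hc ((mem_wLift hs C).2 ⟨v, hv, Or.inl rfl⟩)
    have hr : C.Rep v (C.lift v) := Or.inl rfl
    have h1 := hr.conj hs h
    rw [hcomm _ hd, mul_inv_cancel_right] at h1
    exact h1.unique hs hr
  have hlin : (QuotientGroup.mk h : ↥(Subgroup.centralizer ({z} : Set G)) ⧸ Q) ∈ C.linPart := by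
    rcases C.act_semilinear (QuotientGroup.mk h) with hl | hl
    · exact C.mem_linPart.2 hl
    · exfalso
      have hw : InW (dec 5) := by show enc (dec 5) ∈ wList; decide +kernel
      have h1 := hl (dec 5)
      rw [hfix _ hw.scal, hfix _ hw] at h1
      exact absurd (congrArg enc (eq_zero_of_shift h1)) (by decide +kernel)
  have hW : ∀ n : Nat, n = 5 ∨ n = 80 ∨ n = 1280 → InW (dec n) := by
    rintro n (rfl | rfl | rfl) <;> (show enc (dec _) ∈ wList; decide +kernel)
  obtain ⟨p, hp⟩ := fix_W hs C hc hlin (hfix _ (hW 5 (by simp))) (hfix _ (hW 80 (by simp)))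
    (hfix _ (hW 1280 (by simp)))
  obtain ⟨r, hr, hrp⟩ := exists_radLift hs C hc p
  have hq : r⁻¹ * h ∈ Q := by
    rw [← QuotientGroup.eq]
    exact C.act_injective (by rw [hrp, hp])
  have hrH := radLift_le_baseH hs C hc hr
  obtain ⟨v, hv⟩ := Coords.exists_rep (C := C) hq
  have hvW : InW v := by
    refine inW_of_perp fun w hw => ?_
    have hd : C.lift w ∈ baseH C :=
      wLift_le_baseH hs C hc ((mem_wLift hs C).2 ⟨w, hw, Or.inl rfl⟩)
    have hc1 : r⁻¹ * h * C.lift w = C.lift w * (r⁻¹ * h) := by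
      rw [mul_assoc, hcomm _ hd, ← mul_assoc, baseH_comm hs C hc (inv_mem hrH) hd, mul_assoc]
    have hwr : C.Rep w (C.lift w) := Or.inl rfl
    rw [← (Coords.Rep.mul hs C hv hwr).sq hs, ← hv.sq hs,
      show r⁻¹ * h * C.lift w * (r⁻¹ * h * C.lift w) =
        (r⁻¹ * h) * (C.lift w * (r⁻¹ * h)) * C.lift w by group, ← hc1,
      show r⁻¹ * h * (r⁻¹ * h * C.lift w) * C.lift w =
        (r⁻¹ * h) * (r⁻¹ * h) * (C.lift w * C.lift w) by group, (hwr.sq hs).2 hw.even, mul_one]
  refine ⟨h, ?_, rfl⟩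
  have := mul_mem hrH (wLift_le_baseH hs C hc ((mem_wLift hs C).2 ⟨v, hvW, hv⟩))
  rwa [mul_inv_cancel_left] at this

/-- The 3-space contains a vector of the shorter class, giving an involution not conjugate
to `z`. -/
theorem exists_nonconj : ∃ t ∈ baseA C ⊓ QG Q, t ≠ 1 ∧ ¬ IsConj z t := by
  have hv : InW (dec 5) := by show enc (dec 5) ∈ wList; decide +kernel
  have h2 : InTwo 0 (dec 5) := Or.inl (by rw [wt_eq, enc_dec 5 (by norm_num)]; decide +kernel)
  have hne0 : dec 5 ≠ zeroPt := h2.singular.1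
  have hr : C.Rep (dec 5) (C.lift (dec 5)) := Or.inl rfl
  have hd : C.lift (dec 5) ∈ wLift C := (mem_wLift hs C).2 ⟨_, hv, hr⟩
  refine ⟨(C.lift (dec 5)).1, ?_, fun e => hne0 ((hr.zero_iff hs).2 (Or.inl (Subtype.ext e))),
    fun hcj => ?_⟩
  · rw [baseA_inf hs C hc]
    exact ⟨_, hd, rfl⟩
  · obtain ⟨g, hg⟩ := isConj_iff.1 hcj
    obtain ⟨w, hw⟩ := exists_meetData hs C hc g _ (hr.mem hs) hg
      (fun e => hne0 ((hr.zero_iff hs).2 (Or.inr e)))
    exact not_two_four h2 (hw.rep.unique hs hr ▸ hw.inFour)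

end CfsgLib.LargeFischer.Base
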