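import Cfsg.Agent.Lib.LargeFischer.Base.DuadData
import Cfsg.Agent.Lib.Golay.Perm

/-!
Large Fischer type: the 276 codes in `tMask` are the duads of the binary code of length 24.

The map `evN` (xor of the codes of the points) identifies the even sets modulo the code with the
numbers below 2048, the duads going bijectively onto `tMask`; a linear bijection of these numbers
preserving `tMask` comes from exactly one permutation in `M24`, as two duads share a point iff the
xor of their codes is in `tMask`, and a pairwise meeting family of 23 duads has a common point.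
-/

set_option autoImplicit false

namespace CfsgLib.LargeFischer.Base

open Cfsg CfsgLib.Golay
open scoped Pointwise symmDiff

/-- The code of a point. -/
def cdPt (p : GolayPt) : Nat := duadCodes.getD (idx p) 0

/-- The xor of the codes of the points of a set. -/
def evN (S : Finset GolayPt) : Nat := S.fold (fun a b => a ^^^ b) 0 cdPt

theorem evN_empty : evN ∅ = 0 := rfl

theorem evN_insert {p : GolayPt} {S : Finset GolayPt} (h : p ∉ S) :
    evN (insert p S) = cdPt p ^^^ evN S := Finset.fold_insert h

theorem evN_singleton (p : GolayPt) : evN {p} = cdPt p := by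
  rw [← Finset.insert_empty, evN_insert (Finset.notMem_empty p), evN_empty, Nat.xor_zero]

theorem evN_pair {p q : GolayPt} (h : p ≠ q) : evN {p, q} = cdPt p ^^^ cdPt q := by
  rw [evN_insert (by simp [h]), evN_singleton]

theorem cdPt_lt (p : GolayPt) : cdPt p < 2048 := by
  have h : (List.range 24).all (fun i => decide (duadCodes.getD i 0 < 2048)) = true := by
    decide +kernel
  exact of_decide_eq_true (List.all_eq_true.1 h _ (List.mem_range.2 (idx_lt p)))

theorem evN_lt (S : Finset GolayPt) : evN S < 2048 := by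
  induction S using Finset.induction_on with
  | empty => rw [evN_empty]; norm_num
  | insert p S h ih => rw [evN_insert h]; exact Nat.xor_lt_two_pow (n := 11) (cdPt_lt p) ih

theorem symmDiff_singleton_mem {S : Finset GolayPt} {p : GolayPt} (h : p ∈ S) :
    S ∆ {p} = S.erase p := by
  ext x
  simp only [Finset.mem_symmDiff, Finset.mem_singleton, Finset.mem_erase]
  constructor
  · rintro (⟨h1, h2⟩ | ⟨rfl, h2⟩)
    exacts [⟨h2, h1⟩, absurd h h2]
  · rintro ⟨h1, h2⟩
    exact Or.inl ⟨h2, h1⟩

theorem symmDiff_singleton_notMem {S : Finset GolayPt} {p : GolayPt} (h : p ∉ S) :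
    S ∆ {p} = insert p S := by
  ext x
  simp only [Finset.mem_symmDiff, Finset.mem_singleton, Finset.mem_insert]
  constructor
  · rintro (⟨h1, -⟩ | ⟨h1, -⟩)
    exacts [Or.inr h1, Or.inl h1]
  · rintro (rfl | h1)
    exacts [Or.inr ⟨rfl, h⟩, Or.inl ⟨h1, fun e => h (e ▸ h1)⟩]

theorem evN_symmDiff_singleton (S : Finset GolayPt) (p : GolayPt) :
    evN (S ∆ {p}) = evN S ^^^ cdPt p := by
  by_cases hp : p ∈ S
  · conv_rhs => rw [← Finset.insert_erase hp, evN_insert (Finset.notMem_erase p S)]
    rw [symmDiff_singleton_mem hp, Nat.xor_comm (cdPt p), Nat.xor_assoc, Nat.xor_self, Nat.xor_zero]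
  · rw [symmDiff_singleton_notMem hp, evN_insert hp, Nat.xor_comm]

theorem evN_symmDiff (S T : Finset GolayPt) : evN (S ∆ T) = evN S ^^^ evN T := by
  induction T using Finset.induction_on with
  | empty => rw [← Finset.bot_eq_empty, symmDiff_bot, Finset.bot_eq_empty, evN_empty, Nat.xor_zero]
  | insert p T h ih =>
    rw [← symmDiff_singleton_notMem h, ← symmDiff_assoc, evN_symmDiff_singleton, ih,
      evN_symmDiff_singleton, Nat.xor_assoc]

theorem even_card_symmDiff (S T : Finset GolayPt) :
    Even (S ∆ T).card ↔ (Even S.card ↔ Even T.card) := by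
  induction T using Finset.induction_on with
  | empty => rw [← Finset.bot_eq_empty, symmDiff_bot]; simp
  | insert p T h ih =>
    have key : Even ((S ∆ T) ∆ {p}).card ↔ ¬ Even (S ∆ T).card := by
      by_cases hp : p ∈ S ∆ T
      · rw [symmDiff_singleton_mem hp, ← Finset.card_erase_add_one hp, Nat.even_add_one, not_not]
      · rw [symmDiff_singleton_notMem hp, Finset.card_insert_of_notMem hp, Nat.even_add_one]
    rw [← symmDiff_singleton_notMem h, ← symmDiff_assoc, key, symmDiff_singleton_notMem h,
      Finset.card_insert_of_notMem h, Nat.even_add_one]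
    tauto

/-- The xor of the codes of the bits of a mask below `k`. -/
def maskEv (n : Nat) : Nat → Nat
  | 0 => 0
  | k + 1 => maskEv n k ^^^ bif n.testBit k then duadCodes.getD k 0 else 0

theorem evN_unmask {n : Nat} (h : n < 2 ^ 24) : evN (unmask n) = maskEv n 24 := by
  have key : ∀ k ≤ 24, evN (unmask (n % 2 ^ k)) = maskEv n k := by
    intro k
    induction k with
    | zero => intro _; rw [pow_zero, Nat.mod_one, unmask_zero, evN_empty]; rfl
    | succ k ih =>
      intro hk
      have he : n % 2 ^ (k + 1) = n % 2 ^ k ^^^ bif n.testBit k then 2 ^ k else 0 := by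
        apply Nat.eq_of_testBit_eq
        intro i
        cases hb : n.testBit k
        · simp only [cond_false, Nat.xor_zero, Nat.testBit_mod_two_pow]
          by_cases hi : i = k
          · subst hi; simp [hb]
          · congr 1; exact decide_eq_decide.2 (by omega)
        · simp only [cond_true, Nat.testBit_xor, Nat.testBit_mod_two_pow, Nat.testBit_two_pow]
          by_cases hi : i = k
          · subst hi; simp [hb]
          · rw [decide_eq_false (fun e : k = i => hi e.symm), Bool.xor_false]
            congr 1; exact decide_eq_decide.2 (by omega)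
      rw [he, unmask_xor, evN_symmDiff, ih (by omega), maskEv]
      congr 1
      cases n.testBit k
      · rw [cond_false, cond_false, unmask_zero, evN_empty]
      · rw [cond_true, cond_true, unmask_two_pow_of_lt (by omega), evN_singleton, cdPt,
          idx_pt (by omega)]
  have := key 24 le_rfl
  rwa [Nat.mod_eq_of_lt h] at this

theorem code_ev_checks : allSpan basisMasks (fun n => maskEv n 24 == 0 && popc n % 2 == 0) = true := by
  decide +kernel

theorem reduce_checks : ((List.range 4096).all fun l =>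
    inCode (l ^^^ reduceMask basisRows l) && decide (reduceMask basisRows l < 2 ^ 24) &&
      reduceMask basisRows l % 4096 == 0) = true := by
  decide +kernel

theorem top_checks : ((List.range 4096).all fun h =>
    h == 0 || !(maskEv (h * 4096) 24 == 0 && popc (h * 4096) % 2 == 0)) = true := by
  decide +kernel

theorem evN_eq_zero {S : Finset GolayPt} (hS : Even S.card) :
    evN S = 0 ↔ S ∈ supports (golayCode : Set (GolayPt → ZMod 2)) := by
  constructor
  · intro h0
    obtain ⟨n, hn, rfl⟩ := exists_unmask S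
    have hl := List.all_eq_true.1 reduce_checks (n % 4096) (List.mem_range.2 (Nat.mod_lt _ (by norm_num)))
    simp only [Bool.and_eq_true, decide_eq_true_eq, beq_iff_eq] at hl
    obtain ⟨⟨hc, hr⟩, hmod⟩ := hl
    set c := n % 4096 ^^^ reduceMask basisRows (n % 4096) with hcdef
    have hcm : unmask c ∈ supports (golayCode : Set (GolayPt → ZMod 2)) :=
      mem_supports_iff.2 ⟨c, inCode_iff.1 hc, rfl⟩
    have hclt : c < 2 ^ 24 := lt_of_mem_codeMasks (inCode_iff.1 hc)
    have hcc := allSpan_iff.1 code_ev_checks c (inCode_iff.1 hc)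
    simp only [Bool.and_eq_true, beq_iff_eq] at hcc
    set m := n ^^^ c with hmdef
    have hm : m < 2 ^ 24 := Nat.xor_lt_two_pow hn hclt
    have hm12 : m % 4096 = 0 := by
      have hx : ∀ a b : Nat, (a ^^^ b) % 2 ^ 12 = a % 2 ^ 12 ^^^ b % 2 ^ 12 := fun a b =>
        Nat.xor_mod_two_pow
      rw [hmdef, hcdef, show (4096 : Nat) = 2 ^ 12 by norm_num, hx, hx,
        Nat.mod_mod, show (2 : Nat) ^ 12 = 4096 by norm_num, hmod, Nat.xor_zero, Nat.xor_self]
    have hev : maskEv m 24 = 0 := by
      rw [← evN_unmask hm, hmdef, unmask_xor, evN_symmDiff, h0, evN_unmask hclt, hcc.1,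
        Nat.xor_zero]
    have hpop : popc m % 2 = 0 := by
      rw [← card_unmask, ← Nat.even_iff, hmdef, unmask_xor, even_card_symmDiff]
      exact iff_of_true hS (by rw [card_unmask]; exact Nat.even_iff.2 hcc.2)
    have hm0 : m = 0 := by
      have ht := List.all_eq_true.1 top_checks (m / 4096) (List.mem_range.2 (by omega))
      have e : m / 4096 * 4096 = m := by omega
      rw [e, hev, hpop] at ht
      simp at ht
      omega
    have hnc : n = c := Nat.xor_eq_zero_iff.1 hm0
    rw [hnc]; exact hcm
  · intro h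
    obtain ⟨n, hn, rfl⟩ := mem_supports_iff.1 h
    rw [evN_unmask (lt_of_mem_codeMasks hn)]
    have hc := allSpan_iff.1 code_ev_checks n hn
    simp only [Bool.and_eq_true, beq_iff_eq] at hc
    exact hc.1

theorem evN_surj {n : Nat} (hn : n < 2048) : ∃ S : Finset GolayPt, Even S.card ∧ evN S = n := by
  have hunit : ∀ i < 11, ∃ T : Finset GolayPt, evN T = 2 ^ i := by
    have h : (List.range 11).all (fun i =>
        ((List.range 4096).map (fun m => maskEv m 24)).contains (2 ^ i)) = true := by
      decide +kernel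
    intro i hi
    have h' := List.all_eq_true.1 h i (List.mem_range.2 hi)
    rw [List.contains_eq_mem, decide_eq_true_eq, List.mem_map] at h'
    obtain ⟨m, hm, e⟩ := h'
    exact ⟨unmask m, by rw [evN_unmask (lt_trans (List.mem_range.1 hm) (by norm_num)), e]⟩
  have hgen : ∀ k ≤ 11, ∀ a < 2 ^ k, ∃ T : Finset GolayPt, evN T = a := by
    intro k
    induction k with
    | zero =>
      intro _ a ha
      exact ⟨∅, by rw [evN_empty]; omega⟩
    | succ k ih =>
      intro hk a ha
      by_cases hlt : a < 2 ^ k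
      · exact ih (by omega) a hlt
      · obtain ⟨T, hT⟩ := hunit k (by omega)
        have hb : a.testBit k = true := by
          rw [Nat.testBit_eq_decide_div_mod_eq, decide_eq_true_eq]
          have h1 : a / 2 ^ k = 1 := Nat.div_eq_of_lt_le (by omega) (by rw [pow_succ] at ha; omega)
          rw [h1]
        have hx : a ^^^ 2 ^ k < 2 ^ k := by
          apply Nat.lt_pow_two_of_testBit
          intro j hj
          rw [Nat.testBit_xor, Nat.testBit_two_pow]
          rcases eq_or_lt_of_le hj with rfl | hj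
          · simp [hb]
          · rw [Nat.testBit_lt_two_pow (lt_of_lt_of_le ha (Nat.pow_le_pow_right two_pos hj))]
            simp; omega
        obtain ⟨U, hU⟩ := ih (by omega) _ hx
        exact ⟨U ∆ T, by rw [evN_symmDiff, hU, hT, Nat.xor_assoc, Nat.xor_self, Nat.xor_zero]⟩
  obtain ⟨T, hT⟩ := hgen 11 le_rfl n hn
  by_cases he : Even T.card
  · exact ⟨T, he, hT⟩
  · refine ⟨T ∆ {none}, ?_, ?_⟩
    · rw [even_card_symmDiff]; exact iff_of_false he (by simp)
    · rw [evN_symmDiff, hT, evN_singleton, show cdPt none = 0 by decide +kernel, Nat.xor_zero]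

/-- All pairs of point numbers. -/
def pairIdx : List (Nat × Nat) := (List.range 24).flatMap fun i => (List.range i).map fun j => (i, j)

theorem meet_checks : (pairIdx.all fun a => pairIdx.all fun b =>
    let x := duadCodes.getD a.1 0 ^^^ duadCodes.getD a.2 0 ^^^
      (duadCodes.getD b.1 0 ^^^ duadCodes.getD b.2 0)
    bif a.1 == b.1 && a.2 == b.2 then true
    else x != 0 && (tMask.testBit x == (a.1 == b.1 || a.1 == b.2 || a.2 == b.1 || a.2 == b.2))) =
    true := by
  decide +kernel

theorem tMask_checks : (pairIdx.all fun a =>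
      tMask.testBit (duadCodes.getD a.1 0 ^^^ duadCodes.getD a.2 0)) = true ∧
    ((List.range 2048).all fun n => !tMask.testBit n ||
      pairIdx.any fun a => duadCodes.getD a.1 0 ^^^ duadCodes.getD a.2 0 == n) = true := by
  constructor <;> decide +kernel

theorem exists_pairIdx {p q : GolayPt} (h : p ≠ q) :
    ∃ a ∈ pairIdx, ({pt a.1, pt a.2} : Finset GolayPt) = {p, q} ∧
      duadCodes.getD a.1 0 ^^^ duadCodes.getD a.2 0 = cdPt p ^^^ cdPt q := by
  rcases lt_trichotomy (idx q) (idx p) with hlt | heq | hlt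
  · refine ⟨(idx p, idx q), ?_, ?_, rfl⟩
    · simp only [pairIdx, List.mem_flatMap, List.mem_map, List.mem_range]
      exact ⟨_, idx_lt p, _, hlt, rfl⟩
    · simp only [pt_idx]
  · exact absurd (idx_injective heq).symm h
  · refine ⟨(idx q, idx p), ?_, ?_, Nat.xor_comm _ _⟩
    · simp only [pairIdx, List.mem_flatMap, List.mem_map, List.mem_range]
      exact ⟨_, idx_lt q, _, hlt, rfl⟩
    · simp only [pt_idx]; exact Finset.pair_comm q p

theorem pairIdx_lt {a : Nat × Nat} (h : a ∈ pairIdx) : a.1 < 24 ∧ a.2 < a.1 := by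
  simp only [pairIdx, List.mem_flatMap, List.mem_map, List.mem_range] at h
  obtain ⟨i, hi, j, hj, rfl⟩ := h
  exact ⟨hi, hj⟩

/-- The codes of the duads are distinct. -/
theorem duad_inj {p q r s : GolayPt} (hpq : p ≠ q) (hrs : r ≠ s)
    (h : cdPt p ^^^ cdPt q = cdPt r ^^^ cdPt s) : ({p, q} : Finset GolayPt) = {r, s} := by
  obtain ⟨a, ha, ea, eca⟩ := exists_pairIdx hpq
  obtain ⟨b, hb, eb, ecb⟩ := exists_pairIdx hrs
  have hk := List.all_eq_true.1 (List.all_eq_true.1 meet_checks a ha) b hb
  simp only [eca, ecb, h, Nat.xor_self] at hk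
  by_cases he : (a.1 == b.1 && a.2 == b.2) = true
  · simp only [Bool.and_eq_true, beq_iff_eq] at he
    rw [← ea, ← eb, he.1, he.2]
  · simp only [Bool.not_eq_true] at he
    simp [he] at hk

/-- Two duads share a point iff the xor of their codes is in `tMask`. -/
theorem duad_meet {p q r s : GolayPt} (hpq : p ≠ q) (hrs : r ≠ s)
    (hne : ({p, q} : Finset GolayPt) ≠ {r, s}) :
    tMask.testBit (cdPt p ^^^ cdPt q ^^^ (cdPt r ^^^ cdPt s)) = true ↔
      p = r ∨ p = s ∨ q = r ∨ q = s := by
  obtain ⟨a, ha, ea, eca⟩ := exists_pairIdx hpq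
  obtain ⟨b, hb, eb, ecb⟩ := exists_pairIdx hrs
  have hk := List.all_eq_true.1 (List.all_eq_true.1 meet_checks a ha) b hb
  simp only [eca, ecb] at hk
  have he : (a.1 == b.1 && a.2 == b.2) = false := by
    by_contra he
    simp only [Bool.not_eq_false, Bool.and_eq_true, beq_iff_eq] at he
    exact hne (by rw [← ea, ← eb, he.1, he.2])
  rw [he, cond_false] at hk
  simp only [Bool.and_eq_true, beq_iff_eq] at hk
  obtain ⟨ha1, ha2⟩ := pairIdx_lt ha
  obtain ⟨hb1, hb2⟩ := pairIdx_lt hb
  have hinj : ∀ i j, i < 24 → j < 24 → (i = j ↔ pt i = pt j) := fun i j hi hj =>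
    ⟨congrArg pt, fun e => by rw [← idx_pt hi, e, idx_pt hj]⟩
  rw [hk.2]
  simp only [Bool.or_eq_true, beq_iff_eq, or_assoc]
  rw [hinj _ _ ha1 hb1, hinj _ _ ha1 (by omega), hinj _ _ (by omega) hb1,
    hinj _ _ (by omega) (by omega)]
  have hmem : ∀ x : GolayPt, (x = p ∨ x = q) ↔ (x = pt a.1 ∨ x = pt a.2) := fun x => by
    simpa using (Finset.ext_iff.1 ea x).symm
  have hmem' : ∀ x : GolayPt, (x = r ∨ x = s) ↔ (x = pt b.1 ∨ x = pt b.2) := fun x => by
    simpa using (Finset.ext_iff.1 eb x).symm
  constructor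
  · intro h
    have : ∃ x, (x = pt a.1 ∨ x = pt a.2) ∧ (x = pt b.1 ∨ x = pt b.2) := by
      rcases h with h | h | h | h
      exacts [⟨_, Or.inl rfl, Or.inl h⟩, ⟨_, Or.inl rfl, Or.inr h⟩, ⟨_, Or.inr rfl, Or.inl h⟩,
        ⟨_, Or.inr rfl, Or.inr h⟩]
    obtain ⟨x, hx, hx'⟩ := this
    rw [← hmem] at hx; rw [← hmem'] at hx'
    rcases hx with rfl | rfl <;> rcases hx' with rfl | rfl <;> simp
  · intro h
    have : ∃ x, (x = p ∨ x = q) ∧ (x = r ∨ x = s) := by
      rcases h with h | h | h | h
      exacts [⟨_, Or.inl rfl, Or.inl h⟩, ⟨_, Or.inl rfl, Or.inr h⟩, ⟨_, Or.inr rfl, Or.inl h⟩,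
        ⟨_, Or.inr rfl, Or.inr h⟩]
    obtain ⟨x, hx, hx'⟩ := this
    rw [hmem] at hx; rw [hmem'] at hx'
    rcases hx with rfl | rfl <;> rcases hx' with e | e <;> simp [e]

theorem evN_duad {n : Nat} (hn : n < 2048) :
    tMask.testBit n = true ↔ ∃ p q : GolayPt, p ≠ q ∧ evN {p, q} = n := by
  constructor
  · intro h
    have hk := List.all_eq_true.1 tMask_checks.2 n (List.mem_range.2 hn)
    rw [h, Bool.not_true, Bool.false_or, List.any_eq_true] at hk
    obtain ⟨a, ha, e⟩ := hk
    obtain ⟨ha1, ha2⟩ := pairIdx_lt ha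
    have hne : pt a.1 ≠ pt a.2 := fun e => by
      have := congrArg idx e
      rw [idx_pt ha1, idx_pt (by omega)] at this
      omega
    refine ⟨pt a.1, pt a.2, hne, ?_⟩
    rw [evN_pair hne, cdPt, cdPt, idx_pt ha1, idx_pt (by omega)]
    exact beq_iff_eq.1 e
  · rintro ⟨p, q, hne, rfl⟩
    obtain ⟨a, ha, -, eca⟩ := exists_pairIdx hne
    have hk := List.all_eq_true.1 tMask_checks.1 a ha
    rw [eca] at hk
    rwa [evN_pair hne]

theorem card_pt : Fintype.card GolayPt = 24 := by
  simp

/-- A linear bijection preserving `tMask` comes from a unique element of `M24`. -/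
theorem exists_perm (f : Nat → Nat) (hlt : ∀ n < 2048, f n < 2048)
    (hx : ∀ a < 2048, ∀ b < 2048, f (a ^^^ b) = f a ^^^ f b)
    (hinj : ∀ a < 2048, ∀ b < 2048, f a = f b → a = b)
    (hT : ∀ n < 2048, tMask.testBit (f n) = tMask.testBit n) :
    ∃! σ : Equiv.Perm GolayPt, σ ∈ M24 ∧
      ∀ S : Finset GolayPt, Even S.card → evN (S.image σ) = f (evN S) := by
  have hcd : ∀ p q : GolayPt, cdPt p ^^^ cdPt q < 2048 := fun p q =>
    Nat.xor_lt_two_pow (n := 11) (cdPt_lt p) (cdPt_lt q)
  have himg : ∀ p q : GolayPt, p ≠ q → ∃ a b : GolayPt, a ≠ b ∧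
      cdPt a ^^^ cdPt b = f (cdPt p ^^^ cdPt q) := by
    intro p q h
    have hbit : tMask.testBit (f (cdPt p ^^^ cdPt q)) = true := by
      rw [hT _ (hcd p q), evN_duad (hcd p q)]
      exact ⟨p, q, h, evN_pair h⟩
    obtain ⟨a, b, hab, e⟩ := (evN_duad (hlt _ (hcd p q))).1 hbit
    exact ⟨a, b, hab, by rw [← evN_pair hab, e]⟩
  choose A B hAB hABf using himg
  let D : ∀ p q : GolayPt, p ≠ q → Finset GolayPt := fun p q h => {A p q h, B p q h}
  have hD2 : ∀ p q h, (D p q h).card = 2 := fun p q h => Finset.card_pair (hAB p q h)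
  -- the image map is injective and preserves meeting
  have hDinj : ∀ p q r s (h : p ≠ q) (h' : r ≠ s), D p q h = D r s h' →
      ({p, q} : Finset GolayPt) = {r, s} := by
    intro p q r s h h' e
    apply duad_inj h h'
    apply hinj _ (hcd p q) _ (hcd r s)
    rw [← hABf p q h, ← hABf r s h', ← evN_pair (hAB p q h), ← evN_pair (hAB r s h')]
    exact congrArg evN e
  have hmeet : ∀ p q r s (h : p ≠ q) (h' : r ≠ s), ({p, q} : Finset GolayPt) ≠ {r, s} →
      ((p = r ∨ p = s ∨ q = r ∨ q = s) ↔ ∃ x, x ∈ D p q h ∧ x ∈ D r s h') := by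
    intro p q r s h h' hne
    have hne' : ({A p q h, B p q h} : Finset GolayPt) ≠ {A r s h', B r s h'} :=
      fun e => hne (hDinj p q r s h h' e)
    rw [← duad_meet h h' hne, ← hT _ (Nat.xor_lt_two_pow (n := 11) (hcd p q) (hcd r s)),
      hx _ (hcd p q) _ (hcd r s), ← hABf p q h, ← hABf r s h',
      duad_meet (hAB p q h) (hAB r s h') hne']
    simp only [D, Finset.mem_insert, Finset.mem_singleton]
    aesop
  -- the common point of the images of the duads through a point
  have hcommon : ∀ p : GolayPt, ∃ x, ∀ q (h : p ≠ q), x ∈ D p q h := by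
    intro p
    have hpair : ∀ q q' (h : p ≠ q) (h' : p ≠ q'), q ≠ q' →
        D p q h ≠ D p q' h' ∧ ∃ x, x ∈ D p q h ∧ x ∈ D p q' h' := by
      intro q q' h h' hq
      have hne : ({p, q} : Finset GolayPt) ≠ {p, q'} := by
        intro e
        have := Finset.ext_iff.1 e q
        simp [hq, h.symm] at this
      exact ⟨fun e => hne (hDinj _ _ _ _ h h' e), (hmeet _ _ _ _ h h' hne).1 (Or.inl rfl)⟩
    have h4 : ∀ T : Finset GolayPt, T.card ≤ 3 → ∃ q, q ∉ T := by
      intro T hT
      by_contra hc
      push Not at hc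
      have := Finset.eq_univ_iff_forall.2 hc
      rw [this, Finset.card_univ, card_pt] at hT
      omega
    obtain ⟨q₁, hq₁⟩ := h4 {p} (by simp)
    obtain ⟨q₂, hq₂⟩ := h4 {p, q₁} (Finset.card_le_two.trans (by norm_num))
    simp only [Finset.mem_insert, Finset.mem_singleton, not_or] at hq₁ hq₂
    have h1 : p ≠ q₁ := fun e => hq₁ e.symm
    have h2 : p ≠ q₂ := fun e => hq₂.1 e.symm
    obtain ⟨hne12, x, hx1, hx2⟩ := hpair q₁ q₂ h1 h2 (fun e => hq₂.2 e.symm)
    refine ⟨x, fun q h => ?_⟩
    by_contra hxq
    obtain ⟨y, hy, hey⟩ : ∃ y, y ≠ x ∧ D p q₁ h1 = {x, y} := by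
      obtain ⟨a, b, hab, e⟩ := Finset.card_eq_two.1 (hD2 p q₁ h1)
      rw [e] at hx1 ⊢
      simp only [Finset.mem_insert, Finset.mem_singleton] at hx1
      rcases hx1 with rfl | rfl
      exacts [⟨b, hab.symm, rfl⟩, ⟨a, hab, Finset.pair_comm _ _⟩]
    obtain ⟨w, hw, hew⟩ : ∃ w, w ≠ x ∧ D p q₂ h2 = {x, w} := by
      obtain ⟨a, b, hab, e⟩ := Finset.card_eq_two.1 (hD2 p q₂ h2)
      rw [e] at hx2 ⊢
      simp only [Finset.mem_insert, Finset.mem_singleton] at hx2
      rcases hx2 with rfl | rfl
      exacts [⟨b, hab.symm, rfl⟩, ⟨a, hab, Finset.pair_comm _ _⟩]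
    have hyw : y ≠ w := fun e => hne12 (by rw [hey, hew, e])
    -- a member avoiding `x` contains `y` and `w`
    have havoid : ∀ r (hr : p ≠ r), x ∉ D p r hr → D p r hr = {y, w} := by
      intro r hr hxr
      have hr1 : r ≠ q₁ := by rintro rfl; exact hxr (by rw [hey]; simp)
      have hr2 : r ≠ q₂ := by rintro rfl; exact hxr (by rw [hew]; simp)
      obtain ⟨-, u, hu, hu'⟩ := hpair r q₁ hr h1 hr1
      obtain ⟨-, v, hv, hv'⟩ := hpair r q₂ hr h2 hr2
      simp only [hey, Finset.mem_insert, Finset.mem_singleton] at hu'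
      simp only [hew, Finset.mem_insert, Finset.mem_singleton] at hv'
      have huy : u = y := hu'.resolve_left (fun e => hxr (e ▸ hu))
      have hvw : v = w := hv'.resolve_left (fun e => hxr (e ▸ hv))
      refine (Finset.eq_of_subset_of_card_le ?_ ?_).symm
      · intro a ha
        simp only [Finset.mem_insert, Finset.mem_singleton] at ha
        rcases ha with rfl | rfl
        exacts [huy ▸ hu, hvw ▸ hv]
      · rw [hD2, Finset.card_pair hyw]
    have eq3 := havoid q h hxq
    obtain ⟨r, hr⟩ := h4 {p, q₁, q₂} Finset.card_le_three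
    simp only [Finset.mem_insert, Finset.mem_singleton, not_or] at hr
    by_cases hrq : r = q
    · -- use another member
      subst hrq
      obtain ⟨r', hr'⟩ : ∃ r', r' ∉ ({p, q₁, q₂, r} : Finset GolayPt) := by
        by_contra hc
        push Not at hc
        have hu := Finset.eq_univ_iff_forall.2 hc
        have hle : ({p, q₁, q₂, r} : Finset GolayPt).card ≤ 4 := Finset.card_le_four
        rw [hu, Finset.card_univ, card_pt] at hle
        omega
      simp only [Finset.mem_insert, Finset.mem_singleton, not_or] at hr'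
      have hp' : p ≠ r' := fun e => hr'.1 e.symm
      by_cases hx' : x ∈ D p r' hp'
      · obtain ⟨hne, u, hu, hu'⟩ := hpair r' r hp' h hr'.2.2.2
        rw [eq3] at hu'
        simp only [Finset.mem_insert, Finset.mem_singleton] at hu'
        have hsub : D p r' hp' = {x, u} := (Finset.eq_of_subset_of_card_le
          (fun a ha => by
            simp only [Finset.mem_insert, Finset.mem_singleton] at ha
            rcases ha with rfl | rfl
            exacts [hx', hu]) (by
              rw [hD2, Finset.card_pair]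
              rcases hu' with rfl | rfl
              exacts [hy.symm, hw.symm])).symm
        rcases hu' with rfl | rfl
        · exact (hpair r' q₁ hp' h1 hr'.2.1).1 (by rw [hsub, hey])
        · exact (hpair r' q₂ hp' h2 hr'.2.2.1).1 (by rw [hsub, hew])
      · exact (hpair r' r hp' h hr'.2.2.2).1 (by rw [havoid r' hp' hx', eq3])
    · have hp' : p ≠ r := fun e => hr.1 e.symm
      by_cases hx' : x ∈ D p r hp'
      · obtain ⟨hne, u, hu, hu'⟩ := hpair r q hp' h hrq
        rw [eq3] at hu'
        simp only [Finset.mem_insert, Finset.mem_singleton] at hu'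
        have hsub : D p r hp' = {x, u} := (Finset.eq_of_subset_of_card_le
          (fun a ha => by
            simp only [Finset.mem_insert, Finset.mem_singleton] at ha
            rcases ha with rfl | rfl
            exacts [hx', hu]) (by
              rw [hD2, Finset.card_pair]
              rcases hu' with rfl | rfl
              exacts [hy.symm, hw.symm])).symm
        rcases hu' with rfl | rfl
        · exact (hpair r q₁ hp' h1 hr.2.1).1 (by rw [hsub, hey])
        · exact (hpair r q₂ hp' h2 hr.2.2).1 (by rw [hsub, hew])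
      · exact (hpair r q hp' h hrq).1 (by rw [havoid r hp' hx', eq3])
  choose σ₀ hσ₀ using hcommon
  have hswap : ∀ p q (h : p ≠ q), σ₀ q ∈ D p q h := by
    intro p q h
    have e : D q p h.symm = D p q h := by
      have e' := hABf q p h.symm
      rw [Nat.xor_comm (cdPt q)] at e'
      exact duad_inj (hAB _ _ _) (hAB _ _ _) (e'.trans (hABf p q h).symm)
    exact e ▸ hσ₀ q p h.symm
  have hσinj : Function.Injective σ₀ := by
    intro p q e
    by_contra hpq
    obtain ⟨r, hr⟩ : ∃ r, r ∉ ({p, q} : Finset GolayPt) := by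
      by_contra hc
      push Not at hc
      have hu := Finset.eq_univ_iff_forall.2 hc
      have := Finset.card_pair hpq
      rw [hu, Finset.card_univ, card_pt] at this
      omega
    obtain ⟨s, hs⟩ : ∃ s, s ∉ ({p, q, r} : Finset GolayPt) := by
      by_contra hc
      push Not at hc
      have hu := Finset.eq_univ_iff_forall.2 hc
      have hle : ({p, q, r} : Finset GolayPt).card ≤ 3 := Finset.card_le_three
      rw [hu, Finset.card_univ, card_pt] at hle
      omega
    simp only [Finset.mem_insert, Finset.mem_singleton, not_or] at hr hs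
    have h1 : p ≠ r := fun e => hr.1 e.symm
    have h2 : q ≠ s := fun e => hs.2.1 e.symm
    have hne : ({p, r} : Finset GolayPt) ≠ {q, s} := by
      intro e
      have := Finset.ext_iff.1 e p
      simp [hpq, Ne.symm hs.1] at this
    have := (hmeet p r q s h1 h2 hne).2 ⟨σ₀ p, hσ₀ p r h1, e ▸ hσ₀ q s h2⟩
    rcases this with h | h | h | h
    exacts [hpq h, hs.1 h.symm, hr.2 h, hs.2.2 h.symm]
  let σ : Equiv.Perm GolayPt := Equiv.ofBijective σ₀ (Finite.injective_iff_bijective.1 hσinj)
  have hσp : ∀ p q, p ≠ q → cdPt (σ p) ^^^ cdPt (σ q) = f (cdPt p ^^^ cdPt q) := by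
    intro p q h
    have e : ({σ₀ p, σ₀ q} : Finset GolayPt) = D p q h := by
      refine Finset.eq_of_subset_of_card_le ?_ ?_
      · intro a ha
        simp only [Finset.mem_insert, Finset.mem_singleton] at ha
        rcases ha with rfl | rfl
        exacts [hσ₀ p q h, hswap p q h]
      · rw [hD2, Finset.card_pair (fun e => h (hσinj e))]
    rw [← evN_pair (fun e => h (σ.injective e)), ← hABf p q h, ← evN_pair (hAB p q h)]
    exact congrArg evN e
  have hconst : ∀ p q, f (cdPt p) ^^^ cdPt (σ p) = f (cdPt q) ^^^ cdPt (σ q) := by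
    intro p q
    by_cases h : p = q
    · rw [h]
    · apply Nat.xor_eq_zero_iff.1
      rw [show f (cdPt p) ^^^ cdPt (σ p) ^^^ (f (cdPt q) ^^^ cdPt (σ q)) =
          f (cdPt p) ^^^ f (cdPt q) ^^^ (cdPt (σ p) ^^^ cdPt (σ q)) by ac_rfl,
        hσp p q h, hx _ (cdPt_lt p) _ (cdPt_lt q), Nat.xor_self]
  have hf0 : f 0 = 0 := by
    have h := hx 0 (by norm_num) 0 (by norm_num)
    rwa [Nat.xor_self, Nat.xor_self] at h
  have hev : ∀ S : Finset GolayPt, evN (S.image σ) =
      f (evN S) ^^^ (if Even S.card then 0 else f (cdPt none) ^^^ cdPt (σ none)) := by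
    intro S
    induction S using Finset.induction_on with
    | empty => simp [evN_empty, hf0]
    | insert p S hp ih =>
      rw [Finset.image_insert, evN_insert (by simp [hp]), evN_insert hp, ih,
        hx _ (cdPt_lt p) _ (evN_lt S), Finset.card_insert_of_notMem hp]
      have e : cdPt (σ p) = f (cdPt p) ^^^ (f (cdPt none) ^^^ cdPt (σ none)) := by
        rw [← hconst p none, ← Nat.xor_assoc, Nat.xor_self, Nat.zero_xor]
      rw [e]
      generalize f (cdPt none) ^^^ cdPt (σ none) = δ
      by_cases hS : Even S.card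
      · rw [if_pos hS, if_neg (by rw [Nat.even_add_one]; exact not_not_intro hS)]
        simp only [Nat.xor_zero]; ac_rfl
      · rw [if_neg hS, if_pos (by rw [Nat.even_add_one]; exact hS)]
        rw [show f (cdPt p) ^^^ δ ^^^ (f (evN S) ^^^ δ) =
          f (cdPt p) ^^^ f (evN S) ^^^ (δ ^^^ δ) by ac_rfl, Nat.xor_self]
  have hevE : ∀ S : Finset GolayPt, Even S.card → evN (S.image σ) = f (evN S) := fun S hS => by
    rw [hev S, if_pos hS, Nat.xor_zero]
  have hM : σ ∈ M24 := by
    refine mem_M24_of_forall fun b hb => ?_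
    have hs : unmask b ∈ supports (golayCode : Set (GolayPt → ZMod 2)) :=
      mem_supports_iff.2 ⟨b, mem_spanMasks_self hb, rfl⟩
    have he : Even (unmask b).card := by
      rcases card_mem_weights hs with h | h | h | h | h <;> rw [h] <;> decide
    have himgE : Even ((unmask b).image σ).card := by
      rwa [Finset.card_image_of_injective _ σ.injective]
    rw [show σ • unmask b = (unmask b).image σ from Finset.smul_finset_def .., ← evN_eq_zero himgE,
      hevE _ he, (evN_eq_zero he).2 hs, hf0]
  refine ⟨σ, ⟨hM, hevE⟩, ?_⟩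
  rintro τ ⟨-, hτ⟩
  ext1 p
  obtain ⟨q, hq⟩ : ∃ q, q ≠ p := exists_ne p
  obtain ⟨r, hr⟩ : ∃ r, r ∉ ({p, q} : Finset GolayPt) := by
    by_contra hc
    push Not at hc
    have hu := Finset.eq_univ_iff_forall.2 hc
    have := Finset.card_pair hq.symm
    rw [hu, Finset.card_univ, card_pt] at this
    omega
  simp only [Finset.mem_insert, Finset.mem_singleton, not_or] at hr
  have hpair : ∀ q, q ≠ p → ({τ p, τ q} : Finset GolayPt) = {σ p, σ q} := by
    intro q hq
    have he : Even ({p, q} : Finset GolayPt).card := by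
      rw [Finset.card_pair hq.symm]; decide
    have h := (hτ _ he).trans (hevE _ he).symm
    simp only [Finset.image_insert, Finset.image_singleton] at h
    rw [evN_pair (fun e => hq (τ.injective e).symm), evN_pair (fun e => hq (σ.injective e).symm)] at h
    exact duad_inj (fun e => hq (τ.injective e).symm) (fun e => hq (σ.injective e).symm) h
  have h1 := Finset.ext_iff.1 (hpair q hq) (τ p)
  have h2 := Finset.ext_iff.1 (hpair r hr.1) (τ p)
  simp only [Finset.mem_insert, Finset.mem_singleton, true_or, true_iff] at h1 h2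
  rcases h1 with h1 | h1
  · exact h1
  rcases h2 with h2 | h2
  · exact h2
  exact absurd (σ.injective (h2.symm.trans h1)) hr.2

end CfsgLib.LargeFischer.Base
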