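import Cfsg.Agent.Lib.LargeFischer.Base.Layers
import Cfsg.Agent.Lib.LargeFischer.Base.Duads
import Cfsg.Agent.Lib.Golay.M24
import Cfsg.Agent.Lib.FischerLarge.U62.Layer

/-!
Large Fischer type: the normaliser of the elementary abelian subgroup acts on the twenty-four points as `M₂₄`,
compatibly with the labelling of the subgroup by even sets modulo the code.
-/

set_option autoImplicit false
set_option linter.unusedSectionVars false
set_option linter.style.haveILetI false

namespace CfsgLib.LargeFischer.Base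

open Orbits CfsgLib.ExtraspecialLarge
open scoped symmDiff Pointwise Classical
open Cfsg (GolayPt M24 golayCode supports)

universe u

variable {G : Type u} [Group G] [Finite G] {z : G}
  {Q : Subgroup ↥(Subgroup.centralizer ({z} : Set G))} [Q.Normal]
  (hs : Cfsg.IsExtraspecialCentralizerSetting z Q 6) {C : Coords z Q} (hc : C.ClassData 0)
  (L : Lifts C)

/-- The normaliser. -/
abbrev normA (C : Coords z Q) : Subgroup G := Subgroup.normalizer (baseA C : Set G)

/-- The element of an even set. -/
noncomputable def evA (L : Lifts C) (S : Finset GolayPt) : G := gpt L (evN S)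

include hs hc

theorem exists_conj_code (g : normA C) (n : Nat) :
    ∃ m < 2048, gpt L m = (g : G) * gpt L n * (g : G)⁻¹ :=
  exists_gpt hs L hc ((Subgroup.mem_normalizer_iff.1 g.2 _).1 (gpt_mem hs L hc n))

/-- The action of the normaliser on the codes. -/
noncomputable def conjCode (g : normA C) (n : Nat) : Nat := (exists_conj_code hs hc L g n).choose

theorem conjCode_lt (g : normA C) (n : Nat) : conjCode hs hc L g n < 2048 :=
  (exists_conj_code hs hc L g n).choose_spec.1

theorem gpt_conjCode (g : normA C) (n : Nat) :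
    gpt L (conjCode hs hc L g n) = (g : G) * gpt L n * (g : G)⁻¹ :=
  (exists_conj_code hs hc L g n).choose_spec.2

theorem conjCode_eq {g : normA C} {n m : Nat} (hm : m < 2048) (h : gpt L m = (g : G) * gpt L n * (g : G)⁻¹) :
    conjCode hs hc L g n = m :=
  gpt_injective hs L hc (conjCode_lt hs hc L g n) hm ((gpt_conjCode hs hc L g n).trans h.symm)

theorem conjCode_xor (g : normA C) (a b : Nat) :
    conjCode hs hc L g (a ^^^ b) = conjCode hs hc L g a ^^^ conjCode hs hc L g b := by
  refine conjCode_eq hs hc L (Nat.xor_lt_two_pow (n := 11) (conjCode_lt hs hc L g a) (conjCode_lt hs hc L g b)) ?_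
  rw [gpt_xor hs L hc, gpt_xor hs L hc, gpt_conjCode, gpt_conjCode]
  group

theorem conjCode_mul (g k : normA C) (n : Nat) :
    conjCode hs hc L (g * k) n = conjCode hs hc L g (conjCode hs hc L k n) := by
  refine conjCode_eq hs hc L (conjCode_lt hs hc L g _) ?_
  rw [gpt_conjCode, gpt_conjCode, Subgroup.coe_mul]
  group

variable (hL : ∀ n < 2048, (NonZ L n ↔ tMask.testBit n = true))
include hL

theorem exists_perm_of_normA (g : normA C) : ∃! σ : Equiv.Perm GolayPt, σ ∈ M24 ∧
    ∀ S : Finset GolayPt, Even S.card → evN (S.image σ) = conjCode hs hc L g (evN S) := by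
  refine exists_perm _ (fun n _ => conjCode_lt hs hc L g n) (fun a _ b _ => conjCode_xor hs hc L g a b)
    (fun a ha b hb e => gpt_injective hs L hc ha hb ?_) fun n hn => Bool.eq_iff_iff.2 ?_
  · have h := congrArg (gpt L) e
    rw [gpt_conjCode, gpt_conjCode] at h
    exact mul_left_cancel (mul_right_cancel h)
  · rw [← hL n hn, ← hL _ (conjCode_lt hs hc L g n)]
    have hm : MConj C (gpt L n) (gpt L (conjCode hs hc L g n)) := ⟨g, g.2, (gpt_conjCode hs hc L g n).symm⟩
    refine and_congr (not_congr ⟨fun e => ?_, fun e => ?_⟩) (not_congr hm.isConj.symm)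
    · have h := gpt_conjCode hs hc L g n
      rw [e, gpt_zero hs L hc] at h
      exact gpt_injective hs L hc hn (by norm_num) ((conj_eq_one_iff.1 h.symm).trans (gpt_zero hs L hc).symm)
    · exact conjCode_eq hs hc L (by norm_num) (by rw [e, gpt_zero hs L hc]; group)

/-- The permutation of a normalising element. -/
noncomputable def permOf (g : normA C) : ↥M24 :=
  ⟨(exists_perm_of_normA hs hc L hL g).choose, (exists_perm_of_normA hs hc L hL g).choose_spec.1.1⟩

theorem evN_permOf (g : normA C) {S : Finset GolayPt} (hS : Even S.card) :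
    evN (S.image (permOf hs hc L hL g : Equiv.Perm GolayPt)) = conjCode hs hc L g (evN S) :=
  (exists_perm_of_normA hs hc L hL g).choose_spec.1.2 S hS

theorem permOf_eq {g : normA C} {σ : ↥M24}
    (h : ∀ S : Finset GolayPt, Even S.card → evN (S.image (σ : Equiv.Perm GolayPt)) = conjCode hs hc L g (evN S)) :
    permOf hs hc L hL g = σ :=
  Subtype.ext ((exists_perm_of_normA hs hc L hL g).choose_spec.2 _ ⟨σ.2, h⟩).symm

/-- The representation on the points. -/
noncomputable def rhoA : normA C →* ↥M24 :=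
  MonoidHom.mk' (permOf hs hc L hL) fun g k => permOf_eq hs hc L hL fun S hS => by
    rw [conjCode_mul, ← evN_permOf hs hc L hL k hS, ← evN_permOf hs hc L hL g
      (show Even (S.image (permOf hs hc L hL k : Equiv.Perm GolayPt)).card by
        rwa [Finset.card_image_of_injective _ (Equiv.injective _)]), Finset.image_image]
    rfl

theorem evA_rhoA (g : normA C) {S : Finset GolayPt} (hS : Even S.card) :
    evA L (S.image (rhoA hs hc L hL g : Equiv.Perm GolayPt)) = (g : G) * evA L S * (g : G)⁻¹ := by
  show gpt L (evN (S.image (permOf hs hc L hL g : Equiv.Perm GolayPt))) = _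
  rw [evN_permOf hs hc L hL g hS, gpt_conjCode]
  rfl

/-- The kernel is the subgroup. -/
theorem rhoA_ker : (rhoA hs hc L hL).ker = (baseA C).subgroupOf (normA C) := by
  ext g
  rw [MonoidHom.mem_ker, Subgroup.mem_subgroupOf]
  constructor
  · intro h
    refine centralizer_baseA hs C hc (Subgroup.mem_centralizer_iff.2 fun a ha => ?_)
    obtain ⟨n, hn, rfl⟩ := exists_gpt hs L hc ha
    obtain ⟨S, hS, rfl⟩ := evN_surj hn
    have e := evA_rhoA hs hc L hL g hS
    rw [h, OneMemClass.coe_one, Equiv.Perm.coe_one, Finset.image_id] at e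
    exact (mul_inv_eq_iff_eq_mul.1 e.symm).symm
  · intro hg
    refine permOf_eq hs hc L hL fun S hS => ?_
    rw [OneMemClass.coe_one, Equiv.Perm.coe_one, Finset.image_id]
    refine (conjCode_eq hs hc L (evN_lt S) ?_).symm
    have hcomm := congrArg Subtype.val ((elem_baseA hs C hc).1.is_comm.comm ⟨g, hg⟩ ⟨_, gpt_mem hs L hc (evN S)⟩)
    change (g : G) * gpt L (evN S) = gpt L (evN S) * (g : G) at hcomm
    rw [hcomm, mul_inv_cancel_right]

/-- All of `M₂₄` is induced, if the orbit of `z` has length `1771`. -/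
theorem rhoA_surjective
    (h1771 : Nat.card {b : G // ∃ m ∈ Subgroup.normalizer (baseA C : Set G), m * z * m⁻¹ = b} = 1771) :
    Function.Surjective (rhoA hs hc L hL) := by
  set O := {b : G // ∃ m ∈ Subgroup.normalizer (baseA C : Set G), m * z * m⁻¹ = b}
  choose m hm hmb using fun b : O => b.2
  let F : O × ↥(Subgroup.normalizer (baseA C : Set G) ⊓ Subgroup.centralizer ({z} : Set G)) → normA C :=
    fun a => ⟨m a.1 * a.2, mul_mem (hm a.1) a.2.2.1⟩
  have hF : Function.Injective F := by
    rintro ⟨b, c⟩ ⟨b', c'⟩ e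
    have e' : m b * (c : G) = m b' * c' := congrArg Subtype.val e
    have hz : ∀ (b : O) (c : ↥(Subgroup.normalizer (baseA C : Set G) ⊓ Subgroup.centralizer ({z} : Set G))),
        m b * (c : G) * z * (m b * (c : G))⁻¹ = b := fun b c => by
      rw [mul_assoc (m b) (c : G) z, Subgroup.mem_centralizer_singleton_iff.1 c.2.2, ← hmb b]
      group
    have hbb : b = b' := Subtype.ext (by rw [← hz b c, e', hz b' c'])
    subst hbb
    exact Prod.ext rfl (Subtype.ext (mul_left_cancel e'))
  have h1 := Nat.card_le_card_of_injective F hF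
  rw [Nat.card_prod, h1771] at h1
  have h2 := card_normalizer_inf hs C hc
  have h3 := (rhoA hs hc L hL).ker.card_mul_index
  rw [Subgroup.index_ker, rhoA_ker,
    Nat.card_congr (Subgroup.subgroupOfEquivOfLe (Subgroup.le_normalizer : baseA C ≤ normA C)).toEquiv,
    card_baseA hs C hc] at h3
  refine MonoidHom.range_eq_top.1 (Subgroup.eq_top_of_le_card _ ?_)
  rw [CfsgLib.Golay.natCard_M24]
  have h4 : 1771 * (2 ^ 17 * 2160) ≤
      1771 * Nat.card ↥(Subgroup.normalizer (baseA C : Set G) ⊓ Subgroup.centralizer ({z} : Set G)) :=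
    Nat.mul_le_mul_left _ h2
  norm_num at h1 h2 h3 h4 ⊢
  omega

omit hL in
theorem evA_mem {S : Finset GolayPt} : evA L S ∈ baseA C := gpt_mem hs L hc _

omit hL in
theorem evA_surj {a : G} (ha : a ∈ baseA C) : ∃ S : Finset GolayPt, Even S.card ∧ evA L S = a := by
  obtain ⟨n, hn, rfl⟩ := exists_gpt hs L hc ha
  obtain ⟨S, hS, rfl⟩ := evN_surj hn
  exact ⟨S, hS, rfl⟩

omit hL in
theorem evA_symmDiff (S T : Finset GolayPt) : evA L (S ∆ T) = evA L S * evA L T := by
  rw [evA, evN_symmDiff, gpt_xor hs L hc]; rfl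

omit hL in
theorem evA_eq_one {S : Finset GolayPt} (hS : Even S.card) :
    evA L S = 1 ↔ S ∈ supports (golayCode : Set (GolayPt → ZMod 2)) := by
  rw [← evN_eq_zero hS]
  exact ⟨fun e => gpt_injective hs L hc (evN_lt S) (by norm_num) (e.trans (gpt_zero hs L hc).symm),
    fun e => by rw [evA, e, gpt_zero hs L hc]⟩

/-- The elements not conjugate to `z` are the duads. -/
theorem not_isConj_iff {a : G} (ha : a ∈ baseA C) (ha1 : a ≠ 1) :
    ¬ IsConj z a ↔ ∃ S : Finset GolayPt, S.card = 2 ∧ a = evA L S := by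
  obtain ⟨n, hn, rfl⟩ := exists_gpt hs L hc ha
  have hn0 : n ≠ 0 := fun e => ha1 (by rw [e, gpt_zero hs L hc])
  have h1 : NonZ L n ↔ ¬ IsConj z (gpt L n) := ⟨fun h => h.2, fun h => ⟨hn0, h⟩⟩
  rw [← h1, hL n hn, evN_duad hn]
  constructor
  · rintro ⟨p, q, hpq, e⟩
    exact ⟨{p, q}, Finset.card_pair hpq, by rw [evA, e]⟩
  · rintro ⟨S, hS, e⟩
    obtain ⟨p, q, hpq, rfl⟩ := Finset.card_eq_two.1 hS
    exact ⟨p, q, hpq, (gpt_injective hs L hc hn (evN_lt _) e).symm⟩

/-- The stabiliser of a duad. -/
theorem conj_duad_iff {p q : GolayPt} (hpq : p ≠ q) (g : normA C) :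
    (g : G) * evA L {p, q} * (g : G)⁻¹ = evA L {p, q} ↔
      ((rhoA hs hc L hL g : Equiv.Perm GolayPt) • ({p, q} : Set GolayPt)) = {p, q} := by
  set σ : Equiv.Perm GolayPt := (rhoA hs hc L hL g : Equiv.Perm GolayPt)
  have hS : Even ({p, q} : Finset GolayPt).card := by rw [Finset.card_pair hpq]; decide
  have himg : ({p, q} : Finset GolayPt).image σ = {σ p, σ q} := by simp
  rw [← evA_rhoA hs hc L hL g hS, himg, Set.smul_set_insert, Set.smul_set_singleton]
  have hne : σ p ≠ σ q := σ.injective.ne hpq
  constructor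
  · intro e
    have e' := gpt_injective hs L hc (evN_lt _) (evN_lt _) e
    rw [evN_pair hne, evN_pair hpq] at e'
    have := duad_inj hne hpq e'
    have h2 := congrArg (fun F : Finset GolayPt => (F : Set GolayPt)) this
    simp only [Finset.coe_insert, Finset.coe_singleton] at h2
    exact h2
  · intro e
    have : ({σ p, σ q} : Finset GolayPt) = {p, q} := by
      apply Finset.coe_injective
      simp only [Finset.coe_insert, Finset.coe_singleton]
      exact e
    rw [this]

/-- The labelled layer. -/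
theorem exists_layer
    (h1771 : Nat.card {b : G // ∃ m ∈ Subgroup.normalizer (baseA C : Set G), m * z * m⁻¹ = b} = 1771) :
    ∃ Lay : CfsgLib.FischerLarge.U62.Layer z (QG Q), Lay.A = baseA C ∧
      ∀ g, Lay.ρ g = 1 ↔ (g : G) ∈ Lay.A :=
  ⟨{ A := baseA C
     comm := fun a ha b hb => congrArg Subtype.val ((elem_baseA hs C hc).1.is_comm.comm ⟨a, ha⟩ ⟨b, hb⟩)
     sq := fun a ha => by rw [← pow_two]; exact (elem_baseA hs C hc).2 a ha
     ev := evA L
     ev_mem := fun _ _ => evA_mem hs hc L
     ev_surj := fun _ ha => evA_surj hs hc L ha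
     ev_symm := fun S T _ _ => evA_symmDiff hs hc L S T
     ev_code := fun _ hS => evA_eq_one hs hc L hS
     class_iff := fun _ ha ha1 => not_isConj_iff hs hc L hL ha ha1
     z_mem := z_mem_baseA hs C hc
     card_inter := by rw [show (128 : ℕ) = 2 ^ 7 by norm_num]; exact card_baseA_inf hs C hc
     Q_le := QG_le_normalizer hs C hc
     ρ := rhoA hs hc L hL
     ρ_surj := rhoA_surjective hs hc L hL h1771
     ρ_ker := fun g hg => by
       have : g ∈ (rhoA hs hc L hL).ker := hg
       rwa [rhoA_ker, Subgroup.mem_subgroupOf] at this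
     ρ_conj := fun g _ hS => evA_rhoA hs hc L hL g hS }, rfl, fun g => ((SetLike.ext_iff.1 (rhoA_ker hs hc L hL) g).trans Subgroup.mem_subgroupOf)⟩

end CfsgLib.LargeFischer.Base
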