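import Cfsg.Agent.Lib.LargeFischer.Base.Fix

/-!
Large Fischer type: an element `x₀` of order dividing three inducing the scalar, canonical
representatives in `Q`, and the lifts of the sixteen maps centralising `x₀`.
-/

set_option autoImplicit false
set_option linter.unusedSectionVars false
set_option linter.style.haveILetI false

namespace CfsgLib.LargeFischer.Base

open Orbits

theorem rP_injective : Function.Injective rP := by
  intro p q hpq
  have h : ∀ p q : Fin 16,
      (bitsN.all fun b => appN (rImg p) b == appN (rImg q) b) = true → p = q := by decide +kernel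
  refine h p q (List.all_eq_true.2 fun b hb => ?_)
  have hlt : b < 4096 := by simp [bitsN] at hb; omega
  have := congrArg (fun g => enc (g (dec b))) hpq
  simp only [enc_rP, enc_dec b hlt] at this
  simp [this]

theorem addPt_three (v : Pt) :
    addPt (addPt v (shift (fun _ => 1) v)) (shift (fun _ => 1) (shift (fun _ => 1) v)) = zeroPt := by
  have h : ∀ a : Option (ZMod 3),
      addCoord (addCoord a (a.map (· + 1))) ((a.map (· + 1)).map (· + 1)) = none := by decide
  funext i
  exact h (v i)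

/-- Orthogonality with respect to the hermitian form, by parities of weights. -/
def Orth (u w : Pt) : Prop :=
  Even (wt u) ∧ Even (wt w) ∧ ∀ k : ZMod 3, Even (wt (addPt u (shift (fun _ => k) w)))

theorem shift_const_zero (v : Pt) : shift (fun _ => (0 : ZMod 3)) v = v := shift_zero v

theorem shift_shift (a b : ZMod 3) (v : Pt) :
    shift (fun _ => a) (shift (fun _ => b) v) = shift (fun _ => b + a) v := by
  funext i
  rcases hv : v i with _ | e <;> simp [shift, hv, add_assoc]

theorem Orth.rot {u w : Pt} (h : Orth u w) (i j : ZMod 3) :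
    Even (wt (addPt (shift (fun _ => i) u) (shift (fun _ => j) w))) := by
  have e : addPt (shift (fun _ => i) u) (shift (fun _ => j) w) =
      shift (fun _ => i) (addPt u (shift (fun _ => j - i) w)) := by
    rw [shift_addPt, shift_shift, sub_add_cancel]
  rw [e, wt_shift]
  exact h.2.2 _

/-- The codes of the 3-space. -/
def wList : List Nat := spanN [5, 80, 1280]

/-- Membership of the 3-space. -/
def InW (v : Pt) : Prop := enc v ∈ wList

theorem wList_check : wList.all (fun a => decide (a < 4096) && qN a && wList.contains (scalN a) &&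
    wList.all fun b => wList.contains (a ^^^ b)) = true := by decide +kernel

theorem InW.add {u w : Pt} (hu : InW u) (hw : InW w) : InW (addPt u w) := by
  have h := List.all_eq_true.1 wList_check _ hu
  simp only [Bool.and_eq_true, List.all_eq_true, List.contains_eq_mem, decide_eq_true_eq] at h
  show enc (addPt u w) ∈ wList
  rw [enc_addPt]
  exact h.2 _ hw

theorem InW.even {u : Pt} (hu : InW u) : Even (wt u) := by
  have h := List.all_eq_true.1 wList_check _ hu
  simp only [Bool.and_eq_true] at h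
  rw [even_iff]; exact h.1.1.2

theorem InW.scal {u : Pt} (hu : InW u) : InW (shift (fun _ => 1) u) := by
  have h := List.all_eq_true.1 wList_check _ hu
  simp only [Bool.and_eq_true, List.contains_eq_mem, decide_eq_true_eq] at h
  show enc (shift _ u) ∈ wList
  rw [enc_shift]; exact h.1.2

theorem InW.shift {u : Pt} (hu : InW u) (k : ZMod 3) : InW (Orbits.shift (fun _ => k) u) := by
  have h0 : Orbits.shift (fun _ => (0 : ZMod 3)) u = u := shift_zero u
  have h2 : Orbits.shift (fun _ => (2 : ZMod 3)) u =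
      Orbits.shift (fun _ => 1) (Orbits.shift (fun _ => 1) u) := by rw [shift_shift]; rfl
  rcases (by decide : ∀ k : ZMod 3, k = 0 ∨ k = 1 ∨ k = 2) k with rfl | rfl | rfl
  · rw [h0]; exact hu
  · exact hu.scal
  · rw [h2]; exact hu.scal.scal

theorem InW.orth {u w : Pt} (hu : InW u) (hw : InW w) : Orth u w :=
  ⟨hu.even, hw.even, fun k => (hu.add (hw.shift k)).even⟩

theorem rP_fix_check : ∀ p : Fin 16, (wList.all fun b => appN (rImg p) b == b) = true := by
  decide +kernel

theorem rP_fix (p : Fin 16) {v : Pt} (hv : InW v) : rP p v = v := by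
  refine enc_injective ?_
  rw [enc_rP]
  simpa using List.all_eq_true.1 (rP_fix_check p) _ hv

variable {G : Type*} [Group G] [Finite G] {z : G}
  {Q : Subgroup ↥(Subgroup.centralizer ({z} : Set G))} [Q.Normal]
  (hs : Cfsg.IsExtraspecialCentralizerSetting z Q 6) (C : Coords z Q)

/-- The element inducing the scalar of order dividing three. -/
def x₀ : ↥(Subgroup.centralizer ({z} : Set G)) := C.x ^ 4

/-- The product of the three conjugates. -/
def nX (q : ↥(Subgroup.centralizer ({z} : Set G))) : ↥(Subgroup.centralizer ({z} : Set G)) :=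
  q * (x₀ C * q * (x₀ C)⁻¹) * (x₀ C * (x₀ C * q * (x₀ C)⁻¹) * (x₀ C)⁻¹)

open scoped Classical in
/-- The canonical representative. -/
noncomputable def canon (v : Pt) : ↥(Subgroup.centralizer ({z} : Set G)) :=
  if nX C (C.lift v) = 1 then C.lift v else C.lift v * zH z

theorem mk_x_cube : (QuotientGroup.mk C.x : ↥(Subgroup.centralizer ({z} : Set G)) ⧸ Q) ^ 3 = 1 := by
  refine C.act_injective (Equiv.ext fun v => ?_)
  rw [map_pow, pow_succ, pow_two, map_one]
  simp only [Equiv.Perm.mul_apply, C.act_x, shift_shift]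
  exact shift_zero v

theorem act_x₀ (v : Pt) : C.act (QuotientGroup.mk (x₀ C)) v = shift (fun _ => 1) v := by
  rw [x₀, QuotientGroup.mk_pow, pow_succ, mk_x_cube, one_mul, C.act_x]

theorem mk_x₀ : (QuotientGroup.mk (x₀ C) : ↥(Subgroup.centralizer ({z} : Set G)) ⧸ Q) =
    QuotientGroup.mk C.x := by
  rw [x₀, QuotientGroup.mk_pow, pow_succ, mk_x_cube, one_mul]

/-- The elements centralising `x₀` over the sixteen maps. -/
def radLift : Subgroup ↥(Subgroup.centralizer ({z} : Set G)) where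
  carrier := {c | c * x₀ C = x₀ C * c ∧ ∃ p, C.act (QuotientGroup.mk c) = rP p}
  one_mem' := ⟨by simp, 0, by rw [QuotientGroup.mk_one, map_one, rP_zero]⟩
  mul_mem' := by
    rintro a b ⟨ha, p, hp⟩ ⟨hb, q, hq⟩
    refine ⟨by rw [mul_assoc, hb, ← mul_assoc, ha, mul_assoc],
      ⟨(p.val ^^^ q.val) % 16, Nat.mod_lt _ (by norm_num)⟩, ?_⟩
    rw [QuotientGroup.mk_mul, map_mul, hp, hq, rP_mul]
  inv_mem' := by
    rintro a ⟨ha, p, hp⟩
    exact ⟨(Commute.inv_left (ha : Commute a (x₀ C))).eq, p,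
      by rw [QuotientGroup.mk_inv, map_inv, hp, rP_inv]⟩

include hs

theorem x₀_cube : x₀ C ^ 3 = 1 := by
  have hq : C.x ^ 3 ∈ Q := by
    rw [← QuotientGroup.eq_one_iff, QuotientGroup.mk_pow]
    exact mk_x_cube C
  have h4 : (C.x ^ 3) ^ 4 = 1 := by
    rcases sq_cases hs hq with e | e <;>
      rw [show (C.x ^ 3) ^ 4 = (C.x ^ 3 * C.x ^ 3) * (C.x ^ 3 * C.x ^ 3) by group, e]
    · exact one_mul 1
    · exact zH_sq hs
  rw [x₀, ← pow_mul, show 4 * 3 = 3 * 4 by norm_num, pow_mul, h4]

theorem rep_x₀ {v : Pt} {q : ↥(Subgroup.centralizer ({z} : Set G))} (h : C.Rep v q) :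
    C.Rep (shift (fun _ => 1) v) (x₀ C * q * (x₀ C)⁻¹) := by
  have h' := h.conj hs (x₀ C)
  rwa [act_x₀] at h'

theorem nX_cases {v : Pt} {q : ↥(Subgroup.centralizer ({z} : Set G))} (h : C.Rep v q) :
    nX C q = 1 ∨ nX C q = zH z := by
  have h' := Coords.Rep.mul hs C (Coords.Rep.mul hs C h (rep_x₀ hs C h))
    (rep_x₀ hs C (rep_x₀ hs C h))
  rw [addPt_three] at h'
  exact (h'.zero_iff hs).1 rfl

theorem nX_mul_z (q : ↥(Subgroup.centralizer ({z} : Set G))) :
    nX C (q * zH z) = nX C q * zH z := by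
  have hcomm : ∀ a, Commute a (zH z) := fun a => zH_comm a
  have hconj : ∀ a b, b * (a * zH z) * b⁻¹ = b * a * b⁻¹ * zH z := fun a b => by
    rw [show b * (a * zH z) * b⁻¹ = b * a * b⁻¹ * (b * zH z * b⁻¹) by group, conj_zH]
  unfold nX
  rw [hconj, hconj]
  set a := x₀ C * q * (x₀ C)⁻¹
  set b := x₀ C * a * (x₀ C)⁻¹
  calc q * zH z * (a * zH z) * (b * zH z) = q * (zH z * a) * zH z * (b * zH z) := by group
    _ = q * a * (zH z * zH z) * (b * zH z) := by rw [← zH_comm a]; group
    _ = q * a * b * zH z := by rw [zH_sq hs]; group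

theorem canon_spec (v : Pt) : C.Rep v (canon C v) ∧ nX C (canon C v) = 1 := by
  classical
  unfold canon
  split_ifs with h
  · exact ⟨Or.inl rfl, h⟩
  · refine ⟨Or.inr rfl, ?_⟩
    rw [nX_mul_z hs C, (nX_cases hs C (Or.inl rfl : C.Rep v (C.lift v))).resolve_left h, zH_sq hs]

theorem canon_unique {v : Pt} {q : ↥(Subgroup.centralizer ({z} : Set G))} (h : C.Rep v q)
    (hn : nX C q = 1) : q = canon C v := by
  obtain ⟨h1, h2⟩ := canon_spec hs C v
  rcases h1.pair hs h with e | e
  · exact e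
  · exfalso
    rw [e, nX_mul_z hs C, h2, one_mul] at hn
    exact zH_ne_one hs hn

theorem canon_conj {c : ↥(Subgroup.centralizer ({z} : Set G))} (hc : c * x₀ C = x₀ C * c) (v : Pt) :
    c * canon C v * c⁻¹ = canon C (C.act (QuotientGroup.mk c) v) := by
  obtain ⟨h1, h2⟩ := canon_spec hs C v
  refine canon_unique hs C (h1.conj hs c) ?_
  have e : ∀ a, x₀ C * (c * a * c⁻¹) * (x₀ C)⁻¹ = c * (x₀ C * a * (x₀ C)⁻¹) * c⁻¹ := by
    intro a
    calc x₀ C * (c * a * c⁻¹) * (x₀ C)⁻¹ = (x₀ C * c) * a * (x₀ C * c)⁻¹ := by group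
      _ = _ := by rw [← hc]; group
  calc nX C (c * canon C v * c⁻¹) = c * nX C (canon C v) * c⁻¹ := by
        unfold nX; rw [e, e]; group
    _ = 1 := by rw [h2]; group

theorem commute_of_even {u w : Pt} {q r : ↥(Subgroup.centralizer ({z} : Set G))} (hq : C.Rep u q)
    (hr : C.Rep w r) (hu : Even (wt u)) (hw : Even (wt w)) (huw : Even (wt (addPt u w))) :
    q * r = r * q := by
  have h1 := (hq.sq hs).2 hu
  have h2 := (hr.sq hs).2 hw
  have h3 := ((Coords.Rep.mul hs C hq hr).sq hs).2 huw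
  rw [← eq_inv_iff_mul_eq_one, mul_inv_rev, inv_eq_of_mul_eq_one_right h1,
    inv_eq_of_mul_eq_one_right h2] at h3
  exact h3

theorem canon_mul {u w : Pt} (h : Orth u w) :
    canon C (addPt u w) = canon C u * canon C w := by
  obtain ⟨h1, h1'⟩ := canon_spec hs C u
  obtain ⟨h2, h2'⟩ := canon_spec hs C w
  refine (canon_unique hs C (Coords.Rep.mul hs C h1 h2) ?_).symm
  set q := canon C u
  set r := canon C w
  set q1 := x₀ C * q * (x₀ C)⁻¹ with hq1
  set r1 := x₀ C * r * (x₀ C)⁻¹ with hr1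
  set q2 := x₀ C * q1 * (x₀ C)⁻¹ with hq2
  set r2 := x₀ C * r1 * (x₀ C)⁻¹ with hr2
  have hu : Even (wt u) := h.1
  have hw : Even (wt w) := h.2.1
  have e1 : r * q1 = q1 * r := (commute_of_even hs C (rep_x₀ hs C h1) h2
    (by rwa [wt_shift]) hw (by simpa only [shift_const_zero] using h.rot 1 0)).symm
  have hqq : C.Rep (shift (fun _ => 1) (shift (fun _ => 1) u)) q2 :=
    rep_x₀ hs C (rep_x₀ hs C h1)
  have e2 : r * q2 = q2 * r := (commute_of_even hs C hqq h2
    (by rwa [wt_shift, wt_shift]) hw (by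
      rw [shift_shift]
      simpa only [shift_const_zero] using h.rot (1 + 1) 0)).symm
  have e3 : r1 * q2 = q2 * r1 := (commute_of_even hs C hqq (rep_x₀ hs C h2)
    (by rwa [wt_shift, wt_shift]) (by rwa [wt_shift]) (by rw [shift_shift]; exact h.rot _ _)).symm
  have hx1 : x₀ C * (q * r) * (x₀ C)⁻¹ = q1 * r1 := by rw [hq1, hr1]; group
  have hx2 : x₀ C * (q1 * r1) * (x₀ C)⁻¹ = q2 * r2 := by rw [hq2, hr2]; group
  have h1'' : q * q1 * q2 = 1 := h1'
  have h2'' : r * r1 * r2 = 1 := h2'
  calc nX C (q * r) = q * r * (q1 * r1) * (q2 * r2) := by unfold nX; rw [hx1, hx2]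
    _ = q * (r * q1) * r1 * q2 * r2 := by group
    _ = q * q1 * r * (r1 * q2) * r2 := by rw [e1]; group
    _ = q * q1 * (r * q2) * r1 * r2 := by rw [e3]; group
    _ = (q * q1 * q2) * (r * r1 * r2) := by rw [e2]; group
    _ = 1 := by rw [h1'', h2'', one_mul]

/-- Only `1` and `z` in `Q` centralise `x₀`. -/
theorem fix_Q {q : ↥(Subgroup.centralizer ({z} : Set G))} (hq : q ∈ Q)
    (hx : q * x₀ C = x₀ C * q) : q = 1 ∨ q = zH z := by
  obtain ⟨v, hv⟩ := Coords.exists_rep (C := C) hq
  refine (hv.zero_iff hs).1 ?_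
  by_contra hne
  have h := rep_x₀ hs C hv
  rw [← hx, mul_inv_cancel_right] at h
  exact shift_ne hne (h.unique hs hv)

/-- Elements commuting with the scalar lift to the centraliser of `x₀`. -/
theorem exists_lift {γ : ↥(Subgroup.centralizer ({z} : Set G)) ⧸ Q} (hγ : γ ∈ C.linPart) :
    ∃ c, c * x₀ C = x₀ C * c ∧ QuotientGroup.mk c = γ := by
  classical
  obtain ⟨c, rfl⟩ := QuotientGroup.mk_surjective γ
  have hcomm : (QuotientGroup.mk c : ↥(Subgroup.centralizer ({z} : Set G)) ⧸ Q) *
      QuotientGroup.mk (x₀ C) = QuotientGroup.mk (x₀ C) * QuotientGroup.mk c := by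
    refine C.act_injective (Equiv.ext fun v => ?_)
    rw [C.act_mul_apply, C.act_mul_apply, act_x₀, act_x₀]
    exact C.mem_linPart.1 hγ v
  haveI : Fact (Nat.Prime 3) := ⟨Nat.prime_three⟩
  let T := {a : ↥(Subgroup.centralizer ({z} : Set G)) //
    (QuotientGroup.mk a : ↥(Subgroup.centralizer ({z} : Set G)) ⧸ Q) = QuotientGroup.mk c}
  let Kx := Subgroup.zpowers (x₀ C)
  have hmem : ∀ (k : Kx) (a : T),
      (QuotientGroup.mk ((k : ↥(Subgroup.centralizer ({z} : Set G))) * a.1 *
        (k : ↥(Subgroup.centralizer ({z} : Set G)))⁻¹) : ↥(Subgroup.centralizer ({z} : Set G)) ⧸ Q) =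
          QuotientGroup.mk c := by
    rintro ⟨_, n, rfl⟩ ⟨a, ha⟩
    have hc' : Commute (QuotientGroup.mk c : ↥(Subgroup.centralizer ({z} : Set G)) ⧸ Q)
        (QuotientGroup.mk (x₀ C)) := hcomm
    rw [QuotientGroup.mk_mul, QuotientGroup.mk_mul, QuotientGroup.mk_inv, ha, QuotientGroup.mk_zpow,
      ← (hc'.zpow_right n).eq, mul_inv_cancel_right]
  letI : MulAction Kx T :=
    { smul := fun k a => ⟨_, hmem k a⟩
      one_smul := fun a => Subtype.ext (by
        show (1 : ↥(Subgroup.centralizer ({z} : Set G))) * a.1 * 1⁻¹ = a.1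
        simp)
      mul_smul := fun k l a => Subtype.ext (by
        show ((k * l : Kx) : ↥(Subgroup.centralizer ({z} : Set G))) * a.1 *
          ((k * l : Kx) : ↥(Subgroup.centralizer ({z} : Set G)))⁻¹ = _ * (_ * a.1 * _) * _
        simp [mul_assoc]) }
  have hp : IsPGroup 3 Kx := fun k => ⟨1, by
    obtain ⟨_, n, rfl⟩ := k
    refine Subtype.ext ?_
    show ((x₀ C) ^ n) ^ (3 ^ 1) = 1
    rw [pow_one, ← zpow_natCast, ← zpow_mul, mul_comm, zpow_mul, zpow_natCast, x₀_cube hs C,
      one_zpow]⟩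
  have hT : Nat.card T = 2 ^ 13 := by
    rw [← hs.2.2.2.1]
    refine Nat.card_congr
      { toFun := fun a => ⟨c⁻¹ * a.1, (QuotientGroup.eq).1 a.2.symm⟩
        invFun := fun q => ⟨c * q.1, by
          rw [QuotientGroup.mk_mul, (QuotientGroup.eq_one_iff q.1).2 q.2, mul_one]⟩
        left_inv := fun a => Subtype.ext (mul_inv_cancel_left c a.1)
        right_inv := fun q => Subtype.ext (inv_mul_cancel_left c q.1) }
  haveI : Finite T := Subtype.finite
  obtain ⟨a, ha⟩ := hp.nonempty_fixed_point_of_prime_not_dvd_card T (by rw [hT]; norm_num)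
  have h := congrArg Subtype.val (ha ⟨x₀ C, Subgroup.mem_zpowers _⟩)
  exact ⟨a.1, (mul_inv_eq_iff_eq_mul.1 h).symm, a.2⟩

theorem zH_mem_radLift : zH z ∈ radLift C :=
  ⟨(zH_comm _).symm, 0, by rw [(QuotientGroup.eq_one_iff _).2 (zH_mem hs), map_one, rP_zero]⟩

theorem exists_radLift (hc : C.ClassData 0) (p : Fin 16) :
    ∃ c ∈ radLift C, C.act (QuotientGroup.mk c) = rP p := by
  obtain ⟨γ, hγ, hp⟩ := exists_rad C hs hc p
  obtain ⟨c, hcx, hcγ⟩ := exists_lift hs C hγ
  exact ⟨c, ⟨hcx, p, by rw [hcγ, hp]⟩, by rw [hcγ, hp]⟩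

theorem radLift_inter {c : ↥(Subgroup.centralizer ({z} : Set G))} (hc : c ∈ radLift C)
    (hq : c ∈ Q) : c = 1 ∨ c = zH z := fix_Q hs C hq hc.1

theorem card_radLift (hc : C.ClassData 0) : Nat.card (radLift C) = 32 := by
  classical
  choose c hcm hcp using exists_radLift hs C hc
  let f : Fin 16 × Bool → radLift C := fun a =>
    if a.2 then ⟨c a.1 * zH z, mul_mem (hcm a.1) (zH_mem_radLift hs C)⟩ else ⟨c a.1, hcm a.1⟩
  have hmk : ∀ a : Fin 16 × Bool, C.act (QuotientGroup.mk (f a).1) = rP a.1 := by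
    rintro ⟨p, _ | _⟩
    · exact hcp p
    · show C.act (QuotientGroup.mk (c p * zH z)) = rP p
      rw [QuotientGroup.mk_mul, (QuotientGroup.eq_one_iff _).2 (zH_mem hs), mul_one, hcp]
  have hinj : Function.Injective f := by
    rintro ⟨p, a⟩ ⟨q, b⟩ h
    obtain rfl : p = q := rP_injective (by rw [← hmk (p, a), ← hmk (q, b), h])
    cases a <;> cases b <;> first
      | rfl
      | exact absurd (congrArg Subtype.val h) (by simpa [f] using zH_ne_one hs)
  have hsurj : Function.Surjective f := by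
    rintro ⟨a, ha⟩
    obtain ⟨-, p, hp⟩ := id ha
    have hq : (c p)⁻¹ * a ∈ Q := by
      rw [← QuotientGroup.eq]
      exact C.act_injective (by rw [hcp, hp])
    rcases radLift_inter hs C (mul_mem (inv_mem (hcm p)) ha) hq with e | e
    · exact ⟨(p, false), Subtype.ext (inv_mul_eq_one.1 e)⟩
    · exact ⟨(p, true), Subtype.ext ((inv_mul_eq_iff_eq_mul.1 e).symm)⟩
  rw [← Nat.card_eq_of_bijective f ⟨hinj, hsurj⟩]
  simp

end CfsgLib.LargeFischer.Base
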