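import Cfsg.Agent.Lib.LargeFischer.Coords
import Cfsg.Agent.Lib.LargeFischer.Base.Data

/-!
Large Fischer type: the binary encoding of coordinate vectors.
-/

set_option autoImplicit false

namespace CfsgLib.LargeFischer.Base

open Orbits

/-- The digit of coordinate `i`. -/
def dig (n i : Nat) : Nat := (n >>> (2 * i)) % 4

/-- A digit as a coordinate. -/
def toCoord : Nat → Option (ZMod 3)
  | 1 => some 0
  | 2 => some 1
  | 3 => some 2
  | _ => none

/-- A coordinate as a digit. -/
def ofCoord : Option (ZMod 3) → Nat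
  | none => 0
  | some e => e.val + 1

/-- The vector encoded by `n`. -/
def dec (n : Nat) : Pt := fun i => toCoord (dig n i.val)

/-- The code of a vector. -/
def enc (v : Pt) : Nat :=
  ofCoord (v 0) + 4 * ofCoord (v 1) + 16 * ofCoord (v 2) + 64 * ofCoord (v 3) +
    256 * ofCoord (v 4) + 1024 * ofCoord (v 5)

theorem ofCoord_lt : ∀ o, ofCoord o < 4 := by decide

theorem toCoord_ofCoord : ∀ o, toCoord (ofCoord o) = o := by decide

theorem ofCoord_toCoord : ∀ a < 4, ofCoord (toCoord a) = a := by decide

theorem enc_lt (v : Pt) : enc v < 4096 := by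
  unfold enc
  have := ofCoord_lt (v 0); have := ofCoord_lt (v 1); have := ofCoord_lt (v 2)
  have := ofCoord_lt (v 3); have := ofCoord_lt (v 4); have := ofCoord_lt (v 5)
  omega

theorem dec_enc (v : Pt) : dec (enc v) = v := by
  funext i
  have := ofCoord_lt (v 0); have := ofCoord_lt (v 1); have := ofCoord_lt (v 2)
  have := ofCoord_lt (v 3); have := ofCoord_lt (v 4); have := ofCoord_lt (v 5)
  have key : dig (enc v) i.val = ofCoord (v i) := by
    unfold dig enc
    rw [Nat.shiftRight_eq_div_pow]
    fin_cases i <;> simp <;> omega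
  show toCoord (dig (enc v) i.val) = v i
  rw [key, toCoord_ofCoord]

theorem enc_dec : ∀ n < 4096, enc (dec n) = n := by
  intro n hn
  have h : ∀ i, ofCoord (toCoord (dig n i)) = dig n i := fun i =>
    ofCoord_toCoord _ (Nat.mod_lt _ (by norm_num))
  show ofCoord (toCoord (dig n 0)) + 4 * ofCoord (toCoord (dig n 1)) +
    16 * ofCoord (toCoord (dig n 2)) + 64 * ofCoord (toCoord (dig n 3)) +
    256 * ofCoord (toCoord (dig n 4)) + 1024 * ofCoord (toCoord (dig n 5)) = n
  simp only [h]
  simp only [dig, Nat.shiftRight_eq_div_pow]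
  norm_num
  omega

theorem dig_xor (a b i : Nat) : dig (a ^^^ b) i = dig a i ^^^ dig b i := by
  unfold dig
  rw [Nat.shiftRight_xor_distrib, show (4 : Nat) = 2 ^ 2 from rfl, Nat.xor_mod_two_pow]

theorem dec_xor (a b : Nat) : dec (a ^^^ b) = addPt (dec a) (dec b) := by
  funext i
  have h : ∀ x < 4, ∀ y < 4, toCoord (x ^^^ y) = addCoord (toCoord x) (toCoord y) := by decide
  show toCoord (dig (a ^^^ b) i.val) = addCoord (toCoord (dig a i.val)) (toCoord (dig b i.val))
  rw [dig_xor]
  exact h _ (Nat.mod_lt _ (by norm_num)) _ (Nat.mod_lt _ (by norm_num))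

theorem enc_addPt (v w : Pt) : enc (addPt v w) = enc v ^^^ enc w := by
  conv_lhs => rw [← dec_enc v, ← dec_enc w, ← dec_xor]
  exact enc_dec _ (Nat.xor_lt_two_pow (n := 12) (enc_lt v) (enc_lt w))

theorem enc_injective : Function.Injective enc := fun v w h => by
  rw [← dec_enc v, h, dec_enc]

theorem enc_zeroPt : enc zeroPt = 0 := rfl

/-- Multiplication by the primitive cube root. -/
def scalN (n : Nat) : Nat :=
  let m := fun i => match dig n i with
    | 1 => 2
    | 2 => 3
    | 3 => 1
    | _ => 0
  m 0 + 4 * m 1 + 16 * m 2 + 64 * m 3 + 256 * m 4 + 1024 * m 5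

theorem enc_shift (v : Pt) : enc (shift (fun _ => 1) v) = scalN (enc v) := by
  have h : ∀ o : Option (ZMod 3), ofCoord (o.map (· + 1)) = (match ofCoord o with
    | 1 => 2
    | 2 => 3
    | 3 => 1
    | _ => 0) := by decide
  have hd : ∀ i : Fin 6, dig (enc v) i.val = ofCoord (v i) := fun i => by
    conv_rhs => rw [← dec_enc v]
    exact (ofCoord_toCoord _ (Nat.mod_lt _ (by norm_num))).symm
  show ofCoord ((v 0).map _) + 4 * ofCoord ((v 1).map _) + 16 * ofCoord ((v 2).map _) +
    64 * ofCoord ((v 3).map _) + 256 * ofCoord ((v 4).map _) + 1024 * ofCoord ((v 5).map _) = _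
  simp only [h]
  conv_rhs => unfold scalN
  simp only []
  rw [show dig (enc v) 0 = ofCoord (v 0) from hd 0, show dig (enc v) 1 = ofCoord (v 1) from hd 1,
    show dig (enc v) 2 = ofCoord (v 2) from hd 2, show dig (enc v) 3 = ofCoord (v 3) from hd 3,
    show dig (enc v) 4 = ofCoord (v 4) from hd 4, show dig (enc v) 5 = ofCoord (v 5) from hd 5]

/-- The weight. -/
def wtN (n : Nat) : Nat :=
  (List.range 6).countP fun i => dig n i != 0

/-- The exponent sum. -/
def totN (n : Nat) : Nat :=
  ((List.range 6).map fun i => dig n i - 1).sum % 3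

/-- Evenness of the weight. -/
def qN (n : Nat) : Bool := wtN n % 2 == 0

/-- The shorter class, with exponent sum zero in weight six. -/
def shortN (n : Nat) : Bool := wtN n == 2 || (wtN n == 6 && totN n == 0)

/-- The longer class. -/
def longN (n : Nat) : Bool := wtN n == 4 || (wtN n == 6 && totN n != 0)

theorem check_wt : (List.range 4096).all (fun n =>
    decide (wt (dec n) = wtN n) && decide ((total (dec n)).val = totN n || wtN n ≠ 6)) = true := by
  decide +kernel

theorem wt_eq (v : Pt) : wt v = wtN (enc v) := by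
  have h := List.all_eq_true.1 check_wt (enc v) (List.mem_range.2 (enc_lt v))
  simp only [Bool.and_eq_true, decide_eq_true_eq] at h
  rw [dec_enc] at h
  exact h.1

theorem total_eq (v : Pt) (h6 : wt v = 6) : (total v).val = totN (enc v) := by
  have h := List.all_eq_true.1 check_wt (enc v) (List.mem_range.2 (enc_lt v))
  simp only [Bool.and_eq_true, decide_eq_true_eq, Bool.or_eq_true] at h
  rw [dec_enc] at h
  rw [wt_eq] at h6
  exact h.2.resolve_right (not_not.2 h6)

/-- Application of a linear map given by the images of the twelve unit bits. -/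
def appN : List Nat → Nat → Nat
  | [], _ => 0
  | a :: l, n => (if n % 2 = 1 then a else 0) ^^^ appN l (n / 2)

theorem appN_xor : ∀ (l : List Nat) (a b : Nat), appN l (a ^^^ b) = appN l a ^^^ appN l b
  | [], _, _ => by simp [appN]
  | x :: l, a, b => by
    have h2 : (a ^^^ b) / 2 = a / 2 ^^^ b / 2 := by
      rw [← Nat.shiftRight_one, ← Nat.shiftRight_one, ← Nat.shiftRight_one,
        Nat.shiftRight_xor_distrib]
    have h1 : (a ^^^ b) % 2 = a % 2 ^^^ b % 2 := by
      simpa using (Nat.xor_mod_two_pow (a := a) (b := b) (n := 1))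
    simp only [appN, h2, appN_xor l (a / 2) (b / 2), h1]
    rcases Nat.mod_two_eq_zero_or_one a with ha | ha <;>
      rcases Nat.mod_two_eq_zero_or_one b with hb | hb <;>
      simp [ha, hb, Nat.xor_assoc, Nat.xor_comm, Nat.xor_left_comm]

theorem appN_lt : ∀ (l : List Nat) (n : Nat), (∀ a ∈ l, a < 4096) → appN l n < 4096
  | [], _, _ => by simp [appN]
  | x :: l, n, h => by
    simp only [appN]
    refine Nat.xor_lt_two_pow (n := 12) ?_ (appN_lt l _ fun a ha => h a (List.mem_cons_of_mem _ ha))
    split_ifs
    · exact h x List.mem_cons_self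
    · norm_num

/-- A monomial map: coordinate `i` moves to `p i` and is shifted by `a i`. -/
def monN (p a : List Nat) (n : Nat) : Nat :=
  ((List.range 6).map fun i =>
    (if dig n i = 0 then 0 else 1 + (dig n i - 1 + a.getD i 0) % 3) <<< (2 * p.getD i 0)).sum

end CfsgLib.LargeFischer.Base
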