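import Cfsg.Agent.Lib.LargeFischer.Base.Normal
import Cfsg.Agent.Lib.LargeFischer.Base.Enc

/-!
Large Fischer type: the semilinear-free isometries preserving the shorter class form a group in
which the image of the linear elements of `H/Q` has index at most two.
-/

set_option autoImplicit false
set_option linter.unusedSectionVars false
set_option linter.style.haveILetI false

namespace CfsgLib.LargeFischer.Base

open Orbits

/-- Scalar-commuting additive permutations preserving the parity of the weight and the shorter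
class. -/
def isoGroup : Subgroup (Equiv.Perm Pt) where
  carrier := {g | (∀ u w, g (addPt u w) = addPt (g u) (g w)) ∧
    (∀ v, g (shift (fun _ => 1) v) = shift (fun _ => 1) (g v)) ∧
    (∀ v, InTwo 0 (g v) ↔ InTwo 0 v) ∧ ∀ v, Even (wt (g v)) ↔ Even (wt v)}
  one_mem' := ⟨fun _ _ => rfl, fun _ => rfl, fun _ => Iff.rfl, fun _ => Iff.rfl⟩
  mul_mem' := by
    rintro a b ⟨a1, a2, a3, a4⟩ ⟨b1, b2, b3, b4⟩
    refine ⟨fun u w => ?_, fun v => ?_, fun v => ?_, fun v => ?_⟩
    · simp only [Equiv.Perm.mul_apply]; rw [b1, a1]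
    · simp only [Equiv.Perm.mul_apply]; rw [b2, a2]
    · simp only [Equiv.Perm.mul_apply]; rw [a3, b3]
    · simp only [Equiv.Perm.mul_apply]; rw [a4, b4]
  inv_mem' := by
    rintro a ⟨a1, a2, a3, a4⟩
    refine ⟨fun u w => a.injective ?_, fun v => a.injective ?_, fun v => ?_, fun v => ?_⟩
    · simp [a1]
    · simp [a2]
    · conv_rhs => rw [show v = a (a⁻¹ v) by simp]
      rw [a3]
    · conv_rhs => rw [show v = a (a⁻¹ v) by simp]
      rw [a4]

theorem dec_zero : dec 0 = zeroPt := by decide

/-- The shorter class on codes. -/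
theorem inTwo_iff (v : Pt) : InTwo 0 v ↔ shortN (enc v) = true := by
  simp only [InTwo, shortN, Bool.or_eq_true, Bool.and_eq_true, beq_iff_eq, ← wt_eq]
  refine or_congr Iff.rfl (and_congr_right fun h6 => ?_)
  rw [← total_eq v h6, ZMod.val_eq_zero]

theorem inFour_iff (v : Pt) : InFour 0 v ↔ longN (enc v) = true := by
  simp only [InFour, longN, Bool.or_eq_true, Bool.and_eq_true, beq_iff_eq, ← wt_eq, bne_iff_ne]
  refine or_congr Iff.rfl (and_congr_right fun h6 => ?_)
  rw [← total_eq v h6, ne_eq, ne_eq, ZMod.val_eq_zero]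

theorem even_iff (v : Pt) : Even (wt v) ↔ qN (enc v) = true := by
  rw [qN, beq_iff_eq, ← wt_eq, Nat.even_iff]

/-- The parities of the weights of the sums with fixed vectors. -/
def sig (F : List Nat) (u : Nat) : List Bool :=
  F.flatMap fun b => [qN (u ^^^ b), qN (u ^^^ scalN b)]

/-- The span over the field with four elements. -/
def spanN : List Nat → List Nat
  | [] => [0]
  | b :: F => (spanN F).flatMap fun x => [x, x ^^^ b, x ^^^ scalN b, x ^^^ scalN (scalN b)]

/-- The possible images of `b` under a map fixing `F`. -/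
def cand (F : List Nat) (b : Nat) : List Nat :=
  ((List.range 4096).filter fun u => shortN u && decide (sig F u = sig F b)).filter
    fun u => !((spanN F).contains u)

theorem cand_counts :
    (cand [] 5).length = 378 ∧ (cand [5] 772).length = 80 ∧
    (cand [772, 5] 3582).length = 27 ∧ (cand [3582, 772, 5] 3831).length = 4 ∧
    (cand [3831, 3582, 772, 5] 3702).length = 3 ∧
    (cand [3702, 3831, 3582, 772, 5] 52).length = 2 := by decide +kernel

theorem cand_self :
    ([([], 5), ([5], 772), ([772, 5], 3582), ([3582, 772, 5], 3831),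
      ([3831, 3582, 772, 5], 3702), ([3702, 3831, 3582, 772, 5], 52)] :
      List (List Nat × Nat)).all (fun p => shortN p.2 && !((spanN p.1).contains p.2)) = true := by
  decide +kernel

theorem span_full :
    ([1, 2, 4, 8, 16, 32, 64, 128, 256, 512, 1024, 2048] : List Nat).all
      (fun n => (spanN [52, 3702, 3831, 3582, 772, 5]).contains n) = true := by decide +kernel

/-- The pointwise stabiliser of the listed vectors. -/
def fixer (F : List Nat) : Subgroup (Equiv.Perm Pt) where
  carrier := {g | g ∈ isoGroup ∧ ∀ b ∈ F, g (dec b) = dec b}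
  one_mem' := ⟨one_mem _, fun _ _ => rfl⟩
  mul_mem' := by
    rintro a b ⟨a1, a2⟩ ⟨b1, b2⟩
    exact ⟨mul_mem a1 b1, fun c hc => by rw [Equiv.Perm.mul_apply, b2 c hc, a2 c hc]⟩
  inv_mem' := by
    rintro a ⟨a1, a2⟩
    exact ⟨inv_mem a1, fun c hc => by rw [Equiv.Perm.inv_eq_iff_eq, a2 c hc]⟩

theorem fix_span {F : List Nat} {g : Equiv.Perm Pt} (hg : g ∈ fixer F) :
    ∀ u ∈ spanN F, g (dec u) = dec u := by
  induction F with
  | nil =>
    intro u hu
    simp only [spanN, List.mem_singleton] at hu
    subst hu
    have h := hg.1.1 (dec 0) (dec 0)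
    rw [addPt_self, addPt_self, ← dec_zero] at h
    exact h
  | cons b F ih =>
    have hg' : g ∈ fixer F := ⟨hg.1, fun c hc => hg.2 c (List.mem_cons_of_mem _ hc)⟩
    have hb := hg.2 b List.mem_cons_self
    have hs : ∀ c, c < 4096 → g (dec c) = dec c → g (dec (scalN c)) = dec (scalN c) ∧
        scalN c < 4096 := by
      intro c hc h
      have e : dec (scalN c) = shift (fun _ => 1) (dec c) := by
        conv_lhs => rw [← enc_dec c hc, ← enc_shift, dec_enc]
      refine ⟨by rw [e, hg.1.2.1, h], ?_⟩
      rw [← enc_dec c hc, ← enc_shift]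
      exact enc_lt _
    intro u hu
    simp only [spanN, List.mem_flatMap, List.mem_cons, List.not_mem_nil, or_false] at hu
    obtain ⟨x, hx, hu⟩ := hu
    have hx' := ih hg' x hx
    have hb' : g (dec (b % 4096)) = dec (b % 4096) ∧ dec b = dec (b % 4096) ∧
        scalN b = scalN (b % 4096) := by
      have hd : ∀ i < 6, dig b i = dig (b % 4096) i := by
        intro i hi
        unfold dig
        rw [Nat.shiftRight_eq_div_pow, Nat.shiftRight_eq_div_pow]
        interval_cases i <;> norm_num <;> omega
      have e1 : dec b = dec (b % 4096) := by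
        funext i
        show toCoord (dig b i.val) = _
        rw [hd i.val i.isLt]
        rfl
      refine ⟨by rw [← e1]; exact hb, e1, ?_⟩
      unfold scalN
      simp only []
      rw [hd 0 (by norm_num), hd 1 (by norm_num), hd 2 (by norm_num), hd 3 (by norm_num),
        hd 4 (by norm_num), hd 5 (by norm_num)]
    obtain ⟨s1, l1⟩ := hs _ (Nat.mod_lt b (by norm_num)) hb'.1
    rw [← hb'.2.2] at s1 l1
    obtain ⟨s2, -⟩ := hs _ l1 s1
    rcases hu with rfl | rfl | rfl | rfl
    · exact hx'
    · rw [dec_xor, hg.1.1, hx', hb]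
    · rw [dec_xor, hg.1.1, hx', s1]
    · rw [dec_xor, hg.1.1, hx', s2]

/-- One step of the chain. -/
theorem card_fixer_le (F : List Nat) (b : Nat) (hF : ∀ c ∈ F, c < 4096) (hb : b < 4096)
    (hs : shortN b = true) (hn : b ∉ spanN F) :
    Nat.card (fixer F) ≤ (cand F b).length * Nat.card (fixer (b :: F)) := by
  classical
  have h := Nat.card_congr (MulAction.orbitProdStabilizerEquivGroup (fixer F) (dec b))
  rw [Nat.card_prod] at h
  rw [← h]
  refine Nat.mul_le_mul ?_ (le_of_eq ?_)
  · refine le_trans ?_ (List.toFinset_card_le (cand F b))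
    rw [← Nat.card_eq_finsetCard]
    refine Nat.card_le_card_of_injective (fun w => ⟨enc w.1, ?_⟩)
      (fun u w huw => Subtype.ext (enc_injective (congrArg Subtype.val huw :)))
    obtain ⟨w, g, rfl⟩ := w
    have hg : (g : Equiv.Perm Pt) ∈ fixer F := g.2
    rw [List.mem_toFinset]
    simp only [cand, List.mem_filter, List.mem_range, Bool.and_eq_true, decide_eq_true_eq,
      Bool.not_eq_true', List.contains_eq_mem, decide_eq_false_iff_not]
    refine ⟨⟨enc_lt _, ?_, ?_⟩, ?_⟩
    · show shortN (enc ((g : Equiv.Perm Pt) (dec b))) = true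
      rw [← inTwo_iff, hg.1.2.2.1, inTwo_iff, enc_dec b hb, hs]
    · show sig F (enc ((g : Equiv.Perm Pt) (dec b))) = sig F b
      have key : ∀ c, c < 4096 → (g : Equiv.Perm Pt) (dec c) = dec c →
          qN (enc ((g : Equiv.Perm Pt) (dec b)) ^^^ c) = qN (b ^^^ c) := by
        intro c hc hfix
        have e : (g : Equiv.Perm Pt) (addPt (dec b) (dec c)) =
            addPt ((g : Equiv.Perm Pt) (dec b)) (dec c) := by rw [hg.1.1, hfix]
        rw [Bool.eq_iff_iff, show enc ((g : Equiv.Perm Pt) (dec b)) ^^^ c =
            enc (addPt ((g : Equiv.Perm Pt) (dec b)) (dec c)) by rw [enc_addPt, enc_dec c hc],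
          show b ^^^ c = enc (addPt (dec b) (dec c)) by rw [enc_addPt, enc_dec b hb, enc_dec c hc],
          ← even_iff, ← even_iff, ← e, hg.1.2.2.2]
      unfold sig
      simp only [List.flatMap]
      congr 1
      refine List.map_congr_left fun c hc => ?_
      have hc' := hF c hc
      have es : scalN c = enc (shift (fun _ => 1) (dec c)) := by rw [enc_shift, enc_dec c hc']
      have hfix : (g : Equiv.Perm Pt) (dec (scalN c)) = dec (scalN c) := by
        rw [es, dec_enc, hg.1.2.1, hg.2 c hc]
      rw [key c hc' (hg.2 c hc), key (scalN c) (es ▸ enc_lt _) hfix]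
    · intro hmem
      refine hn ?_
      have h1 : (g : Equiv.Perm Pt) ((g : Equiv.Perm Pt) (dec b)) = (g : Equiv.Perm Pt) (dec b) := by
        have := fix_span hg _ hmem
        rwa [dec_enc] at this
      have h2 := (g : Equiv.Perm Pt).injective h1
      rw [show (g • dec b : Pt) = (g : Equiv.Perm Pt) (dec b) from rfl, h2, enc_dec b hb] at hmem
      exact hmem
  · have e : MulAction.stabilizer (fixer F) (dec b) = (fixer (b :: F)).subgroupOf (fixer F) := by
      ext g
      rw [MulAction.mem_stabilizer_iff, Subgroup.mem_subgroupOf]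
      constructor
      · intro hgb
        refine ⟨g.2.1, fun c hc => ?_⟩
        rcases List.mem_cons.1 hc with rfl | hc
        · exact hgb
        · exact g.2.2 c hc
      · intro hgb
        exact hgb.2 b List.mem_cons_self
    rw [e]
    exact Nat.card_congr (Subgroup.subgroupOfEquivOfLe
      (show fixer (b :: F) ≤ fixer F from fun g hg =>
        (⟨hg.1, fun c hc => hg.2 c (List.mem_cons_of_mem _ hc)⟩ :
          g ∈ isoGroup ∧ ∀ c ∈ F, g (dec c) = dec c))).toEquiv

theorem card_isoGroup_le : Nat.card isoGroup ≤ 19595520 := by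
  have hS := List.all_eq_true.1 cand_self
  simp only [Bool.and_eq_true, Bool.not_eq_true', List.contains_eq_mem,
    decide_eq_false_iff_not] at hS
  obtain ⟨n1, n2, n3, n4, n5, n6⟩ := cand_counts
  have h1 := card_fixer_le [] 5 (by simp) (by norm_num) (hS ([], 5) (by simp)).1 (hS ([], 5) (by simp)).2
  have h2 := card_fixer_le [5] 772 (by simp) (by norm_num) (hS ([5], 772) (by simp)).1
    (hS ([5], 772) (by simp)).2
  have h3 := card_fixer_le [772, 5] 3582 (by simp) (by norm_num) (hS ([772, 5], 3582) (by simp)).1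
    (hS ([772, 5], 3582) (by simp)).2
  have h4 := card_fixer_le [3582, 772, 5] 3831 (by simp) (by norm_num)
    (hS ([3582, 772, 5], 3831) (by simp)).1 (hS ([3582, 772, 5], 3831) (by simp)).2
  have h5 := card_fixer_le [3831, 3582, 772, 5] 3702 (by simp) (by norm_num)
    (hS ([3831, 3582, 772, 5], 3702) (by simp)).1 (hS ([3831, 3582, 772, 5], 3702) (by simp)).2
  have h6 := card_fixer_le [3702, 3831, 3582, 772, 5] 52 (by simp) (by norm_num)
    (hS ([3702, 3831, 3582, 772, 5], 52) (by simp)).1
    (hS ([3702, 3831, 3582, 772, 5], 52) (by simp)).2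
  rw [n1] at h1; rw [n2] at h2; rw [n3] at h3; rw [n4] at h4; rw [n5] at h5; rw [n6] at h6
  have h7 : Nat.card (fixer [52, 3702, 3831, 3582, 772, 5]) = 1 := by
    rw [Subgroup.card_eq_one, eq_bot_iff]
    intro g hg
    rw [Subgroup.mem_bot]
    have hbit : ∀ n, n ∈ ([1, 2, 4, 8, 16, 32, 64, 128, 256, 512, 1024, 2048] : List Nat) →
        g (dec n) = dec n := fun n hn =>
      fix_span hg n (by simpa using List.all_eq_true.1 span_full n hn)
    have hall : ∀ k, k ≤ 12 → ∀ n, n < 2 ^ k → g (dec n) = dec n := by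
      intro k
      induction k with
      | zero =>
        intro _ n hn
        obtain rfl : n = 0 := by omega
        have h := hg.1.1 (dec 0) (dec 0)
        rw [addPt_self, addPt_self, ← dec_zero] at h
        exact h
      | succ k ih =>
        intro hk n hn
        by_cases hlt : n < 2 ^ k
        · exact ih (by omega) n hlt
        · obtain ⟨m, hm, rfl⟩ : ∃ m, m < 2 ^ k ∧ n = 2 ^ k ^^^ m := by
            refine ⟨n - 2 ^ k, by rw [pow_succ] at hn; omega, ?_⟩
            rw [pow_succ] at hn
            have h' : n - 2 ^ k < 2 ^ k := by omega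
            have h2 : 2 ^ k + (n - 2 ^ k) = 2 ^ k ||| (n - 2 ^ k) := by
              have := Nat.two_pow_add_eq_or_of_lt h' 1
              simpa using this
            apply Nat.eq_of_testBit_eq
            intro i
            rw [Nat.testBit_xor]
            conv_lhs => rw [show n = 2 ^ k + (n - 2 ^ k) by omega, h2, Nat.testBit_or]
            by_cases hik : i = k
            · subst hik
              rw [Nat.testBit_lt_two_pow h']
              simp
            · rw [Nat.testBit_two_pow_of_ne (Ne.symm hik)]
              simp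
          rw [dec_xor, hg.1.1, ih (by omega) m hm, hbit (2 ^ k) (by
            have : k < 12 := by omega
            interval_cases k <;> simp)]
    refine Equiv.ext fun v => ?_
    rw [← dec_enc v]
    exact hall 12 le_rfl _ (enc_lt v)
  have h0 : isoGroup = fixer [] := SetLike.ext fun g =>
    ⟨fun h => (⟨h, fun c hc => absurd hc List.not_mem_nil⟩ :
      g ∈ isoGroup ∧ ∀ b ∈ ([] : List Nat), g (dec b) = dec b), fun h => h.1⟩
  rw [h0]
  rw [h7] at h6
  omega

variable {G : Type*} [Group G] [Finite G] {z : G}
  {Q : Subgroup ↥(Subgroup.centralizer ({z} : Set G))} [Q.Normal]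
  (hs : Cfsg.IsExtraspecialCentralizerSetting z Q 6) (C : Coords z Q)
include hs

theorem act_addPt (γ : ↥(Subgroup.centralizer ({z} : Set G)) ⧸ Q) (u w : Pt) :
    C.act γ (addPt u w) = addPt (C.act γ u) (C.act γ w) := by
  obtain ⟨a, rfl⟩ := QuotientGroup.mk_surjective γ
  have hu : C.Rep u (C.lift u) := Or.inl rfl
  have hw : C.Rep w (C.lift w) := Or.inl rfl
  have h1 := (Coords.Rep.mul hs C hu hw).conj hs a
  have h2 := Coords.Rep.mul hs C (hu.conj hs a) (hw.conj hs a)
  rw [show a * (C.lift u * C.lift w) * a⁻¹ = a * C.lift u * a⁻¹ * (a * C.lift w * a⁻¹) by group] at h1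
  exact h1.unique hs h2

theorem even_act (γ : ↥(Subgroup.centralizer ({z} : Set G)) ⧸ Q) (v : Pt) :
    Even (wt (C.act γ v)) ↔ Even (wt v) := by
  obtain ⟨a, rfl⟩ := QuotientGroup.mk_surjective γ
  have hv : C.Rep v (C.lift v) := Or.inl rfl
  rw [← (hv.conj hs a).sq hs, ← hv.sq hs,
    show a * C.lift v * a⁻¹ * (a * C.lift v * a⁻¹) = a * (C.lift v * C.lift v) * a⁻¹ by group,
    conj_eq_one_iff]

theorem map_linPart_le (hc : C.ClassData 0) : C.linPart.map C.act ≤ isoGroup := by
  rintro _ ⟨γ, hγ, rfl⟩
  refine ⟨act_addPt hs C γ, C.mem_linPart.1 hγ, fun v => ⟨fun h => ?_, hc.two_act γ v⟩,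
    even_act hs C γ⟩
  have h' := hc.two_act γ⁻¹ _ h
  rwa [C.act_inv_apply rfl] at h'

/-- The linear part has index at most two among the isometries. -/
theorem index_linPart_le (hc : C.ClassData 0) :
    ((C.linPart.map C.act).subgroupOf isoGroup).index ≤ 2 := by
  have h := Subgroup.card_mul_index ((C.linPart.map C.act).subgroupOf isoGroup)
  rw [Nat.card_congr (Subgroup.subgroupOfEquivOfLe (map_linPart_le hs C hc)).toEquiv,
    Subgroup.card_map_of_injective C.act_injective] at h
  have hL : Nat.card C.linPart = 9797760 := by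
    have h' := Subgroup.card_mul_index C.linPart
    rw [C.index_linPart hs, C.card_quot] at h'
    omega
  rw [hL] at h
  have hle := card_isoGroup_le
  omega

end CfsgLib.LargeFischer.Base
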