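import Cfsg.Agent.Lib.LargeFischer.Base.Abelian

/-!
Large Fischer type: binary coordinates on the elementary abelian subgroup of order `2 ^ 11` (six
bits for the 3-space, four for the sixteen maps, one for `z`) and the action of `Q` on them.
-/

set_option autoImplicit false
set_option linter.unusedSectionVars false
set_option linter.style.haveILetI false

namespace CfsgLib.LargeFischer.Base

open Orbits CfsgLib.ExtraspecialLarge

/-- The basis of the 3-space over the prime field. -/
def wBasis : List Nat := [5, 10, 80, 160, 1280, 2560]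

/-- The vector of the 3-space with a given code. -/
def wN (n : Nat) : Nat := appN wBasis n

/-- The code of a vector of the 3-space. -/
def cdN (n : Nat) : Nat := appN [1, 2, 0, 0, 4, 8, 0, 0, 16, 32, 0, 0] n

/-- Oddness of the weight. -/
def oddN (n : Nat) : Bool := !qN n

/-- The commutator bit of two vectors. -/
def bN (a b : Nat) : Bool := xor (xor (oddN (a ^^^ b)) (oddN a)) (oddN b)

/-- The index of the map. -/
def layN (n : Nat) : Nat := appN [1, 2, 4, 8] (n / 64)

/-- The bit of `z`. -/
def zbN (n : Nat) : Bool := decide (n / 1024 % 2 = 1)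

/-- The exponent of `z` in the conjugate of `n` by the canonical element over `v`. -/
def epsN (v n : Nat) : Bool :=
  xor (xor (bN v (wN n)) (bN (appN (radImgs.getD (layN n) []) v) (scalN (scalN v)))) (oddN v)

/-- The action of the canonical element over `v`. -/
def trN (v n : Nat) : Nat :=
  n ^^^ cdN (v ^^^ appN (radImgs.getD (layN n) []) v) ^^^ (if epsN v n then 1024 else 0)

theorem wN_spec : ((List.range 2048).all fun n => wList.contains (wN n) && decide (layN n < 16) &&
    decide (n % 64 < 64)) = true := by decide +kernel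

theorem cdN_spec : (wList.all fun m => decide (cdN m < 64) && (wN (cdN m) == m) &&
    (layN (cdN m) == 0) && !zbN (cdN m)) = true := by decide +kernel

theorem wN_inW (n : Nat) : InW (dec (wN n)) := by
  have hlt : wN n < 4096 := appN_lt _ _ (by decide)
  show enc (dec (wN n)) ∈ wList
  rw [enc_dec _ hlt]
  have key : ∀ (l : List Nat) (m : Nat), (∀ a ∈ l, a ∈ wList) → appN l m ∈ wList := by
    intro l
    induction l with
    | nil => intro m _; show (0 : Nat) ∈ wList; decide +kernel
    | cons a l ih =>
      intro m h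
      simp only [appN]
      have hb := ih (m / 2) fun b hb => h b (List.mem_cons_of_mem _ hb)
      split_ifs
      · have h' := List.all_eq_true.1 wList_check _ (h a List.mem_cons_self)
        simp only [Bool.and_eq_true, List.all_eq_true, List.contains_eq_mem, decide_eq_true_eq] at h'
        exact h'.2 _ hb
      · rwa [Nat.zero_xor]
  exact key _ _ (by decide +kernel)

theorem layN_lt (n : Nat) : layN n < 16 := by
  have key : ∀ m : Nat, appN [1, 2, 4, 8] m < 16 := by
    intro m
    simp only [appN]
    split_ifs <;> decide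
  exact key _

theorem bN_scal_check : ((List.range 4096).all fun n => qN (scalN n) == qN n) = true := by
  decide +kernel

theorem bN_scal {a b : Nat} (ha : a < 4096) (hb : b < 4096) : bN (scalN a) (scalN b) = bN a b := by
  have h : ∀ n < 4096, oddN (scalN n) = oddN n := fun n hn => by
    unfold oddN
    rw [beq_iff_eq.1 (List.all_eq_true.1 bN_scal_check n (List.mem_range.2 hn))]
  unfold bN
  rw [h a ha, h b hb, ← scalN_xor, h _ (Nat.xor_lt_two_pow (n := 12) ha hb)]

theorem bN_comm (a b : Nat) : bN a b = bN b a := by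
  unfold bN
  rw [Nat.xor_comm]
  cases oddN (b ^^^ a) <;> cases oddN a <;> cases oddN b <;> rfl

theorem odd_iff (v : Pt) : oddN (enc v) = true ↔ ¬ Even (wt v) := by
  rw [even_iff]; simp [oddN]

variable {G : Type*} [Group G] [Finite G] {z : G}
  {Q : Subgroup ↥(Subgroup.centralizer ({z} : Set G))} [Q.Normal]
  (hs : Cfsg.IsExtraspecialCentralizerSetting z Q 6) (C : Coords z Q)

/-- The power of `z` given by a bit. -/
def pw (z : G) (b : Bool) : ↥(Subgroup.centralizer ({z} : Set G)) := cond b (zH z) 1

theorem pw_comm (b : Bool) (a : ↥(Subgroup.centralizer ({z} : Set G))) :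
    a * pw z b = pw z b * a := by
  cases b
  · simp [pw]
  · exact zH_comm a

theorem pw_conj (b : Bool) (a : ↥(Subgroup.centralizer ({z} : Set G))) :
    a * pw z b * a⁻¹ = pw z b := by rw [pw_comm, mul_inv_cancel_right]

/-- The product of the elements of a list selected by the bits. -/
def prodL : List ↥(Subgroup.centralizer ({z} : Set G)) → Nat → ↥(Subgroup.centralizer ({z} : Set G))
  | [], _ => 1
  | a :: l, n => (if n % 2 = 1 then a else 1) * prodL l (n / 2)

theorem prodL_zero : ∀ l : List ↥(Subgroup.centralizer ({z} : Set G)), prodL l 0 = 1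
  | [] => rfl
  | _ :: l => by simp [prodL, prodL_zero l]

theorem prodL_append : ∀ (l l' : List ↥(Subgroup.centralizer ({z} : Set G))) (n : Nat),
    prodL (l ++ l') n = prodL l n * prodL l' (n / 2 ^ l.length)
  | [], l', n => by simp [prodL]
  | a :: l, l', n => by
    simp only [List.cons_append, prodL, prodL_append l l', List.length_cons, mul_assoc,
      Nat.div_div_eq_div_mul, pow_succ']

theorem prodL_mem {H : Subgroup ↥(Subgroup.centralizer ({z} : Set G))} :
    ∀ (l : List ↥(Subgroup.centralizer ({z} : Set G))) (n : Nat), (∀ a ∈ l, a ∈ H) → prodL l n ∈ H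
  | [], _, _ => H.one_mem
  | a :: l, n, h => by
    simp only [prodL]
    refine H.mul_mem ?_ (prodL_mem l _ fun b hb => h b (List.mem_cons_of_mem _ hb))
    split_ifs
    · exact h a List.mem_cons_self
    · exact H.one_mem

include hs

theorem pw_xor (a b : Bool) : pw z (xor a b) = pw z a * pw z b := by
  cases a <;> cases b <;> simp [pw, zH_sq hs]

theorem pw_sq (a : Bool) : pw z a * pw z a = 1 := by
  rw [← pw_xor hs, Bool.xor_self]; rfl

theorem pw_mem (b : Bool) : pw z b ∈ Q := by
  cases b
  · exact Q.one_mem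
  · exact zH_mem hs

theorem pw_injective : Function.Injective (pw z) := by
  intro a b h
  cases a <;> cases b <;> first
    | rfl
    | exact absurd h (by simp [pw, zH_ne_one hs, (zH_ne_one hs).symm])

theorem rep_sq_pw {v : Pt} {q : ↥(Subgroup.centralizer ({z} : Set G))} (h : C.Rep v q) :
    q * q = pw z (oddN (enc v)) := by
  cases hb : oddN (enc v)
  · refine (h.sq hs).2 ?_
    by_contra hne
    rw [← odd_iff, hb] at hne
    cases hne
  · exact (sq_cases hs (h.mem hs)).resolve_left fun e => (odd_iff v).1 hb ((h.sq hs).1 e)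

theorem rep_inv {v : Pt} {q : ↥(Subgroup.centralizer ({z} : Set G))} (h : C.Rep v q) :
    q⁻¹ = q * pw z (oddN (enc v)) := by
  refine inv_eq_of_mul_eq_one_right ?_
  rw [← mul_assoc, rep_sq_pw hs C h, pw_sq hs]

theorem rep_swap {u w : Pt} {q r : ↥(Subgroup.centralizer ({z} : Set G))} (hq : C.Rep u q)
    (hr : C.Rep w r) : r * q = q * r * pw z (bN (enc u) (enc w)) := by
  have h := rep_sq_pw hs C (Coords.Rep.mul hs C hq hr)
  rw [enc_addPt] at h
  unfold bN
  set s := oddN (enc u ^^^ enc w)
  set a := oddN (enc u)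
  set b := oddN (enc w)
  calc r * q = q⁻¹ * (q * r * (q * r)) * r⁻¹ := by group
    _ = q * pw z a * pw z s * (r * pw z b) := by rw [h, rep_inv hs C hq, rep_inv hs C hr]
    _ = q * r * (pw z a * pw z s * pw z b) := by
      rw [mul_assoc q, mul_assoc q, ← mul_assoc (pw z a * pw z s), ← pw_xor hs, ← pw_comm,
        mul_assoc r, ← mul_assoc q]
    _ = _ := by
      rw [← pw_xor hs, ← pw_xor hs]
      congr 2
      cases a <;> cases b <;> cases s <;> rfl

theorem nX_mul_pw (q : ↥(Subgroup.centralizer ({z} : Set G))) (b : Bool) :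
    nX C (q * pw z b) = nX C q * pw z b := by
  cases b
  · simp [pw]
  · exact nX_mul_z hs C q

/-- The product of two canonical representatives. -/
theorem canon_mul_bit (u w : Pt) :
    canon C u * canon C w =
      canon C (addPt u w) * pw z (bN (enc w) (scalN (scalN (enc u)))) := by
  obtain ⟨h1, h1'⟩ := canon_spec hs C u
  obtain ⟨h2, h2'⟩ := canon_spec hs C w
  set q := canon C u
  set r := canon C w
  set q1 := x₀ C * q * (x₀ C)⁻¹ with hq1
  set r1 := x₀ C * r * (x₀ C)⁻¹ with hr1
  set q2 := x₀ C * q1 * (x₀ C)⁻¹ with hq2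
  set r2 := x₀ C * r1 * (x₀ C)⁻¹ with hr2
  have hq1' := rep_x₀ hs C h1
  rw [← hq1] at hq1'
  have hq2' := rep_x₀ hs C hq1'
  rw [← hq2] at hq2'
  have hr1' := rep_x₀ hs C h2
  rw [← hr1] at hr1'
  have e1 := rep_swap hs C hq1' h2
  have e2 := rep_swap hs C hq2' h2
  have e3 := rep_swap hs C hq2' hr1'
  simp only [enc_shift] at e1 e2 e3
  rw [bN_scal (scalN_lt (enc_lt u)) (enc_lt w)] at e3
  set b1 := bN (scalN (enc u)) (enc w)
  set b2 := bN (scalN (scalN (enc u))) (enc w)
  have hb : bN (enc w) (scalN (scalN (enc u))) = b2 := bN_comm _ _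
  have hx1 : x₀ C * (q * r) * (x₀ C)⁻¹ = q1 * r1 := by rw [hq1, hr1]; group
  have hx2 : x₀ C * (q1 * r1) * (x₀ C)⁻¹ = q2 * r2 := by rw [hq2, hr2]; group
  have h1'' : q * q1 * q2 = 1 := h1'
  have h2'' : r * r1 * r2 = 1 := h2'
  have hn : nX C (q * r) = pw z b2 := by
    calc nX C (q * r) = q * r * (q1 * r1) * (q2 * r2) := by unfold nX; rw [hx1, hx2]
      _ = q * (r * q1) * r1 * q2 * r2 := by group
      _ = q * q1 * r * (r1 * q2) * r2 * pw z b1 := by
        rw [e1]
        simp only [mul_assoc]
        rw [← pw_comm b1 (r1 * (q2 * r2))]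
        simp only [mul_assoc]
      _ = q * q1 * (r * q2) * r1 * r2 * (pw z b1 * pw z b1) := by
        rw [e3]
        simp only [mul_assoc]
        rw [← mul_assoc (pw z b1) r2, ← pw_comm b1 r2, mul_assoc r2]
      _ = q * q1 * q2 * (r * r1 * r2) * pw z b2 := by
        rw [pw_sq hs, mul_one, e2]
        simp only [mul_assoc]
        rw [← pw_comm b2 (r1 * r2)]
        simp only [mul_assoc]
      _ = pw z b2 := by rw [h1'', h2'', one_mul, one_mul]
  have hrep : C.Rep (addPt u w) (q * r * pw z b2) := by
    have h := Coords.Rep.mul hs C h1 h2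
    cases b2
    · simpa [pw] using h
    · exact h.mul_z hs
  have hu : q * r * pw z b2 = canon C (addPt u w) := canon_unique hs C hrep
    (by rw [nX_mul_pw hs C, hn, pw_sq hs])
  rw [hb, ← hu, mul_assoc (q * r), pw_sq hs, mul_one]

theorem canon_zero : canon C zeroPt = 1 := by
  refine (canon_unique hs C (C.rep_one hs) ?_).symm
  simp [nX]

omit hs in
/-- A choice of lifts of four generating maps. -/
structure Lifts where
  /-- The lifts. -/
  r : Fin 4 → ↥(Subgroup.centralizer ({z} : Set G))
  mem : ∀ i, r i ∈ radLift C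
  act_r : ∀ i, C.act (QuotientGroup.mk (r i)) = rP ⟨2 ^ i.val, by
    have := i.isLt
    have h : 2 ^ i.val ≤ 2 ^ 3 := Nat.pow_le_pow_right (by norm_num) (by omega)
    omega⟩

theorem exists_lifts (hc : C.ClassData 0) : Nonempty (Lifts C) := by
  choose c hcm hcp using exists_radLift hs C hc
  exact ⟨⟨fun i => c _, fun i => hcm _, fun i => hcp _⟩⟩

variable {C} (L : Lifts C)

omit hs in
/-- The generators of the coordinates. -/
noncomputable def ptGen : List ↥(Subgroup.centralizer ({z} : Set G)) :=
  wBasis.map (fun m => canon C (dec m)) ++ ([L.r 0, L.r 1, L.r 2, L.r 3] ++ [zH z])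

omit hs in
/-- The element with given coordinates. -/
noncomputable def pt (n : Nat) : ↥(Subgroup.centralizer ({z} : Set G)) := prodL (ptGen L) n

omit hs in
/-- The part in the lifts of the maps. -/
def rPart (n : Nat) : ↥(Subgroup.centralizer ({z} : Set G)) :=
  prodL [L.r 0, L.r 1, L.r 2, L.r 3] (n / 64)

theorem prodL_canon : ∀ (l : List Nat) (n : Nat), (∀ a ∈ l, InW (dec a)) →
    prodL (l.map fun m => canon C (dec m)) n = canon C (dec (appN l n)) ∧ InW (dec (appN l n))
  | [], _, _ => by
    have h : dec 0 = zeroPt := by rw [← enc_zeroPt, dec_enc]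
    refine ⟨?_, ?_⟩
    · show (1 : ↥(Subgroup.centralizer ({z} : Set G))) = canon C (dec 0)
      rw [h, canon_zero hs C]
    · show InW (dec 0)
      rw [h]; exact InW.zero
  | a :: l, n, h => by
    obtain ⟨ih1, ih2⟩ := prodL_canon l (n / 2) fun b hb => h b (List.mem_cons_of_mem _ hb)
    simp only [List.map_cons, prodL, appN, ih1]
    have ha := h a List.mem_cons_self
    split_ifs
    · rw [dec_xor]
      exact ⟨(canon_mul hs C (ha.orth ih2)).symm, ha.add ih2⟩
    · rw [one_mul, Nat.zero_xor]
      exact ⟨rfl, ih2⟩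

theorem pt_split (n : Nat) :
    pt L n = canon C (dec (wN n)) * rPart L n * pw z (zbN n) := by
  rw [pt, ptGen, prodL_append, prodL_append, rPart, mul_assoc]
  congr 1
  · exact (prodL_canon hs wBasis n (by
      intro a ha
      show enc (dec a) ∈ wList
      have hk : ∀ b ∈ wBasis, b < 4096 ∧ b ∈ wList := by decide +kernel
      rw [enc_dec a (hk a ha).1]
      exact (hk a ha).2)).1
  · congr 1
    simp only [prodL, List.length_cons, List.length_nil, List.length_map, wBasis, mul_one,
      Nat.div_div_eq_div_mul, zbN, pw]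
    norm_num

theorem rPart_mem (n : Nat) : rPart L n ∈ radLift C :=
  prodL_mem _ _ (by
    intro a ha
    simp only [List.mem_cons, List.not_mem_nil, or_false] at ha
    rcases ha with rfl | rfl | rfl | rfl <;> exact L.mem _)

theorem act_rPart (n : Nat) :
    C.act (QuotientGroup.mk (rPart L n)) = rP ⟨layN n, layN_lt n⟩ := by
  have e : ∀ a b : Fin 16, rP a * rP b = rP ⟨(a.val ^^^ b.val) % 16, Nat.mod_lt _ (by norm_num)⟩ :=
    rP_mul
  suffices key : ∀ (m : Nat) (h : appN [1, 2, 4, 8] m < 16),
      C.act (QuotientGroup.mk (prodL [L.r 0, L.r 1, L.r 2, L.r 3] m)) =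
        rP ⟨appN [1, 2, 4, 8] m, h⟩ from key (n / 64) (layN_lt n)
  intro m _
  have hb : ∀ (i : Fin 4) (b : Prop) [Decidable b],
      C.act (QuotientGroup.mk (if b then L.r i else 1)) =
        rP (if b then ⟨2 ^ i.val, by
          have := i.isLt
          have h : 2 ^ i.val ≤ 2 ^ 3 := Nat.pow_le_pow_right (by norm_num) (by omega)
          omega⟩ else 0) := by
    intro i b _
    split_ifs
    · exact L.act_r i
    · rw [QuotientGroup.mk_one, map_one, rP_zero]
  simp only [prodL, mul_one, QuotientGroup.mk_mul, map_mul, hb, e]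
  congr 1
  refine Fin.ext ?_
  simp only [appN]
  split_ifs <;> norm_num <;> decide

variable (hc : C.ClassData 0)
include hc

theorem ptGen_mem : ∀ a ∈ ptGen L, a ∈ baseH C := by
  intro a ha
  simp only [ptGen, List.mem_append, List.mem_map, List.mem_cons, List.not_mem_nil, or_false] at ha
  rcases ha with ⟨m, hm, rfl⟩ | ha | rfl
  · refine wLift_le_baseH hs C hc ((mem_wLift hs C).2 ⟨_, ?_, (canon_spec hs C _).1⟩)
    show enc (dec m) ∈ wList
    have hk : ∀ b ∈ wBasis, b < 4096 ∧ b ∈ wList := by decide +kernel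
    rw [enc_dec m (hk m hm).1]
    exact (hk m hm).2
  · rcases ha with rfl | rfl | rfl | rfl <;> exact radLift_le_baseH hs C hc (L.mem _)
  · exact wLift_le_baseH hs C hc (zH_mem_wLift hs C)

theorem pt_mem (n : Nat) : pt L n ∈ baseH C := prodL_mem _ _ (ptGen_mem hs L hc)

theorem pt_xor (a b : Nat) : pt L (a ^^^ b) = pt L a * pt L b := by
  have key : ∀ (l : List ↥(Subgroup.centralizer ({z} : Set G))) (a b : Nat),
      (∀ x ∈ l, x ∈ baseH C) → prodL l (a ^^^ b) = prodL l a * prodL l b := by
    intro l
    induction l with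
    | nil => intro a b _; simp [prodL]
    | cons x l ih =>
      intro a b h
      have hx := h x List.mem_cons_self
      have hl : ∀ y ∈ l, y ∈ baseH C := fun y hy => h y (List.mem_cons_of_mem _ hy)
      have h2 : (a ^^^ b) / 2 = a / 2 ^^^ b / 2 := by
        rw [← Nat.shiftRight_one, ← Nat.shiftRight_one, ← Nat.shiftRight_one,
          Nat.shiftRight_xor_distrib]
      have h1 : (a ^^^ b) % 2 = a % 2 ^^^ b % 2 := by
        simpa using (Nat.xor_mod_two_pow (a := a) (b := b) (n := 1))
      simp only [prodL, h2, ih _ _ hl, h1]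
      set A := prodL l (a / 2)
      set B := prodL l (b / 2)
      have hA : A ∈ baseH C := prodL_mem _ _ hl
      rcases Nat.mod_two_eq_zero_or_one a with ha | ha <;>
        rcases Nat.mod_two_eq_zero_or_one b with hb | hb <;> simp only [ha, hb]
      · simp
      · simp only [Nat.zero_xor, if_true, if_neg (show ¬ (0 : ℕ) = 1 by norm_num), one_mul,
          ← mul_assoc, baseH_comm hs C hc hx hA]
      · simp only [Nat.xor_zero, if_true, if_neg (show ¬ (0 : ℕ) = 1 by norm_num), one_mul,
          ← mul_assoc]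
      · simp only [Nat.xor_self, if_true, if_neg (show ¬ (0 : ℕ) = 1 by norm_num), one_mul,
          ← mul_assoc]
        rw [mul_assoc x A x, ← baseH_comm hs C hc hx hA, ← mul_assoc, baseH_sq hs C hc hx,
          one_mul]
  exact key _ a b (ptGen_mem hs L hc)

theorem pt_eq_one {n : Nat} (hn : n < 2048) (h : pt L n = 1) : n = 0 := by
  have hlay : layN n = 0 := by
    have hq : rPart L n ∈ Q := by
      have h' := h
      rw [pt_split hs L] at h'
      have h2 : rPart L n = (canon C (dec (wN n)))⁻¹ * (pw z (zbN n))⁻¹ := by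
        rw [eq_inv_mul_iff_mul_eq]
        exact eq_inv_of_mul_eq_one_left h'
      rw [h2]
      exact Q.mul_mem (Q.inv_mem ((canon_spec hs C _).1.mem hs)) (Q.inv_mem (pw_mem hs _))
    have h0 := act_rPart hs L n
    rw [(QuotientGroup.eq_one_iff _).2 hq, map_one, ← rP_zero] at h0
    exact (congrArg Fin.val (rP_injective h0)).symm
  have key : ((List.range 2048).all fun m => layN m != 0 ||
      (decide (m / 64 % 16 = 0) && (cdN (wN m) == m % 64))) = true := by decide +kernel
  have hk := List.all_eq_true.1 key n (List.mem_range.2 hn)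
  simp only [hlay, bne_self_eq_false, Bool.false_or, Bool.and_eq_true, decide_eq_true_eq,
    beq_iff_eq] at hk
  obtain ⟨hmid, hw⟩ := hk
  have hr : rPart L n = 1 := by
    simp only [rPart, prodL, Nat.div_div_eq_div_mul]
    have h1 : n / 64 % 2 = 0 := by omega
    have h2 : n / (64 * 2) % 2 = 0 := by omega
    have h3 : n / (64 * (2 * 2)) % 2 = 0 := by omega
    have h4 : n / (64 * (2 * (2 * 2))) % 2 = 0 := by omega
    simp [h1, h2, h3, h4]
  rw [pt_split hs L, hr, mul_one] at h
  have hrep : C.Rep (dec (wN n)) (1 : ↥(Subgroup.centralizer ({z} : Set G))) := by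
    have h' := (canon_spec hs C (dec (wN n))).1
    cases hb : zbN n <;> rw [hb] at h
    · simp only [pw, cond_false, mul_one] at h
      rwa [h] at h'
    · have h'' := h'.mul_z hs
      rwa [show canon C (dec (wN n)) * zH z = 1 from h] at h''
  have hz := hrep.unique hs (C.rep_one hs)
  have hw0 : wN n = 0 := by
    rw [← enc_dec (wN n) (appN_lt _ _ (by decide)), hz]; rfl
  rw [hw0, show cdN 0 = 0 from rfl] at hw
  rw [hz, canon_zero hs C, one_mul, show (1 : ↥(Subgroup.centralizer ({z} : Set G))) = pw z false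
    from rfl] at h
  have hzb := pw_injective hs h
  simp only [zbN, decide_eq_false_iff_not] at hzb
  omega

theorem pt_injective {a b : Nat} (ha : a < 2048) (hb : b < 2048) (h : pt L a = pt L b) : a = b := by
  have h1 : pt L (a ^^^ b) = 1 := by
    rw [pt_xor hs L hc, h]; exact baseH_sq hs C hc (pt_mem hs L hc b)
  exact (Nat.xor_eq_zero_iff).1 (pt_eq_one hs L hc (Nat.xor_lt_two_pow (n := 11) ha hb) h1)

theorem exists_pt {a : ↥(Subgroup.centralizer ({z} : Set G))} (ha : a ∈ baseH C) :
    ∃ n < 2048, pt L n = a := by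
  let f : Fin 2048 → baseH C := fun n => ⟨pt L n.val, pt_mem hs L hc _⟩
  have hf : Function.Bijective f := (Nat.bijective_iff_injective_and_card f).2
    ⟨fun i j h => Fin.ext (pt_injective hs L hc i.isLt j.isLt (congrArg Subtype.val h)),
      by rw [card_baseH hs C hc, Nat.card_eq_fintype_card, Fintype.card_fin]; norm_num⟩
  obtain ⟨n, hn⟩ := hf.2 ⟨a, ha⟩
  exact ⟨n.val, n.isLt, congrArg Subtype.val hn⟩

theorem pt_cdN {m : Nat} (hm : m ∈ wList) : pt L (cdN m) = canon C (dec m) := by
  have h := List.all_eq_true.1 cdN_spec m hm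
  simp only [Bool.and_eq_true, decide_eq_true_eq, beq_iff_eq, Bool.not_eq_true'] at h
  obtain ⟨⟨⟨h1, h2⟩, -⟩, h4⟩ := h
  rw [pt_split hs L, h2, h4]
  have h5 : cdN m / 64 = 0 := by omega
  simp [rPart, h5, prodL_zero, pw]

theorem pt_bit (b : Bool) : pt L (if b then 1024 else 0) = pw z b := by
  cases b
  · show pt L 0 = _
    exact prodL_zero _
  · rw [if_pos rfl, pt_split hs L]
    have h1 : wN 1024 = 0 := by decide +kernel
    have h2 : dec 0 = zeroPt := by rw [← enc_zeroPt, dec_enc]
    rw [h1, h2, canon_zero hs C, one_mul]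
    simp [rPart, prodL, pw, zbN]

/-- The action of `Q`. -/
theorem pt_conj {v : Nat} (hv : v < 4096) (n : Nat) :
    canon C (dec v) * pt L n * (canon C (dec v))⁻¹ = pt L (trN v n) := by
  set q := canon C (dec v) with hq
  set p : Fin 16 := ⟨layN n, layN_lt n⟩ with hp
  set m := v ^^^ appN (radImgs.getD (layN n) []) v with hm
  have hqr : C.Rep (dec v) q := (canon_spec hs C _).1
  have hmem : m ∈ wList := by
    have h := rP_move p (dec v)
    simp only [InW, enc_addPt, enc_rP, enc_dec v hv, rImg] at h
    exact h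
  have hrv : enc (rP p (dec v)) = appN (radImgs.getD (layN n) []) v := by
    rw [enc_rP, enc_dec v hv]; rfl
  -- conjugate of the vector part
  have hd := rep_swap hs C (canon_spec hs C (dec (wN n))).1 hqr
  rw [enc_dec v hv, enc_dec (wN n) (appN_lt _ _ (by decide)), bN_comm] at hd
  -- conjugate of the lift part
  have hrr : rPart L n * rPart L n = 1 := radLift_sq hs C hc (rPart_mem hs L n)
  have hrc : rPart L n * q * (rPart L n)⁻¹ = canon C (rP p (dec v)) := by
    rw [hq, canon_conj hs C (rPart_mem hs L n).1, act_rPart hs L n]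
  have hr : q * rPart L n * q⁻¹ =
      canon C (dec m) * rPart L n * pw z (xor (bN (appN (radImgs.getD (layN n) []) v)
        (scalN (scalN v))) (oddN v)) := by
    have h := canon_mul_bit hs C (dec v) (rP p (dec v))
    rw [← hq, hrv, enc_dec v hv, show addPt (dec v) (rP p (dec v)) = dec m by
      rw [← dec_enc (rP p (dec v)), hrv, ← dec_xor]] at h
    rw [rep_inv hs C hqr, enc_dec v hv, pw_xor hs]
    calc q * rPart L n * (q * pw z (oddN v))
        = q * (rPart L n * q * (rPart L n)⁻¹) * rPart L n * pw z (oddN v) := by group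
      _ = _ := by
        rw [hrc, h]
        simp only [mul_assoc]
        rw [← mul_assoc (pw z _) (rPart L n), ← pw_comm, mul_assoc]
  rw [trN, pt_xor hs L hc, pt_xor hs L hc, pt_cdN hs L hc hmem, pt_bit hs L hc, pt_split hs L n]
  calc q * (canon C (dec (wN n)) * rPart L n * pw z (zbN n)) * q⁻¹
      = (q * canon C (dec (wN n)) * q⁻¹) * (q * rPart L n * q⁻¹) * (q * pw z (zbN n) * q⁻¹) := by
        group
    _ = _ := by
      rw [hd, hr, pw_conj, mul_assoc (canon C (dec (wN n))) q, mul_assoc (canon C (dec (wN n))),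
        mul_assoc q (pw z _) q⁻¹, ← pw_comm _ q⁻¹, ← mul_assoc q, mul_inv_cancel, one_mul]
      unfold epsN
      rw [pw_xor hs, pw_xor hs, pw_xor hs]
      have hcm : canon C (dec m) * rPart L n = rPart L n * canon C (dec m) :=
        wLift_comm_radLift hs C ((mem_wLift hs C).2 ⟨dec m, by
          show enc (dec m) ∈ wList
          have hlt := List.all_eq_true.1 wList_check m hmem
          simp only [Bool.and_eq_true, decide_eq_true_eq] at hlt
          rw [enc_dec m hlt.1.1.1]; exact hmem, (canon_spec hs C _).1⟩) (rPart_mem hs L n)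
      set d := canon C (dec (wN n))
      set e := canon C (dec m)
      set r := rPart L n
      set b1 := pw z (bN v (wN n)) with hb1
      set b2 := pw z (bN (appN (radImgs.getD (layN n) []) v) (scalN (scalN v))) with hb2
      set b3 := pw z (oddN v) with hb3
      set b4 := pw z (zbN n) with hb4
      have c1 : ∀ a, a * b1 = b1 * a := pw_comm _
      have c4 : ∀ a, a * b4 = b4 * a := pw_comm _
      calc d * b1 * (e * r * (b2 * b3)) * b4 = d * (b1 * (e * r)) * (b2 * b3) * b4 := by group
        _ = d * (r * e * b1) * (b2 * b3) * b4 := by rw [← c1, hcm]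
        _ = d * r * e * (b1 * (b2 * b3) * b4) := by group
        _ = d * r * (e * b4) * (b1 * b2 * b3) := by rw [c4 (b1 * (b2 * b3))]; group
        _ = d * r * b4 * e * (b1 * b2 * b3) := by rw [c4 e]; group

end CfsgLib.LargeFischer.Base
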