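import Cfsg.Agent.Lib.LargeFischer.Base.Canon
import Cfsg.Agent.Lib.LargeFischer.Rows

/-!
Large Fischer type: a conjugate `s ≠ z` of `z` in `Q` and its translate by the scalar lie in each
other's subgroups; the lifts of the sixteen maps centralising `x₀` square to one.
-/

set_option autoImplicit false
set_option linter.unusedSectionVars false
set_option linter.style.haveILetI false

namespace CfsgLib.LargeFischer.Base

open Orbits CfsgLib.ExtraspecialLarge

variable {G : Type*} [Group G] [Finite G] {z : G}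
  {Q : Subgroup ↥(Subgroup.centralizer ({z} : Set G))} [Q.Normal]
  (hs : Cfsg.IsExtraspecialCentralizerSetting z Q 6) (C : Coords z Q)
include hs

/-- An abelian subgroup of `Q` has order at most `2 ^ 7`. -/
theorem card_abelian_QG (D : Subgroup G) (hD : D ≤ QG Q) (hc : ∀ a ∈ D, ∀ b ∈ D, a * b = b * a) :
    Nat.card D ≤ 2 ^ 7 := by
  have h := CfsgLib.JFour.card_elem_extraspecial hs.2.2.1 hs.2.2.2.1
    ((D.comap (Subgroup.centralizer ({z} : Set G)).subtype).subgroupOf Q)
    (fun a ha b hb => Subtype.ext (Subtype.ext (hc a.1.1 ha b.1.1 hb)))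
  refine le_trans (le_of_eq ?_) h
  refine (Nat.card_eq_of_bijective (fun a => ⟨a.1.1.1, a.2⟩) ⟨fun a b h => ?_, ?_⟩).symm
  · exact Subtype.ext (Subtype.ext (Subtype.ext (congrArg Subtype.val h :)))
  · rintro ⟨w, hw⟩
    obtain ⟨q, hq, rfl⟩ := hD hw
    exact ⟨⟨⟨q, hq⟩, hw⟩, rfl⟩

theorem card_abelian_QG' (g : G) (D : Subgroup G) (hD : D ≤ QG' Q g)
    (hc : ∀ a ∈ D, ∀ b ∈ D, a * b = b * a) : Nat.card D ≤ 2 ^ 7 := by
  have h := card_abelian_QG hs (D.comap (MulAut.conj g).toMonoidHom) ?_ ?_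
  · refine le_trans (le_of_eq ?_) h
    exact (Nat.card_congr ((MulAut.conj g).toEquiv.subtypeEquiv fun a => Iff.rfl)).symm
  · intro a ha
    obtain ⟨b, hb, hba⟩ := hD ha
    rwa [(MulAut.conj g).injective hba] at hb
  · intro a ha b hb
    refine (MulAut.conj g).injective ?_
    rw [map_mul, map_mul]
    exact hc _ ha _ hb

variable {c : ZMod 3} {g : G} {s : ↥(Subgroup.centralizer ({z} : Set G))} {v : Pt}

/-- An element centralising the meet lies in it. -/
theorem meet_maximal (hv : MeetData C c g s v) {a : G} (ha : a ∈ QG Q ∨ a ∈ QG' Q g)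
    (hc : ∀ i ∈ QG Q ⊓ QG' Q g, a * i = i * a) : a ∈ QG Q ⊓ QG' Q g := by
  set I := QG Q ⊓ QG' Q g
  have hI := hv.elem_inf.1.is_comm.comm
  set D := I ⊔ Subgroup.zpowers a
  have hle : D ≤ Subgroup.centralizer (I : Set G) ⊓ Subgroup.centralizer ({a} : Set G) := by
    refine sup_le (fun b hb => ⟨Subgroup.mem_centralizer_iff.2 fun i hi =>
      congrArg Subtype.val (hI ⟨i, hi⟩ ⟨b, hb⟩), Subgroup.mem_centralizer_singleton_iff.2
        (hc b hb).symm⟩) (Subgroup.zpowers_le.2 ⟨Subgroup.mem_centralizer_iff.2 fun i hi =>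
        (hc i hi).symm, Subgroup.mem_centralizer_singleton_iff.2 rfl⟩)
  have hab : ∀ b ∈ D, ∀ d ∈ D, b * d = d * b := by
    intro b hb d hd
    have hle' : D ≤ Subgroup.centralizer ({b} : Set G) :=
      sup_le (fun i hi => Subgroup.mem_centralizer_singleton_iff.2
        (Subgroup.mem_centralizer_iff.1 (hle hb).1 i hi))
        (Subgroup.zpowers_le.2 (Subgroup.mem_centralizer_singleton_iff.2
          (Subgroup.mem_centralizer_singleton_iff.1 (hle hb).2).symm))
    exact (Subgroup.mem_centralizer_singleton_iff.1 (hle' hd)).symm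
  have hcard : Nat.card D ≤ Nat.card I := by
    rw [hv.card_inf]
    rcases ha with ha | ha
    · exact card_abelian_QG hs D (sup_le inf_le_left (Subgroup.zpowers_le.2 ha)) hab
    · exact card_abelian_QG' hs g D (sup_le inf_le_right (Subgroup.zpowers_le.2 ha)) hab
  have heq : I = D := Subgroup.eq_of_le_of_card_ge le_sup_left hcard
  rw [heq]
  exact Subgroup.mem_sup_right (Subgroup.mem_zpowers a)

theorem card_linear_meet (hv : MeetData C c g s v) :
    16 ≤ Nat.card ↥(meetImage Q g ⊓ C.linPart) := by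
  have h1 := Subgroup.card_mul_index (C.linPart.subgroupOf (meetImage Q g))
  rw [hv.card_meetImage] at h1
  have h2 : Nat.card (C.linPart.subgroupOf (meetImage Q g)) = Nat.card ↥(meetImage Q g ⊓ C.linPart) := by
    rw [← Subgroup.inf_subgroupOf_left]
    exact Nat.card_congr (Subgroup.subgroupOfEquivOfLe inf_le_left).toEquiv
  have hle : (C.linPart.subgroupOf (meetImage Q g)).index ≤ 2 := by
    haveI := Subgroup.normal_of_index_eq_two (C.index_linPart hs)
    rw [← C.index_linPart hs]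
    exact Nat.le_of_dvd (by rw [C.index_linPart hs]; norm_num)
      (Subgroup.relIndex_dvd_index_of_normal C.linPart (meetImage Q g))
  rw [h2] at h1
  nlinarith

/-- The translate of `s` by the scalar lies in the conjugate of `Q`. -/
theorem translate_mem (hv : MeetData C c g s v) (hsg : g * z * g⁻¹ = s.1) (_hne : s ≠ zH z) :
    (x₀ C * s * (x₀ C)⁻¹).1 ∈ QG' Q g := by
  classical
  by_contra hyX
  have hsQ : s ∈ Q := hv.rep.mem hs
  have hQ := good_QG hs
  have hX : Good (QG' Q g) s.1 := hsg ▸ hQ.conjugate g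
  have hv0 : v ≠ zeroPt := hv.inFour.singular.1
  set y := x₀ C * s * (x₀ C)⁻¹ with hy
  have hyv : C.Rep (shift (fun _ => 1) v) y := rep_x₀ hs C hv.rep
  have hyQ : y ∈ Q := hyv.mem hs
  have hyQG : y.1 ∈ QG Q := ⟨y, hyQ, rfl⟩
  set I := QG Q ⊓ QG' Q g with hI
  obtain ⟨u, ⟨huQ, huX⟩, huy⟩ : ∃ u ∈ I, u * y.1 * u⁻¹ = z * y.1 := by
    by_contra hno
    push Not at hno
    refine hyX (meet_maximal hs C hv (Or.inl hyQG) fun i hi => ?_).2
    rcases hQ.cases_conj i hi.1 y.1 hyQG with e | e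
    · exact (mul_inv_eq_iff_eq_mul.1 e).symm
    · exact absurd e (hno i hi)
  have hlift : ∀ γ ∈ meetImage Q g, ∃ e : ↥(Subgroup.centralizer ({z} : Set G)),
      e.1 ∈ QG' Q g ∧ QuotientGroup.mk e = γ := by
    rintro _ ⟨e, he, rfl⟩
    exact ⟨e, he.1, rfl⟩
  have hdiff : ∀ a b : ↥(Subgroup.centralizer ({z} : Set G)), a.1 ∈ QG' Q g → b.1 ∈ QG' Q g →
      (QuotientGroup.mk a : ↥(Subgroup.centralizer ({z} : Set G)) ⧸ Q) = QuotientGroup.mk b →
      (a⁻¹ * b).1 ∈ I := fun a b ha hb h =>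
    ⟨⟨a⁻¹ * b, QuotientGroup.eq.1 h, rfl⟩, Subgroup.mul_mem _ (Subgroup.inv_mem _ ha) hb⟩
  have huI : u ∈ I := ⟨huQ, huX⟩
  have hIc : ∀ i ∈ I, ∀ j ∈ I, i * j = j * i := fun i hi j hj =>
    congrArg Subtype.val (hv.elem_inf.1.is_comm.comm ⟨i, hi⟩ ⟨j, hj⟩)
  -- a linear element of the meet image fixing `u`
  obtain ⟨γ, hγ, hγ1, e, he, heγ, heu⟩ : ∃ γ ∈ meetImage Q g ⊓ C.linPart, γ ≠ 1 ∧
      ∃ e : ↥(Subgroup.centralizer ({z} : Set G)), e.1 ∈ QG' Q g ∧ QuotientGroup.mk e = γ ∧
        e.1 * u = u * e.1 := by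
    set El := meetImage Q g ⊓ C.linPart
    have h16 : 16 ≤ Nat.card El := card_linear_meet hs C hv
    letI := Fintype.ofFinite El
    rw [Nat.card_eq_fintype_card] at h16
    obtain ⟨γ₁, -, h1⟩ := Finset.exists_mem_ne
      (show 1 < (Finset.univ : Finset El).card by rw [Finset.card_univ]; omega) 1
    obtain ⟨γ₂, h2⟩ : ∃ γ : El, γ ∉ ({1, γ₁} : Finset El) := by
      by_contra hno
      push Not at hno
      have := Finset.card_le_card (show (Finset.univ : Finset El) ⊆ {1, γ₁} from fun a _ => hno a)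
      rw [Finset.card_univ] at this
      have := this.trans Finset.card_le_two
      omega
    simp only [Finset.mem_insert, Finset.mem_singleton, not_or] at h2
    obtain ⟨e₁, he₁, hm₁⟩ := hlift γ₁.1 γ₁.2.1
    obtain ⟨e₂, he₂, hm₂⟩ := hlift γ₂.1 γ₂.2.1
    rcases hX.cases_conj e₁.1 he₁ u huX with c1 | c1
    · exact ⟨γ₁.1, γ₁.2, fun h => h1 (Subtype.ext h), e₁, he₁, hm₁, mul_inv_eq_iff_eq_mul.1 c1⟩
    rcases hX.cases_conj e₂.1 he₂ u huX with c2 | c2
    · exact ⟨γ₂.1, γ₂.2, fun h => h2.1 (Subtype.ext h), e₂, he₂, hm₂, mul_inv_eq_iff_eq_mul.1 c2⟩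
    refine ⟨γ₁.1 * γ₂.1, (γ₁ * γ₂).2, fun h => h2.2 (Subtype.ext ?_), e₁ * e₂,
      Subgroup.mul_mem _ he₁ he₂, by rw [QuotientGroup.mk_mul, hm₁, hm₂],
      mul_inv_eq_iff_eq_mul.1 ?_⟩
    · rw [← inv_eq_of_mul_eq_one_right h]
      exact inv_eq_of_mul_eq_one_right (by rw [← pow_two]; exact hv.elem.2 _ γ₁.2.1)
    · calc (e₁ * e₂).1 * u * (e₁ * e₂).1⁻¹ = e₁.1 * (e₂.1 * u * e₂.1⁻¹) * e₁.1⁻¹ := by
            show e₁.1 * e₂.1 * u * (e₁.1 * e₂.1)⁻¹ = _; group
        _ = (e₁.1 * s.1 * e₁.1⁻¹) * (e₁.1 * u * e₁.1⁻¹) := by rw [c2]; group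
        _ = u := by
          rw [mul_inv_eq_iff_eq_mul.2 (hX.comm _ he₁), c1, ← mul_assoc, hX.sq_u, one_mul]
  -- it moves an element of the meet commuting with `y`
  obtain ⟨w, hwI, hwy, hwe⟩ : ∃ w ∈ I, w * y.1 = y.1 * w ∧ e.1 * w * e.1⁻¹ = s.1 * w := by
    by_contra hno
    push Not at hno
    have hK : ∀ i ∈ I, i * y.1 = y.1 * i → e.1 * i = i * e.1 := fun i hi hiy => by
      rcases hX.cases_conj e.1 he i hi.2 with c1 | c1
      · exact mul_inv_eq_iff_eq_mul.1 c1
      · exact absurd c1 (hno i hi hiy)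
    have hall : ∀ i ∈ I, e.1 * i = i * e.1 := by
      intro i hi
      rcases hQ.cases_conj i hi.1 y.1 hyQG with c1 | c1
      · exact hK i hi (mul_inv_eq_iff_eq_mul.1 c1)
      · have h' : (u⁻¹ * i) * y.1 = y.1 * (u⁻¹ * i) := by
          refine mul_inv_eq_iff_eq_mul.1 ?_
          calc u⁻¹ * i * y.1 * (u⁻¹ * i)⁻¹ = u⁻¹ * (i * y.1 * i⁻¹) * u := by group
            _ = u⁻¹ * (u * y.1 * u⁻¹) * u := by rw [c1, huy]
            _ = y.1 := by group
        have h'' : Commute e.1 (u⁻¹ * i) := hK _ (I.mul_mem (I.inv_mem huI) hi) h'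
        have h3 : Commute e.1 u := heu
        have h4 := h3.mul_right h''
        rwa [mul_inv_cancel_left] at h4
    obtain ⟨q, hq, hqe⟩ := (meet_maximal hs C hv (Or.inr he) hall).1
    obtain rfl : q = e := Subtype.ext hqe
    exact hγ1 (heγ ▸ (QuotientGroup.eq_one_iff q).2 hq)
  obtain ⟨w', hw'Q, rfl⟩ := hwI.1
  obtain ⟨u', hu'Q, rfl⟩ := huQ
  obtain ⟨a, ha⟩ := Coords.exists_rep (C := C) hw'Q
  have hlin : ∀ t, C.act (QuotientGroup.mk e) (shift (fun _ => 1) t) =
      shift (fun _ => 1) (C.act (QuotientGroup.mk e) t) := C.mem_linPart.1 (heγ ▸ hγ.2)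
  have heu' : e * u' * e⁻¹ = u' := Subtype.ext (mul_inv_eq_iff_eq_mul.2 heu)
  have hew : e * w' * e⁻¹ = s * w' := Subtype.ext hwe
  set p := x₀ C * w' * (x₀ C)⁻¹ with hp
  have hpa : C.Rep (shift (fun _ => 1) a) p := rep_x₀ hs C ha
  have hea : C.act (QuotientGroup.mk e) a = addPt v a :=
    (hew ▸ ha.conj hs e).unique hs (Coords.Rep.mul hs C hv.rep ha)
  have h1 := hpa.conj hs e
  rw [hlin, hea, shift_addPt] at h1
  have h2 : C.Rep (addPt (shift (fun _ => 1) v) (shift (fun _ => 1) a)) (y * p) :=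
    Coords.Rep.mul hs C hyv hpa
  have hpQ : p ∈ Q := hpa.mem hs
  have huy' : u' * y * u'⁻¹ = zH z * y := Subtype.ext huy
  have key : ∀ k, k = y * p ∨ k = y * p * zH z →
      (u' * k * u'⁻¹ = k ↔ ¬ (u' * p * u'⁻¹ = p)) := by
    intro k hk
    have hc1 : u' * (y * p) * u'⁻¹ = zH z * y * (u' * p * u'⁻¹) := by rw [← huy']; group
    have hk' : u' * k * u'⁻¹ = k ↔ u' * (y * p) * u'⁻¹ = y * p := by
      rcases hk with rfl | rfl
      · exact Iff.rfl
      · rw [show u' * (y * p * zH z) * u'⁻¹ = u' * (y * p) * u'⁻¹ * (u' * zH z * u'⁻¹) by group,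
          conj_zH, mul_left_inj]
    rw [hk', hc1]
    have hz1 : zH z * (y * p) ≠ y * p := fun e' => zH_ne_one hs (mul_eq_right.1 e')
    rcases conj_cases hs hpQ hu'Q with e' | e'
    · exact ⟨fun h => absurd (by rwa [e', mul_assoc] at h) hz1, fun h => absurd e' h⟩
    · refine ⟨fun _ h => zH_ne_one hs (mul_eq_right.1 (e'.symm.trans h)), fun _ => ?_⟩
      rw [e', show zH z * y * (zH z * p) = zH z * (y * zH z) * p by group, zH_comm y,
        ← mul_assoc (zH z), zH_sq hs, one_mul]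
  have hiff := key _ (h2.pair hs h1)
  have hinv : u' * (e * p * e⁻¹) * u'⁻¹ = e * p * e⁻¹ ↔ u' * p * u'⁻¹ = p := by
    rw [show u' * (e * p * e⁻¹) * u'⁻¹ = e * ((e⁻¹ * u' * e) * p * (e⁻¹ * u' * e)⁻¹) * e⁻¹ by group,
      show e⁻¹ * u' * e = u' by
        conv_lhs => rw [← heu']
        group,
      mul_left_inj, mul_right_inj]
  tauto

omit hs in
/-- Certificates: in each of the nine cases all but four indices are excluded. -/
theorem cases_check : (baseCases.all fun x =>
    decide (x.1 < 4096) && longN x.1 && wList.contains x.1 && decide (x.2.1.length = 4) &&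
    (List.range 16).all fun q => x.2.1.contains q || x.2.2.any fun b =>
      b.1 == q && (monN b.2.1 b.2.2.1 x.1 == x.1) &&
      (b.2.1.all fun i => decide (i < 6)) && decide (b.2.1.length = 6) &&
      decide (b.2.1.Nodup) &&
      ((List.range 6).countP (fun i => (List.range 6).countP (fun j =>
        decide (i < j) && decide (b.2.1.getD j 0 < b.2.1.getD i 0)) % 2 == 1) % 2 == 0) &&
      decide (b.2.2.1.length = 6) && (b.2.2.1.sum % 3 == 0) && (b.2.2.1.all fun i => decide (i < 3)) &&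
      decide (b.2.2.2.1 < 4096) && decide (b.2.2.2.2.1 < 4096) && decide (b.2.2.2.2.2 < 4096) &&
      (monN b.2.1 b.2.2.1 b.2.2.2.2.1 == b.2.2.2.1) &&
      (monN b.2.1 b.2.2.1 b.2.2.2.2.2 == appN (radImgs.getD q []) b.2.2.2.1) &&
      (monN b.2.1 b.2.2.1 (appN (radImgs.getD q []) b.2.2.2.2.2) !=
        appN (radImgs.getD q []) (monN b.2.1 b.2.2.1 (appN (radImgs.getD q []) b.2.2.2.2.1)))) =
    true := by decide +kernel

omit hs in
theorem cases_cover : (List.range 16).all (fun q => baseCases.any fun x => x.2.1.contains q) = true := by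
  decide +kernel

omit hs in
theorem sign_check : ∀ σ : Equiv.Perm (Fin 6),
    ((List.range 6).countP (fun i => (List.range 6).countP (fun j =>
      decide (i < j) && decide ((List.ofFn fun i => (σ i).val).getD j 0 <
        (List.ofFn fun i => (σ i).val).getD i 0)) % 2 == 1) % 2 == 0) = true →
    Equiv.Perm.sign σ = 1 := by decide +kernel

omit hs in
theorem list_perm (l : List Nat) (hlt : ∀ a ∈ l, a < 6) (hlen : l.length = 6) (hnd : l.Nodup) :
    ∃ σ : Equiv.Perm (Fin 6), (List.ofFn fun i => (σ i).val) = l := by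
  let f : Fin 6 → Fin 6 := fun i => ⟨l[i.val]'(by omega), hlt _ (List.getElem_mem _)⟩
  have hf : Function.Injective f := fun i j h =>
    Fin.ext ((List.Nodup.getElem_inj_iff hnd).1 (congrArg Fin.val h))
  refine ⟨Equiv.ofBijective f ⟨hf, Finite.surjective_of_injective hf⟩, ?_⟩
  refine List.ext_getElem (by rw [List.length_ofFn, hlen]) fun i h1 h2 => ?_
  rw [List.getElem_ofFn]
  rfl

omit hs in
theorem list_expo (l : List Nat) (hlt : ∀ a ∈ l, a < 3) (hlen : l.length = 6)
    (hsum : l.sum % 3 = 0) :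
    ∃ a : Fin 6 → ZMod 3, ∑ i, a i = 0 ∧ (List.ofFn fun i => (a i).val) = l := by
  have hl : (List.ofFn fun i : Fin 6 => l[i.val]'(by omega)) = l :=
    List.ext_getElem (by rw [List.length_ofFn, hlen]) fun i h1 h2 => by rw [List.getElem_ofFn]
  refine ⟨fun i => (l[i.val]'(by omega) : ℕ), ?_, ?_⟩
  · rw [← Nat.cast_sum, ZMod.natCast_eq_zero_iff _ _]
    rw [← List.sum_ofFn, hl]
    exact Nat.dvd_of_mod_eq_zero hsum
  · refine List.ext_getElem (by rw [List.length_ofFn, hlen]) fun i h1 h2 => ?_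
    rw [List.getElem_ofFn, ZMod.val_natCast]
    exact Nat.mod_eq_of_lt (hlt _ (List.getElem_mem _))

/-- The lifts of the sixteen maps square to one. -/
theorem radLift_sq (hc : C.ClassData 0) {a : ↥(Subgroup.centralizer ({z} : Set G))}
    (ha : a ∈ radLift C) : a * a = 1 := by
  classical
  obtain ⟨hax, p, hp⟩ := id ha
  obtain ⟨x, hx, hxp⟩ := List.any_eq_true.1
    (List.all_eq_true.1 cases_cover p.val (List.mem_range.2 p.isLt))
  have hck := List.all_eq_true.1 cases_check x hx
  simp only [Bool.and_eq_true, decide_eq_true_eq, List.all_eq_true, List.mem_range] at hck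
  obtain ⟨⟨⟨⟨hx1, hx2⟩, hx3⟩, hx4⟩, hx5⟩ := hck
  set v := dec x.1 with hv
  have hvW : InW v := by
    show enc v ∈ wList
    rw [hv, enc_dec _ hx1]
    simpa using hx3
  have hv4 : InFour 0 v := (inFour_iff v).2 (by rw [hv, enc_dec _ hx1]; exact hx2)
  set s := canon C v with hsdef
  obtain ⟨hsv, hsn⟩ := canon_spec hs C v
  have hconjz : IsConj z s.1 := isConj_of_inFour hs C hc hsv hv4
  obtain ⟨g, hg⟩ := isConj_iff.1 hconjz
  have hne : s ≠ zH z := fun e => hv4.singular.1 ((hsv.zero_iff hs).2 (Or.inr e))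
  obtain ⟨v', hv'⟩ := exists_meetData hs C hc g s (hsv.mem hs) hg hne
  obtain rfl : v' = v := hv'.rep.unique hs hsv
  have hQ := good_QG hs
  have hX : Good (QG' Q g) s.1 := hg ▸ hQ.conjugate g
  -- the image of the sixteen maps
  set R := (radLift C).map (QuotientGroup.mk' Q) with hR
  have hRle : R ≤ C.stab v := by
    rintro _ ⟨b, ⟨-, q, hq⟩, rfl⟩
    show C.act (QuotientGroup.mk b) v = v
    rw [hq, rP_fix q hvW]
  have hR2 : ∀ b ∈ R, b * b = 1 := by
    rintro _ ⟨b, ⟨-, q, hq⟩, rfl⟩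
    refine C.act_injective ?_
    rw [map_mul, map_one]
    show C.act (QuotientGroup.mk b) * C.act (QuotientGroup.mk b) = 1
    rw [hq]
    nth_rw 1 [← rP_inv q]
    exact inv_mul_cancel _
  have hRc : ∀ b ∈ R, ∀ d ∈ R, b * d = d * b := by
    intro b hb d hd
    have h := hR2 _ (R.mul_mem hb hd)
    rw [← eq_inv_iff_mul_eq_one, mul_inv_rev, inv_eq_of_mul_eq_one_right (hR2 _ hb),
      inv_eq_of_mul_eq_one_right (hR2 _ hd)] at h
    exact h
  have hRcard : Nat.card R = 16 := by
    have hinj : Function.Injective (fun q : Fin 16 => rP q) := rP_injective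
    choose d hdm hdp using exists_radLift hs C hc
    refine (Nat.card_eq_of_bijective (fun q : Fin 16 =>
      (⟨QuotientGroup.mk (d q), d q, hdm q, rfl⟩ : R)) ⟨fun q r h => ?_, ?_⟩).symm.trans (by simp)
    · exact hinj (by
        have h' := congrArg (fun b : R => C.act b.1) h
        simpa [hdp] using h')
    · rintro ⟨_, b, ⟨-, q, hq⟩, rfl⟩
      refine ⟨q, Subtype.ext (C.act_injective ?_)⟩
      show C.act (QuotientGroup.mk (d q)) = C.act (QuotientGroup.mk b)
      rw [hdp, hq]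
  -- four of them lie in the meet image
  set E := meetImage Q g with hE
  have hfix : fixImage Q s.1 = C.stab v := hv'.fix_eq
  have hEle : E ≤ C.stab v := hfix ▸ hv'.le
  have hEn : ∀ b ∈ C.stab v, ∀ d ∈ E, b * d * b⁻¹ ∈ E := fun b hb => hv'.normal b (hfix ▸ hb)
  haveI : (E.subgroupOf (C.stab v)).Normal := ⟨fun d hd b => hEn b b.2 d.1 hd⟩
  haveI : Fact (Nat.Prime 2) := ⟨Nat.prime_two⟩
  have hpE : IsPGroup 2 E := fun d =>
    ⟨1, by rw [pow_one]; exact Subtype.ext (hv'.elem.2 d.1 d.2)⟩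
  obtain ⟨e6⟩ := (Coords.card_le_thirty_two hc hv4 E hEle hEn hpE).2 hv'.card_meetImage
  have h4 : 4 ≤ Nat.card ↥(R ⊓ E) := by
    let f := (e6.toMonoidHom.comp (QuotientGroup.mk' (E.subgroupOf (C.stab v)))).comp
      (Subgroup.inclusion hRle)
    have hle4 : Nat.card f.range ≤ 4 := by
      refine CfsgLib.JFour.card_elem_alt_six f.range ?_ ?_
      · rintro _ ⟨b, rfl⟩ _ ⟨d, rfl⟩
        rw [← map_mul, ← map_mul, show b * d = d * b from Subtype.ext (hRc _ b.2 _ d.2)]
      · rintro _ ⟨b, rfl⟩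
        rw [← map_mul, show b * b = 1 from Subtype.ext (hR2 _ b.2), map_one]
    have hker : Nat.card f.ker ≤ Nat.card ↥(R ⊓ E) := by
      refine Nat.card_le_card_of_injective (fun b => ⟨b.1.1, b.1.2, ?_⟩) (fun b d h =>
        Subtype.ext (Subtype.ext (congrArg Subtype.val h :)))
      have h : e6 (QuotientGroup.mk (Subgroup.inclusion hRle b.1)) = 1 := MonoidHom.mem_ker.1 b.2
      rw [MulEquiv.map_eq_one_iff] at h
      exact (QuotientGroup.eq_one_iff (Subgroup.inclusion hRle b.1)).1 h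
    have h := Subgroup.card_mul_index f.ker
    rw [Subgroup.index_ker, hRcard] at h
    nlinarith
  -- they are the four listed
  have hgood : ∀ q : Fin 16, ∀ b ∈ R ⊓ E, C.act b = rP q → q.val ∈ x.2.1 := by
    intro q b hb hbq
    have h := hx5 q.val q.isLt
    simp only [Bool.or_eq_true, List.contains_eq_mem, decide_eq_true_eq, List.any_eq_true,
      Bool.and_eq_true, beq_iff_eq, bne_iff_ne, List.all_eq_true] at h
    rcases h with h | h
    · exact h
    exfalso
    obtain ⟨⟨q', pl, al, m, i₁, i₂⟩, -, h⟩ := h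
    dsimp only at h
    obtain ⟨⟨⟨⟨⟨⟨⟨⟨⟨⟨⟨⟨⟨⟨hq, hfixv⟩, hp1⟩, hp2⟩, hp3⟩, hp4⟩, ha1⟩, ha2⟩, ha3⟩, hm⟩, hi1⟩, hi2⟩,
      he1⟩, he2⟩, he3⟩ := h
    subst hq
    obtain ⟨σ, hσ⟩ := list_perm pl hp1 hp2 hp3
    obtain ⟨α, hα0, hα⟩ := list_expo al ha3 ha1 ha2
    have heven : σ ∈ alternatingGroup (Fin 6) := by
      rw [Equiv.Perm.mem_alternatingGroup]
      refine sign_check σ ?_
      rw [hσ, beq_iff_eq]
      exact hp4
    obtain ⟨δ, -, hδ⟩ := exists_mono C hc σ heven α hα0
    have hδn : ∀ n < 4096, enc (C.act δ (dec n)) = monN pl al n := fun n hn => by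
      rw [enc_mono C hδ, hσ, hα, enc_dec n hn]
    have hδv : δ ∈ C.stab v := by
      rw [C.mem_stab]
      refine enc_injective ?_
      rw [hv, hδn _ hx1, hfixv, enc_dec _ hx1]
    have hd : δ * b * δ⁻¹ ∈ E := hEn δ hδv b hb.2
    have hcm : b * (δ * b * δ⁻¹) = δ * b * δ⁻¹ * b :=
      congrArg Subtype.val (hv'.elem.1.is_comm.comm ⟨b, hb.2⟩ ⟨_, hd⟩)
    -- evaluate at the witness
    have hr : ∀ n < 4096, enc (C.act b (dec n)) = appN (radImgs.getD q.val []) n := fun n hn => by
      rw [hbq, enc_rP, enc_dec n hn]; rfl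
    have hinv1 : C.act δ⁻¹ (dec m) = dec i₁ := by
      refine C.act_inv_apply (enc_injective ?_)
      rw [hδn _ hi1, he1, enc_dec _ hm]
    have hrm : appN (radImgs.getD q.val []) m < 4096 := by rw [← hr m hm]; exact enc_lt _
    have hinv2 : C.act δ⁻¹ (dec (appN (radImgs.getD q.val []) m)) = dec i₂ := by
      refine C.act_inv_apply (enc_injective ?_)
      rw [hδn _ hi2, he2, enc_dec _ hrm]
    have hev := congrArg (fun γ => enc (C.act γ (dec m))) hcm
    have hbd : ∀ n, n < 4096 → C.act b (dec n) = dec (appN (radImgs.getD q.val []) n) :=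
      fun n hn => by rw [← hr n hn, dec_enc]
    simp only [C.act_mul_apply, hinv1] at hev
    rw [hbd m hm, hinv2, hbd i₂ hi2, hbd i₁ hi1] at hev
    have h1 : appN (radImgs.getD q.val []) i₁ < 4096 := by rw [← hr _ hi1]; exact enc_lt _
    have h2 : appN (radImgs.getD q.val []) i₂ < 4096 := by rw [← hr _ hi2]; exact enc_lt _
    rw [← dec_enc (C.act δ (dec (appN (radImgs.getD q.val []) i₁))), hδn _ h1,
      hr _ (by rw [← hδn _ h1]; exact enc_lt _), hδn _ h2] at hev
    exact he3 hev.symm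
  obtain ⟨b, hb, hbp⟩ : ∃ b ∈ R ⊓ E, C.act b = rP p := by
    have hact : ∀ b : ↥(R ⊓ E), ∃ q, C.act b.1 = rP q := by
      rintro ⟨_, ⟨d, ⟨-, q, hq⟩, rfl⟩, -⟩
      exact ⟨q, hq⟩
    choose qf hqf using hact
    let F : ↥(R ⊓ E) → {n // n ∈ x.2.1.toFinset} := fun b =>
      ⟨(qf b).val, List.mem_toFinset.2 (hgood _ b.1 b.2 (hqf b))⟩
    have hF : Function.Injective F := fun b d h => Subtype.ext (C.act_injective (by
      rw [hqf b, hqf d, Fin.ext (congrArg Subtype.val h :)]))
    have hsurj : Function.Surjective F := by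
      refine ((Nat.bijective_iff_injective_and_card F).2 ⟨hF, le_antisymm
        (Nat.card_le_card_of_injective F hF) ?_⟩).2
      rw [Nat.card_eq_finsetCard]
      exact (List.toFinset_card_le _).trans (hx4 ▸ h4)
    obtain ⟨b, hb⟩ := hsurj ⟨p.val, List.mem_toFinset.2 (by simpa using hxp)⟩
    exact ⟨b.1, b.2, by rw [hqf b, Fin.ext (congrArg Subtype.val hb :)]⟩
  obtain ⟨e, he, heb⟩ := hb.2
  have hmk : (QuotientGroup.mk e : ↥(Subgroup.centralizer ({z} : Set G)) ⧸ Q) = QuotientGroup.mk a :=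
    C.act_injective (by rw [show (QuotientGroup.mk e : _ ⧸ Q) = b from heb, hbp, hp])
  -- `a` centralises the meet modulo `e`
  have hsy := translate_mem hs C hv' hg hne
  have hav : C.act (QuotientGroup.mk a) v = v := by rw [hp, rP_fix p hvW]
  have has : a * s * a⁻¹ = s := by rw [hsdef, canon_conj hs C hax, hav]
  have hq : a * e⁻¹ ∈ Q := by
    rw [← QuotientGroup.eq_one_iff, QuotientGroup.mk_mul, QuotientGroup.mk_inv, hmk, mul_inv_cancel]
  have heX : e.1 ∈ QG' Q g := he.1
  have hall : ∀ i ∈ QG Q ⊓ QG' Q g, (a * e⁻¹).1 * i = i * (a * e⁻¹).1 := by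
    rintro _ ⟨⟨i, hiQ, rfl⟩, hiX⟩
    obtain ⟨t, ht⟩ := Coords.exists_rep (C := C) hiQ
    have hIc := hv'.elem_inf.1.is_comm.comm
    have hi2 : i * i = 1 := by
      have := hv'.elem_inf.2 i.1 ⟨⟨i, hiQ, rfl⟩, hiX⟩
      rw [pow_two] at this
      exact Subtype.ext this
    have hci : ∀ d : ↥(Subgroup.centralizer ({z} : Set G)), d ∈ Q → d.1 ∈ QG' Q g → d * i = i * d :=
      fun d hd hdX => Subtype.ext (congrArg Subtype.val
        (hIc ⟨d.1, ⟨d, hd, rfl⟩, hdX⟩ ⟨i.1, ⟨i, hiQ, rfl⟩, hiX⟩) :)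
    have hev2 : ∀ (d : ↥(Subgroup.centralizer ({z} : Set G))) (r : Pt), d ∈ Q → d * d = 1 →
        d * i = i * d → C.Rep r d → Even (wt (addPt t r)) := by
      intro d r hd hd2 hdi hr
      refine ((Coords.Rep.mul hs C ht hr).sq hs).1 ?_
      calc i * d * (i * d) = i * (d * i) * d := by group
        _ = (i * i) * (d * d) := by rw [hdi]; group
        _ = 1 := by rw [hi2, hd2, one_mul]
    set y := x₀ C * s * (x₀ C)⁻¹ with hy
    have hs2 : s * s = 1 := (hsv.sq hs).2 hvW.even
    have hyQ : y ∈ Q := (rep_x₀ hs C hsv).mem hs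
    have hy2 : y * y = 1 := by
      rw [hy]
      calc x₀ C * s * (x₀ C)⁻¹ * (x₀ C * s * (x₀ C)⁻¹) = x₀ C * (s * s) * (x₀ C)⁻¹ := by group
        _ = 1 := by rw [hs2]; group
    have hc0 := hci s (hsv.mem hs) hX.mem
    have hc1 := hci y hyQ hsy
    have horth : Orth t v := by
      refine ⟨(ht.sq hs).1 hi2, hvW.even, fun k => ?_⟩
      rcases (by decide : ∀ k : ZMod 3, k = 0 ∨ k = 1 ∨ k = 2) k with rfl | rfl | rfl
      · rw [shift_const_zero]
        exact hev2 s v (hsv.mem hs) hs2 hc0 hsv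
      · exact hev2 y _ hyQ hy2 hc1 (rep_x₀ hs C hsv)
      · have hsy2 : s * y = y * s := commute_of_even hs C hsv (rep_x₀ hs C hsv) hvW.even
          (by rw [wt_shift]; exact hvW.even) (hvW.add hvW.scal).even
        have hrep := Coords.Rep.mul hs C hsv (rep_x₀ hs C hsv)
        have h3 : addPt v (shift (fun _ => 1) v) = shift (fun _ => 2) v := by
          have hh : ∀ o : Option (ZMod 3), addCoord o (o.map (· + 1)) = o.map (· + 2) := by decide
          funext j
          exact hh (v j)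
        rw [h3] at hrep
        refine hev2 (s * y) _ (Q.mul_mem (hsv.mem hs) hyQ) ?_ ?_ hrep
        · calc s * y * (s * y) = s * (y * s) * y := by group
            _ = (s * s) * (y * y) := by rw [← hsy2]; group
            _ = 1 := by rw [hs2, hy2, one_mul]
        · rw [mul_assoc, hc1, ← mul_assoc, hc0, mul_assoc]
    -- compare with the action of `e`
    have hconj_eq : a * i * a⁻¹ = e * i * e⁻¹ := by
      have hrepa : C.Rep (C.act (QuotientGroup.mk a) t) (e * i * e⁻¹) := by
        have := ht.conj hs e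
        rwa [hmk] at this
      obtain ⟨hcn, -⟩ := canon_spec hs C t
      have hca : a * i * a⁻¹ = i ∨ a * i * a⁻¹ = s * i := by
        have hat : C.act (QuotientGroup.mk a) t = t ∨
            C.act (QuotientGroup.mk a) t = addPt t v := by
          rcases hX.cases_conj e.1 heX i.1 hiX with c1 | c1
          · left
            have h := hrepa
            rw [show e * i * e⁻¹ = i from Subtype.ext c1] at h
            exact h.unique hs ht
          · right
            have h := hrepa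
            rw [show e * i * e⁻¹ = s * i from Subtype.ext c1] at h
            rw [addPt_comm]
            exact h.unique hs (Coords.Rep.mul hs C hsv ht)
        rcases hat with hat | hat <;> rcases hcn.pair hs ht with e0 | e0
        · left; rw [e0, canon_conj hs C hax, hat]
        · left
          rw [e0, show a * (canon C t * zH z) * a⁻¹ = a * canon C t * a⁻¹ * (a * zH z * a⁻¹) by group,
            conj_zH, canon_conj hs C hax, hat]
        · right
          rw [e0, canon_conj hs C hax, hat, canon_mul hs C horth, ← hsdef, ← e0, hc0]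
        · right
          rw [e0, show a * (canon C t * zH z) * a⁻¹ = a * canon C t * a⁻¹ * (a * zH z * a⁻¹) by group,
            conj_zH, canon_conj hs C hax, hat, canon_mul hs C horth, ← hsdef]
          rw [e0] at hc0
          rw [hc0, mul_assoc, mul_assoc, zH_comm s]
      have hfour : ¬ (s * i = i * zH z) ∧ ¬ (s * i = i) := by
        refine ⟨fun h => hne ?_, fun h => ?_⟩
        · rw [zH_comm] at h
          exact mul_right_cancel h
        · have : s = 1 := mul_eq_right.1 h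
          exact hv4.singular.1 ((hsv.zero_iff hs).2 (Or.inl this))
      have hpair := (ht.conj hs a).pair hs hrepa
      rcases hca with ea | ea <;> rcases hX.cases_conj e.1 heX i.1 hiX with c1 | c1
      · rw [ea, show e * i * e⁻¹ = i from Subtype.ext c1]
      · rw [ea, show e * i * e⁻¹ = s * i from Subtype.ext c1] at hpair
        rcases hpair with h | h
        · exact absurd h hfour.2
        · exact absurd h hfour.1
      · rw [ea, show e * i * e⁻¹ = i from Subtype.ext c1] at hpair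
        rcases hpair with h | h
        · exact absurd h.symm hfour.2
        · refine absurd ?_ hfour.1
          calc s * i = s * i * zH z * zH z := by rw [mul_assoc _ (zH z), zH_sq hs, mul_one]
            _ = i * zH z := by rw [← h]
      · rw [ea, show e * i * e⁻¹ = s * i from Subtype.ext c1]
    refine congrArg Subtype.val (?_ : a * e⁻¹ * i = i * (a * e⁻¹))
    refine mul_inv_eq_iff_eq_mul.1 ?_
    have he' : e⁻¹ * i * e = i * (i⁻¹ * (e⁻¹ * i * e)) := by group
    calc a * e⁻¹ * i * (a * e⁻¹)⁻¹ = a * (e⁻¹ * i * e) * a⁻¹ := by group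
      _ = e * (e⁻¹ * i * e) * e⁻¹ := by
        rw [he']
        -- `e⁻¹ i e` is `i` or `s i`, both treated alike
        rcases hX.cases_conj e⁻¹.1 (Subgroup.inv_mem _ heX) i.1 hiX with c1 | c1
        · rw [show e⁻¹ * i * e = i from by
            refine Subtype.ext ?_
            simpa using c1]
          rw [show i * (i⁻¹ * i) = i by group, hconj_eq]
        · rw [show e⁻¹ * i * e = s * i from by
            refine Subtype.ext ?_
            simpa using c1]
          rw [show i * (i⁻¹ * (s * i)) = s * i by group,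
            show a * (s * i) * a⁻¹ = (a * s * a⁻¹) * (a * i * a⁻¹) by group, has, hconj_eq,
            show e * (s * i) * e⁻¹ = (e * s * e⁻¹) * (e * i * e⁻¹) by group,
            show e * s * e⁻¹ = s from
              Subtype.ext (mul_inv_eq_iff_eq_mul.2 (hX.comm e.1 heX))]
      _ = i := by group
  obtain ⟨-, haX⟩ := meet_maximal hs C hv' (Or.inl ⟨a * e⁻¹, hq, rfl⟩) hall
  have haX' : a.1 ∈ QG' Q g := by
    have := Subgroup.mul_mem _ haX heX
    simpa using this
  have hsq : a * a = 1 ∨ a * a = s := (hX.sq a.1 haX').imp Subtype.ext Subtype.ext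
  rcases hsq with h | h
  · exact h
  · exfalso
    rcases radLift_inter hs C (mul_mem ha ha) (h ▸ hsv.mem hs) with h' | h'
    · exact hX.ne_one (by rw [← h, h']; rfl)
    · exact hne (h ▸ h')

end CfsgLib.LargeFischer.Base
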