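import Cfsg.Agent.Lib.LargeFischer.Base.Fusion
import Cfsg.Agent.Lib.LargeFischer.Base.Choose
import Cfsg.Agent.Lib.LargeFischer.Base.Assembly

/-!
Large Fischer type: the labelling of the elementary abelian subgroup of order `2 ^ 11` by the
duads of 24 points.
-/

set_option autoImplicit false
set_option linter.unusedSectionVars false

namespace CfsgLib.LargeFischer.Base

variable {G : Type*} [Group G] [Finite G] {z : G}
  {Q : Subgroup ↥(Subgroup.centralizer ({z} : Set G))} [Q.Normal]
  (hs : Cfsg.IsExtraspecialCentralizerSetting z Q 6) {C : Coords z Q} (hc : C.ClassData 0)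
include hs hc

/-- Coordinates in which the non-conjugates of `z` are the fixed set. -/
theorem exists_good_lifts : ∃ L : Lifts C, ∀ n < 2048, NonZ L n ↔ tMask.testBit n = true :=
  exists_lifts_tMask hs hc
    (fun L _ hp1 hp2 => card_layerT hs hc L (baseA_controls hs hc) (card_orbN_z hs hc) hp1 hp2)
    (fun L _ _ ha hb hA hB => mconj_nonZ hs hc L (baseA_controls hs hc) (card_orbN_z hs hc)
      (fun _ hx hx1 => dvd_orbN hs hc hx hx1) ha hb hA hB)

/-- The labelling. -/
theorem exists_layer_baseA : ∃ Lay : CfsgLib.FischerLarge.U62.Layer z (QG Q), Lay.A = baseA C := by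
  obtain ⟨L, hL⟩ := exists_good_lifts hs hc
  obtain ⟨Lay, h, -⟩ := exists_layer hs hc L hL (card_orbN_z hs hc)
  exact ⟨Lay, h⟩

end CfsgLib.LargeFischer.Base
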