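import Cfsg.Agent.Lib.LargeFischer.Base.Radical
import Cfsg.Agent.Lib.LargeFischer.Conjugates

/-!
Large Fischer type: the pointwise stabiliser of the singular 3-space in the linear part, and an
element of `H/Q` acting as a field automorphism on a basis.
-/

set_option autoImplicit false
set_option linter.unusedSectionVars false
set_option linter.style.haveILetI false

namespace CfsgLib.LargeFischer.Base

open Orbits

/-- The transposition of the first two coordinates. -/
def swapP : Equiv.Perm Pt :=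
  Equiv.arrowCongr (Equiv.swap (0 : Fin 6) 1) (Equiv.refl (Option (ZMod 3)))

theorem swapP_apply (v : Pt) (i : Fin 6) : swapP v i = v (Equiv.swap 0 1 i) := by
  simp [swapP, Equiv.arrowCongr]

/-- The field automorphism in coordinates. -/
def conjP : Equiv.Perm Pt where
  toFun v i := (v i).map (- ·)
  invFun v i := (v i).map (- ·)
  left_inv v := by funext i; rcases hv : v i with _ | e <;> simp [hv]
  right_inv v := by funext i; rcases hv : v i with _ | e <;> simp [hv]

theorem conjP_apply (v : Pt) (i : Fin 6) : conjP v i = (v i).map (- ·) := rfl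

theorem supp_conjP (v : Pt) : supp (conjP v) = supp v := by
  ext i
  rw [mem_supp, mem_supp, conjP_apply]
  simp

theorem total_conjP (v : Pt) : total (conjP v) = - total v := by
  rw [total, total, ← Finset.sum_neg_distrib]
  refine Finset.sum_congr rfl fun i _ => ?_
  rw [conjP_apply]
  rcases v i with _ | e <;> simp

theorem conjP_inTwo (v : Pt) : InTwo 0 (conjP v) ↔ InTwo 0 v := by
  simp only [InTwo, wt, supp_conjP, total_conjP, neg_eq_zero]

theorem conjP_addPt (u w : Pt) : conjP (addPt u w) = addPt (conjP u) (conjP w) := by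
  funext i
  have h : ∀ a b : Option (ZMod 3), (addCoord a b).map (- ·) =
      addCoord (a.map (- ·)) (b.map (- ·)) := by decide
  exact h _ _

theorem conjP_shift (v : Pt) :
    conjP (shift (fun _ => 1) v) = shift (fun _ => -1) (conjP v) := by
  funext i
  rcases hv : v i with _ | e <;> simp [conjP_apply, shift, hv, neg_add, add_comm]

theorem supp_swapP (v : Pt) : supp (swapP v) = (supp v).image (Equiv.swap 0 1) := by
  ext j
  obtain ⟨i, rfl⟩ := (Equiv.swap (0 : Fin 6) 1).surjective j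
  rw [(Equiv.swap (0 : Fin 6) 1).injective.mem_finset_image, mem_supp, mem_supp, swapP_apply,
    Equiv.swap_apply_self]

theorem swapP_mem : swapP ∈ isoGroup := by
  have hwt : ∀ v, wt (swapP v) = wt v := fun v => by
    rw [wt, supp_swapP, Finset.card_image_of_injective _ (Equiv.injective _), ← wt]
  have htot : ∀ v, total (swapP v) = total v := fun v => by
    rw [total, total]
    simp only [swapP_apply]
    exact Equiv.sum_comp (Equiv.swap (0 : Fin 6) 1) fun i => (v i).getD 0
  refine ⟨fun u w => ?_, fun v => ?_, fun v => ?_, fun v => ?_⟩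
  · funext i; simp [swapP_apply, addPt]
  · funext i; simp [swapP_apply, shift]
  · simp only [InTwo, hwt, htot]
  · rw [hwt]

/-- A singular vector of the longer class fixed by the transposition. -/
theorem swapP_fix : swapP (fun i => if i.val = 5 then some (1 : ZMod 3) else some 0) =
    (fun i => if i.val = 5 then some (1 : ZMod 3) else some 0) := by decide

theorem centralising_perm : ∀ τ : Equiv.Perm (Fin 6),
    τ * Equiv.swap 0 1 * Equiv.swap 1 2 = Equiv.swap 0 1 * Equiv.swap 1 2 * τ →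
    τ * Equiv.swap 2 3 * Equiv.swap 3 4 = Equiv.swap 2 3 * Equiv.swap 3 4 * τ →
    τ * Equiv.swap 3 4 * Equiv.swap 4 5 = Equiv.swap 3 4 * Equiv.swap 4 5 * τ →
    τ = 1 := by decide +kernel

theorem three_cycles_even : Equiv.swap (0 : Fin 6) 1 * Equiv.swap 1 2 ∈ alternatingGroup (Fin 6) ∧
    Equiv.swap (2 : Fin 6) 3 * Equiv.swap 3 4 ∈ alternatingGroup (Fin 6) ∧
    Equiv.swap (3 : Fin 6) 4 * Equiv.swap 4 5 ∈ alternatingGroup (Fin 6) := by
  simp only [Equiv.Perm.mem_alternatingGroup]
  decide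

variable {G : Type*} [Group G] [Finite G] {z : G}
  {Q : Subgroup ↥(Subgroup.centralizer ({z} : Set G))} [Q.Normal]
  (hs : Cfsg.IsExtraspecialCentralizerSetting z Q 6) (C : Coords z Q) (hc : C.ClassData 0)
include hs hc

/-- The transposition does not come from `H/Q`. -/
theorem swapP_not_image : ∀ γ, C.act γ ≠ swapP := by
  classical
  intro γ hγ
  set v : Pt := fun i => if i.val = 5 then some (1 : ZMod 3) else some 0 with hv
  have hv4 : InFour 0 v := Or.inr (by rw [hv]; decide)
  obtain ⟨g, ⟨hgH, hgQ⟩, hne⟩ := hs.2.2.2.2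
  obtain ⟨v0, hv0⟩ := exists_meetData hs C hc g ⟨g * z * g⁻¹, hgH⟩ hgQ rfl
    (fun e => hne (congrArg Subtype.val e))
  obtain ⟨δ, hδ⟩ := hc.four_trans v0 v hv0.inFour hv4
  -- a normal 2-subgroup of order 32 in the stabiliser of `v`
  have hfix : fixImage Q (g * z * g⁻¹) = C.stab v0 := hv0.fix_eq
  have hnorm : ∀ a ∈ C.stab v0, ∀ e ∈ meetImage Q g, a * e * a⁻¹ ∈ meetImage Q g := by
    intro a ha
    exact hv0.normal a (hv0.fix_eq ▸ ha)
  have hle : meetImage Q g ≤ C.stab v0 := by rw [← hfix]; exact hv0.le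
  let E := (meetImage Q g).map (MulAut.conj δ).toMonoidHom
  have hEle : E ≤ C.stab v := by
    rintro _ ⟨e, he, rfl⟩
    rw [C.mem_stab]
    have hs' : (C.act δ).symm v = v0 := by rw [Equiv.symm_apply_eq, hδ]
    have he' : C.act e v0 = v0 := hle he
    simp [MulAut.conj_apply, hs', he', hδ]
  have hEn : ∀ a ∈ C.stab v, ∀ e ∈ E, a * e * a⁻¹ ∈ E := by
    rintro a ha _ ⟨e, he, rfl⟩
    refine ⟨δ⁻¹ * a * δ * e * (δ⁻¹ * a * δ)⁻¹, hnorm _ ?_ e he, by simp [MulAut.conj_apply, mul_assoc]⟩
    have ha' : C.act a v = v := ha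
    rw [C.mem_stab, C.act_mul_apply, C.act_mul_apply, hδ, ha', C.act_inv_apply hδ]
  have hEc : Nat.card E = 32 :=
    (Subgroup.card_map_of_injective (MulAut.conj δ).injective).trans hv0.card_meetImage
  have hE2 : ∀ e ∈ E, e * e = 1 := by
    rintro _ ⟨e, he, rfl⟩
    rw [← map_mul, ← pow_two, hv0.elem.2 e he, map_one]
  -- a complement
  obtain ⟨e6⟩ := Coords.equiv_six (d := 1) hc
  obtain ⟨σ₀, hσ₀, hσv⟩ : ∃ σ ∈ C.P, C.act σ (vSix 1) = v := by
    refine Coords.exists_P_eq hc ?_ (by rw [wt_vSix]; norm_num) (Or.inr ?_)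
    · rw [wt_vSix, hv]; decide
    · rw [total_vSix, hv]; decide
  let K := C.stab v ⊓ C.P
  have eK : ↥(C.stab (vSix 1) ⊓ C.P) ≃* K := by
    refine ((C.stab (vSix 1) ⊓ C.P).equivMapOfInjective (MulAut.conj σ₀).toMonoidHom
      (MulAut.conj σ₀).injective).trans (MulEquiv.subgroupCongr ?_)
    ext a
    constructor
    · rintro ⟨b, ⟨hb1, hb2⟩, rfl⟩
      refine Subgroup.mem_inf.2 ⟨?_, C.P.mul_mem (C.P.mul_mem hσ₀ hb2) (C.P.inv_mem hσ₀)⟩
      rw [C.mem_stab]
      have hs' : (C.act σ₀).symm v = vSix 1 := by rw [Equiv.symm_apply_eq, hσv]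
      have hb' : C.act b (vSix 1) = vSix 1 := hb1
      simp [MulAut.conj_apply, hs', hb', hσv]
    · rintro ⟨ha1, ha2⟩
      refine ⟨σ₀⁻¹ * a * σ₀,
        Subgroup.mem_inf.2 ⟨?_, C.P.mul_mem (C.P.mul_mem (C.P.inv_mem hσ₀) ha2) hσ₀⟩,
        by simp [MulAut.conj_apply, mul_assoc]⟩
      have ha' : C.act a v = v := ha1
      rw [C.mem_stab, C.act_mul_apply, C.act_mul_apply, hσv, ha', C.act_inv_apply hσv]
  have hKc : Nat.card K = 360 :=
    (Nat.card_congr (eK.symm.trans e6).toEquiv).trans card_alt_six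
  haveI : (E.subgroupOf (C.stab v)).Normal := ⟨fun e he a => hEn a a.2 e.1 he⟩
  haveI : Fact (Nat.Prime 2) := ⟨Nat.prime_two⟩
  have hp : IsPGroup 2 E := fun e => ⟨1, by
    rw [pow_one, pow_two]; exact Subtype.ext (hE2 e.1 e.2)⟩
  have hbot : E ⊓ K = ⊥ := NoTwoCore.inf_eq_bot inf_le_left hEn hp
    (noTwoCore_alt.congr (e6.symm.trans eK))
  -- `γ` is a product
  have hγv : γ ∈ C.stab v := by rw [C.mem_stab, hγ]; exact swapP_fix
  let f := (QuotientGroup.mk' (E.subgroupOf (C.stab v))).comp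
    (Subgroup.inclusion (inf_le_left : K ≤ C.stab v))
  have hf : Function.Surjective f := by
    refine ((Nat.bijective_iff_injective_and_card f).2 ⟨?_, ?_⟩).2
    · refine (injective_iff_map_eq_one f).2 fun k hk => ?_
      have h1 : k.1 ∈ E :=
        (QuotientGroup.eq_one_iff (Subgroup.inclusion (inf_le_left : K ≤ C.stab v) k)).1 hk
      have h2 : k.1 ∈ E ⊓ K := ⟨h1, k.2⟩
      rw [hbot, Subgroup.mem_bot] at h2
      exact Subtype.ext h2
    · have h' := Subgroup.card_eq_card_quotient_mul_card_subgroup (E.subgroupOf (C.stab v))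
      rw [hc.four_card v hv4, Nat.card_congr (Subgroup.subgroupOfEquivOfLe hEle).toEquiv, hEc] at h'
      rw [hKc]
      omega
  obtain ⟨⟨k, hkv, hkP⟩, hk⟩ := hf (QuotientGroup.mk ⟨γ, hγv⟩)
  have hk' : (Subgroup.inclusion (inf_le_left : K ≤ C.stab v) ⟨k, hkv, hkP⟩)⁻¹ * ⟨γ, hγv⟩ ∈
      E.subgroupOf (C.stab v) := QuotientGroup.eq.1 hk
  have hεE : k⁻¹ * γ ∈ E := hk'
  obtain ⟨σ, hσ, a, ha⟩ := C.P_mono k hkP
  have hεm : C.Mono (k⁻¹ * γ) (σ⁻¹ * Equiv.swap 0 1)
      (fun i => - a (σ⁻¹ (Equiv.swap 0 1 i))) := by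
    intro u i
    rw [Equiv.Perm.mul_apply, C.act_mul_apply, hγ]
    have h := ha (C.act k⁻¹ (swapP u)) (σ⁻¹ (Equiv.swap 0 1 i))
    rw [← C.act_mul_apply, mul_inv_cancel, map_one, Equiv.Perm.one_apply,
      Equiv.Perm.coe_inv, Equiv.apply_symm_apply, swapP_apply, Equiv.swap_apply_self] at h
    rw [Equiv.Perm.coe_inv, h]
    rcases hx : C.act k⁻¹ (swapP u) (σ.symm (Equiv.swap 0 1 i)) with _ | e <;> simp [hx]
  set τ := σ⁻¹ * Equiv.swap (0 : Fin 6) 1 with hτ
  have hcomm : ∀ ρ ∈ alternatingGroup (Fin 6), τ * ρ = ρ * τ := by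
    intro ρ hρ
    -- an element of `K` inducing `ρ`
    obtain ⟨δ₀, hδ₀, hδm⟩ := exists_mono C hc ρ hρ 0 (by simp)
    obtain ⟨ρ', hρ', hρeq⟩ : ∃ δ ∈ K, ∃ b, C.Mono δ ρ b := by
      -- correct by a translation
      let u := C.act δ₀ v
      have husupp : supp u = supp v := by
        show supp (C.act δ₀ v) = _
        have h5 : supp v = Finset.univ := by rw [hv]; decide
        rw [Coords.Mono.supp_eq hδm, h5]
        exact Finset.image_univ_equiv ρ
      have hut : total u = total v := by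
        show total (C.act δ₀ v) = _
        rw [Coords.Mono.total_eq hδm (by rw [hv]; decide)]
        simp
      obtain ⟨b, hb, hbv⟩ := exists_shift_eq_zero husupp (Or.inr hut)
      obtain ⟨η, hη, hηs⟩ := C.P_diag b hb
      refine ⟨η * δ₀, Subgroup.mem_inf.2 ⟨?_, C.P.mul_mem hη hδ₀⟩, fun i => (0 : Fin 6 → ZMod 3) i + b (ρ i), ?_⟩
      · show C.act (η * δ₀) v = v
        rw [C.act_mul_apply, hηs, hbv]
      · have hη1 : C.Mono η 1 b := fun v i => by rw [hηs]; rfl
        simpa using Coords.Mono.mul hη1 hδm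
    obtain ⟨b, hb⟩ := hρeq
    have h1 : (k⁻¹ * γ) * ρ' * (k⁻¹ * γ)⁻¹ * ρ'⁻¹ ∈ E := by
      have h' := hEn ρ' hρ'.1 _ (inv_mem hεE)
      have := mul_mem hεE h'
      simpa [mul_assoc] using this
    have hmul := Coords.Mono.mul hεm hb
    have hmem : (k⁻¹ * γ) * ρ' * (k⁻¹ * γ)⁻¹ ∈ C.stab v ⊓ C.P := by
      have hεv := hEle hεE
      refine Subgroup.mem_inf.2
        ⟨(C.stab v).mul_mem ((C.stab v).mul_mem hεv hρ'.1) ((C.stab v).inv_mem hεv), ?_⟩
      -- it is monomial with even permutation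
      have hinv : C.Mono (k⁻¹ * γ)⁻¹ τ⁻¹ (fun j => - (fun i => - a (σ⁻¹ (Equiv.swap 0 1 i))) (τ⁻¹ j)) := by
        intro u i
        have h := hεm (C.act (k⁻¹ * γ)⁻¹ u) (τ⁻¹ i)
        rw [← C.act_mul_apply, mul_inv_cancel, map_one, Equiv.Perm.one_apply,
          Equiv.Perm.coe_inv, Equiv.apply_symm_apply] at h
        rw [h, Equiv.Perm.coe_inv]
        rcases hx : C.act (k⁻¹ * γ)⁻¹ u (τ.symm i) with _ | e <;> simp [hx]
      have hm3 := Coords.Mono.mul hmul hinv
      have heven : τ * ρ * τ⁻¹ ∈ alternatingGroup (Fin 6) := by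
        rw [Equiv.Perm.mem_alternatingGroup, map_mul, map_mul, map_inv,
          Equiv.Perm.mem_alternatingGroup.1 hρ, mul_one, mul_inv_cancel]
      obtain ⟨η, hη, hηm⟩ := exists_mono C hc _ heven _ (Coords.P_sum hc hm3)
      have : (k⁻¹ * γ) * ρ' * (k⁻¹ * γ)⁻¹ = η := by
        refine C.act_injective (Equiv.ext fun u => funext fun j => ?_)
        obtain ⟨i, rfl⟩ := (τ * ρ * τ⁻¹).surjective j
        rw [hm3 u i, hηm u i]
      rw [this]
      exact hη
    have h2 : (k⁻¹ * γ) * ρ' * (k⁻¹ * γ)⁻¹ * ρ'⁻¹ ∈ E ⊓ K :=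
      Subgroup.mem_inf.2 ⟨h1, K.mul_mem hmem (K.inv_mem hρ')⟩
    rw [hbot, Subgroup.mem_bot, mul_inv_eq_one, mul_inv_eq_iff_eq_mul] at h2
    have h3 : C.Mono ((k⁻¹ * γ) * ρ') (ρ * τ) _ := h2 ▸ Coords.Mono.mul hb hεm
    exact Coords.Mono.perm_unique hmul h3
  obtain ⟨c1, c2, c3⟩ := three_cycles_even
  have hτ1 : τ = 1 := centralising_perm τ (by rw [mul_assoc]; exact hcomm _ c1)
    (by rw [mul_assoc]; exact hcomm _ c2) (by rw [mul_assoc]; exact hcomm _ c3)
  have := congrArg Equiv.Perm.sign hτ1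
  rw [hτ, map_mul, map_inv, Equiv.Perm.mem_alternatingGroup.1 hσ, Equiv.Perm.sign_swap (by decide),
    map_one] at this
  exact absurd this (by decide)

/-- An isometry is induced, or is an induced one times the transposition. -/
theorem image_or_swap {g : Equiv.Perm Pt} (hg : g ∈ isoGroup) :
    g ∈ C.linPart.map C.act ∨ g * swapP ∈ C.linPart.map C.act := by
  set S := C.linPart.map C.act with hS
  have h : (S.subgroupOf isoGroup).index ≤ 2 := index_linPart_le hs C hc
  have h0 : (S.subgroupOf isoGroup).index ≠ 0 := Subgroup.index_ne_zero_of_finite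
  rcases (show (S.subgroupOf isoGroup).index = 1 ∨ (S.subgroupOf isoGroup).index = 2 by omega)
    with h1 | h1
  · exfalso
    have hmem : (⟨swapP, swapP_mem⟩ : isoGroup) ∈ S.subgroupOf isoGroup := by
      rw [Subgroup.index_eq_one.1 h1]; trivial
    obtain ⟨γ, -, hγ⟩ := Subgroup.mem_map.1 hmem
    exact swapP_not_image hs C hc γ hγ
  · by_cases hgS : g ∈ S
    · exact Or.inl hgS
    · refine Or.inr ?_
      have hsw : (⟨swapP, swapP_mem⟩ : isoGroup) ∉ S.subgroupOf isoGroup := by
        intro hmem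
        obtain ⟨γ, -, hγ⟩ := Subgroup.mem_map.1 hmem
        exact swapP_not_image hs C hc γ hγ
      have := (Subgroup.mul_mem_iff_of_index_two h1 (a := ⟨g, hg⟩) (b := ⟨swapP, swapP_mem⟩)).2
        ⟨fun e => absurd e hgS, fun e => absurd e hsw⟩
      exact this

omit hs hc in
theorem cand_fix_counts :
    ((cand [5, 80, 1280] 640).length = 8 ∧ (cand [640, 5, 80, 1280] 40).length = 2 ∧
    (cand [40, 640, 5, 80, 1280] 3423).length = 2) ∧
    (([([5, 80, 1280], 640), ([640, 5, 80, 1280], 40), ([40, 640, 5, 80, 1280], 3423)] :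
      List (List Nat × Nat)).all (fun p => shortN p.2 && !((spanN p.1).contains p.2)) = true) ∧
    (bitsN.all (fun n => (spanN [3423, 40, 640, 5, 80, 1280]).contains n) = true) := by
  decide +kernel

omit hs hc in
theorem card_fixW_le : Nat.card (fixer [5, 80, 1280]) ≤ 32 := by
  obtain ⟨⟨n1, n2, n3⟩, hall, hspan⟩ := cand_fix_counts
  have hS := List.all_eq_true.1 hall
  simp only [Bool.and_eq_true, Bool.not_eq_true', List.contains_eq_mem,
    decide_eq_false_iff_not] at hS
  have h1 := card_fixer_le [5, 80, 1280] 640 (by simp) (by norm_num)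
    (hS ([5, 80, 1280], 640) (by simp)).1 (hS ([5, 80, 1280], 640) (by simp)).2
  have h2 := card_fixer_le [640, 5, 80, 1280] 40 (by simp) (by norm_num)
    (hS ([640, 5, 80, 1280], 40) (by simp)).1 (hS ([640, 5, 80, 1280], 40) (by simp)).2
  have h3 := card_fixer_le [40, 640, 5, 80, 1280] 3423 (by simp) (by norm_num)
    (hS ([40, 640, 5, 80, 1280], 3423) (by simp)).1 (hS ([40, 640, 5, 80, 1280], 3423) (by simp)).2
  rw [n1] at h1; rw [n2] at h2; rw [n3] at h3
  have h7 : Nat.card (fixer [3423, 40, 640, 5, 80, 1280]) = 1 := by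
    rw [Subgroup.card_eq_one, eq_bot_iff]
    intro g hg
    rw [Subgroup.mem_bot]
    refine Equiv.ext fun v => enc_injective ?_
    have key := eq_of_bits (f := fun n => enc (g (dec n))) (g := fun n => enc (dec n))
      (fun a b => by simp only [dec_xor, hg.1.1, enc_addPt])
      (fun a b => by simp only [dec_xor, enc_addPt])
      (fun b hb => by
        rw [fix_span hg b (by simpa using List.all_eq_true.1 hspan b hb)])
      (enc v) (enc_lt v)
    simpa [dec_enc] using key
  rw [h7] at h3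
  omega

/-- A linear element fixing the 3-space pointwise is one of the sixteen maps. -/
theorem fix_W {γ : ↥(Subgroup.centralizer ({z} : Set G)) ⧸ Q} (hγ : γ ∈ C.linPart)
    (h5 : C.act γ (dec 5) = dec 5) (h80 : C.act γ (dec 80) = dec 80)
    (h1280 : C.act γ (dec 1280) = dec 1280) : ∃ p, C.act γ = rP p := by
  classical
  by_contra hno
  push Not at hno
  set S := C.linPart.map C.act with hS
  have hrfix : ∀ p, rP p ∈ fixer [5, 80, 1280] := by
    have hk : ∀ p : Fin 16, appN (rImg p) 5 = 5 ∧ appN (rImg p) 80 = 80 ∧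
        appN (rImg p) 1280 = 1280 := by decide +kernel
    intro p
    refine (⟨rP_mem_isoGroup p, fun b hb => ?_⟩ :
      rP p ∈ isoGroup ∧ ∀ b ∈ ([5, 80, 1280] : List Nat), rP p (dec b) = dec b)
    simp only [List.mem_cons, List.not_mem_nil, or_false] at hb
    have hlt : b < 4096 := by omega
    refine enc_injective ?_
    rw [enc_rP, enc_dec b hlt]
    rcases hb with rfl | rfl | rfl
    exacts [(hk p).1, (hk p).2.1, (hk p).2.2]
  have hsw : swapP ∈ fixer [5, 80, 1280] := by
    refine (⟨swapP_mem, fun b hb => ?_⟩ :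
      swapP ∈ isoGroup ∧ ∀ b ∈ ([5, 80, 1280] : List Nat), swapP (dec b) = dec b)
    simp only [List.mem_cons, List.not_mem_nil, or_false] at hb
    rcases hb with rfl | rfl | rfl <;> decide +kernel
  have hg : C.act γ ∈ fixer [5, 80, 1280] := by
    refine (⟨map_linPart_le hs C hc ⟨γ, hγ, rfl⟩, fun b hb => ?_⟩ :
      C.act γ ∈ isoGroup ∧ ∀ b ∈ ([5, 80, 1280] : List Nat), C.act γ (dec b) = dec b)
    simp only [List.mem_cons, List.not_mem_nil, or_false] at hb
    rcases hb with rfl | rfl | rfl <;> assumption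
  have hrS : ∀ p, rP p ∈ S := fun p => by
    obtain ⟨δ, hδ, e⟩ := exists_rad C hs hc p
    exact ⟨δ, hδ, e⟩
  have hgS : C.act γ ∈ S := ⟨γ, hγ, rfl⟩
  -- thirty-three elements
  let F : Option (Fin 16 × Bool) → fixer [5, 80, 1280] := fun o => match o with
    | none => ⟨C.act γ, hg⟩
    | some (p, false) => ⟨rP p, hrfix p⟩
    | some (p, true) => ⟨rP p * swapP, mul_mem (hrfix p) hsw⟩
  have hnotS : ∀ g ∈ S, g * swapP ∉ S := fun g hg' h' => by
    have := mul_mem (inv_mem hg') h'
    rw [inv_mul_cancel_left] at this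
    obtain ⟨δ, -, e⟩ := Subgroup.mem_map.1 this
    exact swapP_not_image hs C hc δ e
  have hp : ∀ p q, rP p = rP q → p = q := by
    intro p q hpq
    have h : ∀ p q : Fin 16, (bitsN.all fun b => appN (rImg p) b == appN (rImg q) b) = true → p = q := by
      decide +kernel
    refine h p q (List.all_eq_true.2 fun b hb => ?_)
    have hlt : b < 4096 := by simp [bitsN] at hb; omega
    have := congrArg (fun g => enc (g (dec b))) hpq
    simp only [enc_rP, enc_dec b hlt] at this
    simp [this]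
  have hF : Function.Injective F := by
    rintro (_ | ⟨p, _ | _⟩) (_ | ⟨q, _ | _⟩) h <;> have h' := congrArg Subtype.val h <;>
      simp only [F] at h'
    · rfl
    · exact absurd h' (hno q)
    · exact absurd (h' ▸ hgS) (hnotS _ (hrS q))
    · exact absurd h'.symm (hno p)
    · rw [hp p q h']
    · exact absurd (h' ▸ hrS p) (hnotS _ (hrS q))
    · exact absurd (h' ▸ hgS) (hnotS _ (hrS p))
    · exact absurd (h'.symm ▸ hrS q) (hnotS _ (hrS p))
    · rw [hp p q (mul_right_cancel h')]
  have h := Nat.card_le_card_of_injective F hF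
  have hle := card_fixW_le
  simp [Nat.card_eq_fintype_card] at h
  rw [← Nat.card_eq_fintype_card] at h
  omega

/-- An element inverting the scalars and acting as a field automorphism, possibly followed by
the transposition of the first two coordinates. -/
theorem exists_conjAut : ∃ γ, C.act γ = conjP ∨ C.act γ = conjP * swapP := by
  obtain ⟨γ₀, hγ₀⟩ := exists_inverts hs C
  have hg : C.act γ₀ * conjP ∈ isoGroup := by
    have hneg : ∀ v, C.act γ₀ (shift (fun _ => -1) v) = shift (fun _ => 1) (C.act γ₀ v) := by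
      intro v
      rw [shift_neg_one v, hγ₀, hγ₀, shift_neg_neg]
    refine ⟨fun u w => ?_, fun v => ?_, fun v => ?_, fun v => ?_⟩
    · simp only [Equiv.Perm.mul_apply, conjP_addPt, act_addPt hs C]
    · simp only [Equiv.Perm.mul_apply, conjP_shift, hneg]
    · simp only [Equiv.Perm.mul_apply]
      rw [← conjP_inTwo v]
      refine ⟨fun h => ?_, hc.two_act _ _⟩
      have h' := hc.two_act γ₀⁻¹ _ h
      rwa [C.act_inv_apply rfl] at h'
    · simp only [Equiv.Perm.mul_apply]
      rw [even_act hs C, wt, supp_conjP, ← wt]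
  rcases image_or_swap hs C hc hg with h | h <;> obtain ⟨δ, -, e⟩ := Subgroup.mem_map.1 h
  · exact ⟨γ₀⁻¹ * δ, Or.inl (by rw [map_mul, map_inv, e]; group)⟩
  · exact ⟨γ₀⁻¹ * δ, Or.inr (by rw [map_mul, map_inv, e]; group)⟩

end CfsgLib.LargeFischer.Base
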