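import Cfsg.Agent.Lib.LargeFischer.Base.Stab

/-!
Large Fischer type: carrying the facts on the normaliser of an elementary abelian subgroup to a
conjugate subgroup.
-/

set_option autoImplicit false
set_option linter.unusedSectionVars false

namespace CfsgLib.LargeFischer.Base

open Cfsg
open scoped Pointwise

variable {G : Type*} [Group G] [Finite G]

theorem mem_map_conj {A₀ : Subgroup G} {g a : G} :
    a ∈ A₀.map (MulAut.conj g).toMonoidHom ↔ g⁻¹ * a * g ∈ A₀ := by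
  constructor
  · rintro ⟨b, hb, rfl⟩
    have e : g⁻¹ * (g * b * g⁻¹) * g = b := by group
    rwa [MulEquiv.coe_toMonoidHom, MulAut.conj_apply, e]
  · intro h
    refine ⟨_, h, ?_⟩
    rw [MulEquiv.coe_toMonoidHom, MulAut.conj_apply]
    group

theorem mem_normalizer_map_conj {A₀ : Subgroup G} {g m : G} :
    m ∈ Subgroup.normalizer ((A₀.map (MulAut.conj g).toMonoidHom : Subgroup G) : Set G) ↔
      g⁻¹ * m * g ∈ Subgroup.normalizer (A₀ : Set G) := by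
  simp only [Subgroup.mem_normalizer_iff, mem_map_conj]
  constructor
  · intro h b
    have h' := h (g * b * g⁻¹)
    rw [show g⁻¹ * (g * b * g⁻¹) * g = b by group,
      show g⁻¹ * (m * (g * b * g⁻¹) * m⁻¹) * g = g⁻¹ * m * g * b * (g⁻¹ * m * g)⁻¹ by group] at h'
    exact h'
  · intro h b
    rw [h (g⁻¹ * b * g),
      show g⁻¹ * m * g * (g⁻¹ * b * g) * (g⁻¹ * m * g)⁻¹ = g⁻¹ * (m * b * m⁻¹) * g by group]

theorem isConj_conj_iff {z a g : G} : IsConj z (g⁻¹ * a * g) ↔ IsConj z a := by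
  have h : IsConj (g⁻¹ * a * g) a := isConj_iff.2 ⟨g, by group⟩
  exact ⟨fun h' => h'.trans h, fun h' => h'.trans h.symm⟩

/-- Control of fusion and the orbits, for a conjugate subgroup. -/
theorem fusion_transfer (z : G) (A₀ : Subgroup G) (g : G)
    (hctl : ∀ a ∈ A₀, ∀ x : G, x * a * x⁻¹ ∈ A₀ →
      ∃ m ∈ Subgroup.normalizer (A₀ : Set G), m * a * m⁻¹ = x * a * x⁻¹)
    (h1 : ∃ a ∈ A₀, a ≠ 1 ∧ IsConj z a) (h2 : ∃ a ∈ A₀, a ≠ 1 ∧ ¬ IsConj z a)
    (horb : ∀ a ∈ A₀, ∀ b ∈ A₀, a ≠ 1 → b ≠ 1 → (IsConj z a ↔ IsConj z b) →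
      ∃ m ∈ Subgroup.normalizer (A₀ : Set G), m * a * m⁻¹ = b)
    (A : Subgroup G) (hA : A = A₀.map (MulAut.conj g).toMonoidHom) :
    (∀ a ∈ A, ∀ x : G, x * a * x⁻¹ ∈ A →
      ∃ m ∈ Subgroup.normalizer (A : Set G), m * a * m⁻¹ = x * a * x⁻¹) ∧
    (∃ a ∈ A, a ≠ 1 ∧ IsConj z a) ∧ (∃ a ∈ A, a ≠ 1 ∧ ¬ IsConj z a) ∧
    ∀ a ∈ A, ∀ b ∈ A, a ≠ 1 → b ≠ 1 → (IsConj z a ↔ IsConj z b) →
      ∃ m ∈ Subgroup.normalizer (A : Set G), m * a * m⁻¹ = b := by
  subst hA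
  have key : ∀ {k a b : G}, k ∈ Subgroup.normalizer (A₀ : Set G) →
      k * (g⁻¹ * a * g) * k⁻¹ = g⁻¹ * b * g →
      ∃ m ∈ Subgroup.normalizer ((A₀.map (MulAut.conj g).toMonoidHom : Subgroup G) : Set G),
        m * a * m⁻¹ = b := by
    intro k a b hk he
    refine ⟨g * k * g⁻¹, ?_, ?_⟩
    · rw [mem_normalizer_map_conj]
      simpa [mul_assoc] using hk
    · calc g * k * g⁻¹ * a * (g * k * g⁻¹)⁻¹ = g * (k * (g⁻¹ * a * g) * k⁻¹) * g⁻¹ := by group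
        _ = b := by rw [he]; group
  have hne : ∀ {a : G}, a ≠ 1 → g⁻¹ * a * g ≠ 1 := fun {a} ha e => ha (by
    have : a = g * (g⁻¹ * a * g) * g⁻¹ := by group
    rw [this, e]; group)
  refine ⟨fun a ha x hx => ?_, ?_, ?_, fun a ha b hb ha1 hb1 hiff => ?_⟩
  · obtain ⟨k, hk, he⟩ := hctl _ (mem_map_conj.1 ha) (g⁻¹ * x * g) (by
      have e : g⁻¹ * x * g * (g⁻¹ * a * g) * (g⁻¹ * x * g)⁻¹ = g⁻¹ * (x * a * x⁻¹) * g := by group
      rw [e]; exact mem_map_conj.1 hx)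
    exact key hk (he.trans (by group))
  · obtain ⟨a, ha, ha1, hc⟩ := h1
    refine ⟨g * a * g⁻¹, ⟨a, ha, rfl⟩, fun e => ha1 (conj_eq_one_iff.1 e), ?_⟩
    exact hc.trans (isConj_iff.2 ⟨g, rfl⟩)
  · obtain ⟨a, ha, ha1, hc⟩ := h2
    refine ⟨g * a * g⁻¹, ⟨a, ha, rfl⟩, fun e => ha1 (conj_eq_one_iff.1 e), fun h => hc ?_⟩
    exact h.trans (isConj_iff.2 ⟨g⁻¹, by group⟩)
  · obtain ⟨k, hk, he⟩ := horb _ (mem_map_conj.1 ha) _ (mem_map_conj.1 hb) (hne ha1) (hne hb1)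
      (by rw [isConj_conj_iff, isConj_conj_iff]; exact hiff)
    exact key hk he

/-- The normaliser of a conjugate maps onto `M24` in the same way. -/
theorem hom_transfer (A₀ : Subgroup G) (g : G)
    (ρ : ↥(Subgroup.normalizer (A₀ : Set G)) →* ↥Cfsg.M24) (hsurj : Function.Surjective ρ)
    (hker : ρ.ker = A₀.subgroupOf (Subgroup.normalizer (A₀ : Set G)))
    (A : Subgroup G) (hA : A = A₀.map (MulAut.conj g).toMonoidHom) :
    ∃ ρ' : ↥(Subgroup.normalizer (A : Set G)) →* ↥Cfsg.M24, Function.Surjective ρ' ∧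
      ρ'.ker = A.subgroupOf (Subgroup.normalizer (A : Set G)) ∧
      ∀ m : ↥(Subgroup.normalizer (A : Set G)), ∃ k : ↥(Subgroup.normalizer (A₀ : Set G)),
        (k : G) = g⁻¹ * m * g ∧ ρ' m = ρ k := by
  subst hA
  let e : ↥(Subgroup.normalizer ((A₀.map (MulAut.conj g).toMonoidHom : Subgroup G) : Set G)) →*
      ↥(Subgroup.normalizer (A₀ : Set G)) :=
    { toFun := fun m => ⟨g⁻¹ * m * g, mem_normalizer_map_conj.1 m.2⟩
      map_one' := Subtype.ext (by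
        show g⁻¹ * 1 * g = 1
        group)
      map_mul' := fun a b => Subtype.ext (by
        show g⁻¹ * ((a : G) * b) * g = g⁻¹ * a * g * (g⁻¹ * b * g)
        group) }
  refine ⟨ρ.comp e, fun σ => ?_, ?_, fun m => ⟨e m, rfl, rfl⟩⟩
  · obtain ⟨k, rfl⟩ := hsurj σ
    refine ⟨⟨g * k * g⁻¹, ?_⟩, congrArg ρ (Subtype.ext ?_)⟩
    · rw [mem_normalizer_map_conj]
      simp [mul_assoc]
    · show g⁻¹ * (g * k * g⁻¹) * g = k
      group
  · ext m
    rw [MonoidHom.mem_ker, MonoidHom.comp_apply, ← MonoidHom.mem_ker, hker,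
      Subgroup.mem_subgroupOf, Subgroup.mem_subgroupOf, mem_map_conj]
    rfl

/-- The stabiliser of a duad element in the normaliser of a conjugate. -/
theorem duad_transfer (z : G) (A₀ : Subgroup G) (g : G)
    (ev : Finset GolayPt → G)
    (ρ : ↥(Subgroup.normalizer (A₀ : Set G)) →* ↥Cfsg.M24) (hsurj : Function.Surjective ρ)
    (hker : ρ.ker = A₀.subgroupOf (Subgroup.normalizer (A₀ : Set G)))
    (hinj : ∀ p q r s : GolayPt, p ≠ q → r ≠ s → ev {p, q} = ev {r, s} →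
      ({p, q} : Finset GolayPt) = {r, s})
    (hclass : ∀ a ∈ A₀, a ≠ 1 → ¬ IsConj z a → ∃ p q : GolayPt, p ≠ q ∧ a = ev {p, q})
    (hconj : ∀ (k : ↥(Subgroup.normalizer (A₀ : Set G))) (p q : GolayPt), p ≠ q →
      (k : G) * ev {p, q} * (k : G)⁻¹ =
        ev {((ρ k : ↥Cfsg.M24) : Equiv.Perm GolayPt) p, ((ρ k : ↥Cfsg.M24) : Equiv.Perm GolayPt) q})
    (A M : Subgroup G) (hA : A = A₀.map (MulAut.conj g).toMonoidHom)
    (hM : M = Subgroup.normalizer (A : Set G)) (t : G) (htA : t ∈ A) (ht1 : t ≠ 1)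
    (ht : ¬ IsConj z t) :
    ∃ _ : (A.subgroupOf (M ⊓ Subgroup.centralizer ({t} : Set G))).Normal,
      Nonempty (↥(M ⊓ Subgroup.centralizer ({t} : Set G)) ⧸
        A.subgroupOf (M ⊓ Subgroup.centralizer ({t} : Set G)) ≃*
        ↥(Cfsg.M24 ⊓ MulAction.stabilizer (Equiv.Perm Cfsg.GolayPt)
          ({none, some 0} : Set Cfsg.GolayPt))) := by
  obtain ⟨ρ', hsurj', hker', hval⟩ := hom_transfer A₀ g ρ hsurj hker A hA
  have ht0 : g⁻¹ * t * g ∈ A₀ := mem_map_conj.1 (hA ▸ htA)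
  obtain ⟨p, q, hpq, hev⟩ := hclass _ ht0
    (fun e => ht1 (by
      have : t = g * (g⁻¹ * t * g) * g⁻¹ := by group
      rw [this, e]; group))
    (fun h => ht (isConj_conj_iff.1 h))
  subst hM
  refine duad_quotient _ A Subgroup.le_normalizer ρ' hsurj' hker' t p q hpq fun m => ?_
  obtain ⟨k, hk, hρ⟩ := hval m
  have e1 : (m : G) * t * (m : G)⁻¹ = t ↔
      (k : G) * (g⁻¹ * t * g) * (k : G)⁻¹ = g⁻¹ * t * g := by
    rw [hk, show g⁻¹ * (m : G) * g * (g⁻¹ * t * g) * (g⁻¹ * (m : G) * g)⁻¹ =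
      g⁻¹ * ((m : G) * t * (m : G)⁻¹) * g by group]
    exact ⟨fun h => by rw [h], fun h => by simpa using h⟩
  rw [e1, hev, hconj k p q hpq, hρ]
  set σ : Equiv.Perm GolayPt := ((ρ k : ↥Cfsg.M24) : Equiv.Perm GolayPt)
  have hset : (σ • ({p, q} : Set GolayPt)) = {σ p, σ q} := by
    rw [← Set.image_smul]
    simp [Set.image_pair, Equiv.Perm.smul_def]
  show ev {σ p, σ q} = ev {p, q} ↔ σ • ({p, q} : Set GolayPt) = {p, q}
  rw [hset]
  constructor
  · intro h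
    have h' := hinj _ _ _ _ (σ.injective.ne hpq) hpq h
    have := congrArg (fun S : Finset GolayPt => (S : Set GolayPt)) h'
    simpa using this
  · intro h
    have h' : ({σ p, σ q} : Finset GolayPt) = {p, q} := Finset.coe_injective (by simpa using h)
    rw [h']

end CfsgLib.LargeFischer.Base
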