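import Cfsg.Agent.Lib.LargeFischer.Base.Classes
import Cfsg.Agent.Lib.LargeFischer.Base.Arith
import Cfsg.Agent.Lib.LargeFischer.Base.Sylow
import Cfsg.Agent.Lib.LargeFischer.Base.Transfer

/-!
Large Fischer type: the normaliser of the elementary abelian subgroup of order `2 ^ 11` controls
fusion in it and has two orbits, of lengths `1771` and `276`, on its nonidentity elements.
-/

set_option autoImplicit false
set_option linter.unusedSectionVars false

namespace CfsgLib.LargeFischer.Base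

open CfsgLib.ExtraspecialLarge

variable {G : Type*} [Group G] [Finite G] {z : G}
  {Q : Subgroup ↥(Subgroup.centralizer ({z} : Set G))} [Q.Normal]
  (hs : Cfsg.IsExtraspecialCentralizerSetting z Q 6) {C : Coords z Q} (hc : C.ClassData 0)
include hs hc

/-- The normaliser controls fusion. -/
theorem baseA_controls : ∀ a ∈ baseA C, ∀ g : G, g * a * g⁻¹ ∈ baseA C →
    ∃ m ∈ Subgroup.normalizer (baseA C : Set G), m * a * m⁻¹ = g * a * g⁻¹ := by
  obtain ⟨T, hAT, -, huniq⟩ := exists_sylow_baseA hs C hc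
  exact normalizer_controls (baseA C) (elem_baseA hs C hc) (card_baseA hs C hc) T hAT
    fun B hB he hcard => huniq B hB he hcard.ge

/-- The length of the orbit of `z`. -/
theorem card_orbN_z : Nat.card (orbN C z) = 1771 :=
  card_orb_of_form (baseA C) (elem_baseA hs C hc) (card_baseA hs C hc)
    (centralizer_baseA hs C hc) z
    (orb_form hs hc (baseA_controls hs hc))

/-- Twenty-three divides every orbit length. -/
theorem dvd_orbN {a : G} (ha : a ∈ baseA C) (ha1 : a ≠ 1) : 23 ∣ Nat.card (orbN C a) :=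
  dvd_orb (baseA C) (elem_baseA hs C hc) (card_baseA hs C hc) (centralizer_baseA hs C hc) z
    (card_orbN_z hs hc) a ha ha1

/-- Two orbits. -/
theorem baseA_orbits : ∀ a ∈ baseA C, ∀ b ∈ baseA C, a ≠ 1 → b ≠ 1 →
    (IsConj z a ↔ IsConj z b) →
      ∃ m ∈ Subgroup.normalizer (baseA C : Set G), m * a * m⁻¹ = b :=
  two_orbits_baseA hs hc (baseA_controls hs hc) (card_orbN_z hs hc)
    fun _ ha ha1 => dvd_orbN hs hc ha ha1

/-- The conclusion for every conjugate. -/
theorem fusion_conj (g : G) (A : Subgroup G)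
    (hA : A = (baseA C).map (MulAut.conj g).toMonoidHom) :
    (∀ a ∈ A, ∀ x : G, x * a * x⁻¹ ∈ A →
      ∃ m ∈ Subgroup.normalizer (A : Set G), m * a * m⁻¹ = x * a * x⁻¹) ∧
    (∃ a ∈ A, a ≠ 1 ∧ IsConj z a) ∧ (∃ a ∈ A, a ≠ 1 ∧ ¬ IsConj z a) ∧
    ∀ a ∈ A, ∀ b ∈ A, a ≠ 1 → b ≠ 1 → (IsConj z a ↔ IsConj z b) →
      ∃ m ∈ Subgroup.normalizer (A : Set G), m * a * m⁻¹ = b := by
  refine fusion_transfer z (baseA C) g (baseA_controls hs hc)
    ⟨z, z_mem_baseA hs C hc, fun h => zH_ne_one hs (Subtype.ext h), IsConj.refl z⟩ ?_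
    (baseA_orbits hs hc) A hA
  obtain ⟨t, ht, ht1, htz⟩ := exists_nonconj hs C hc
  exact ⟨t, ht.1, ht1, htz⟩

end CfsgLib.LargeFischer.Base
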