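import Mathlib

/-!
Large Fischer type: certificate data for the fifteen layers of the coordinates: for each nonzero
index four vectors whose translations span the image, three coset representatives with vectors
flipping the bit of `z`, and for each line a word carrying a representative line to it.
-/

set_option autoImplicit false

namespace CfsgLib.LargeFischer.Base

/-- Four translating vectors for each index. -/
def blockVecs : List (List Nat) :=
  [[1, 2, 256, 512], [16, 32, 256, 512], [1, 2, 16, 32], [1, 2, 16, 32], [1, 2, 16, 32], [1, 2, 16, 32], [1, 2, 256, 512], [1, 2, 16, 32], [1, 2, 16, 32], [1, 2, 16, 32], [1, 2, 256, 512], [1, 2, 16, 32], [1, 2, 16, 32], [1, 2, 16, 32], [1, 2, 256, 512]]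

/-- Coset representatives outside the image. -/
def outerReps : List (List Nat) :=
  [[4, 8, 12], [1, 2, 3], [16, 32, 48], [1, 2, 3], [1, 2, 3], [4, 8, 12], [1, 2, 3], [1, 2, 3], [1, 2, 3], [4, 8, 12], [1, 2, 3], [1, 2, 3], [1, 2, 3], [4, 8, 12], [1, 2, 3]]

/-- Vectors flipping the last bit. -/
def outerFlips : List (List Nat) :=
  [[32, 16, 16], [2, 1, 1], [512, 256, 256], [546, 273, 273], [514, 257, 257], [544, 272, 272], [34, 17, 17], [291, 291, 561], [259, 259, 513], [288, 560, 288], [18, 35, 18], [306, 531, 306], [258, 515, 258], [304, 304, 528], [19, 19, 33]]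

/-- For each line a word and the index of its representative. -/
def lineWords : List (List Nat × Nat) :=
  [([], 0), ([], 1), ([2, 0, 2, 1, 0, 2], 0), ([0, 2], 1), ([0, 2, 1, 2], 0), ([1, 0, 2], 1), ([1, 0, 2, 1, 2], 0), ([2, 0, 0], 1), ([2, 0, 1, 2], 0), ([1, 2], 1), ([1, 2, 1, 2], 0), ([0], 1), ([2, 0, 2, 1, 2], 0), ([0, 1, 2], 1), ([1, 2, 0, 1, 2], 0), ([0, 0], 1), ([0, 2, 0, 2, 1, 2], 0), ([2], 1), ([2, 1, 2], 0), ([2, 1, 2, 0, 1, 2], 0), ([0, 0, 2, 1, 0, 2], 0), ([1, 2], 0), ([2], 0), ([1, 0, 2], 0), ([0, 2], 0), ([2, 1, 0, 2], 1), ([2, 0], 1), ([0, 0, 2], 0), ([2, 0, 2], 1), ([2, 1, 0, 2], 0), ([2, 1, 2], 1), ([0, 2, 1, 0, 2], 0), ([1, 2, 1, 2], 1), ([1, 2, 0, 2], 1), ([0, 1, 2], 0)]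

end CfsgLib.LargeFischer.Base
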