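import Cfsg.Agent.Lib.LargeFischer.Base.Transfer
import Cfsg.Agent.Lib.FischerLarge.U62.Layer

/-!
Large Fischer type: from a labelling of an elementary abelian subgroup by duads, the quotient of
the normaliser of a conjugate and the stabiliser of a noncentral involution in it.
-/

set_option autoImplicit false
set_option linter.unusedSectionVars false

namespace CfsgLib.LargeFischer.Base

open Cfsg CfsgLib.FischerLarge.U62
open scoped Classical symmDiff Pointwise

universe u

variable {G : Type u} [Group G] [Finite G] {z : G} {Qg : Subgroup G} (Lay : Layer z Qg)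

theorem layer_ker : Lay.ρ.ker = Lay.A.subgroupOf (Subgroup.normalizer (Lay.A : Set G)) := by
  ext m
  rw [MonoidHom.mem_ker, Subgroup.mem_subgroupOf]
  exact ⟨Lay.ρ_ker m, fun h => Subtype.ext (Equiv.ext fun p => Lay.act_eq_of_mem h p)⟩

/-- The quotient of the normaliser of a conjugate. -/
theorem mathieu_of_layer (g : G) (A M : Subgroup G)
    (hA : A = Lay.A.map (MulAut.conj g).toMonoidHom) (hM : M = Subgroup.normalizer (A : Set G)) :
    ∃ _ : (A.subgroupOf M).Normal, Nonempty (↥M ⧸ A.subgroupOf M ≃* ↥Cfsg.M24) := by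
  obtain ⟨ρ', hsurj, hker, -⟩ := hom_transfer Lay.A g Lay.ρ Lay.ρ_surj (layer_ker Lay) A hA
  subst hM
  exact quotient_iso _ A ρ' hsurj hker

/-- The stabiliser of a noncentral involution. -/
theorem duad_of_layer (g : G) (A M : Subgroup G)
    (hA : A = Lay.A.map (MulAut.conj g).toMonoidHom) (hM : M = Subgroup.normalizer (A : Set G))
    (t : G) (htA : t ∈ A) (ht1 : t ≠ 1) (ht : ¬ IsConj z t) :
    ∃ _ : (A.subgroupOf (M ⊓ Subgroup.centralizer ({t} : Set G))).Normal,
      Nonempty (↥(M ⊓ Subgroup.centralizer ({t} : Set G)) ⧸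
        A.subgroupOf (M ⊓ Subgroup.centralizer ({t} : Set G)) ≃*
        ↥(Cfsg.M24 ⊓ MulAction.stabilizer (Equiv.Perm Cfsg.GolayPt)
          ({none, some 0} : Set Cfsg.GolayPt))) := by
  have hD : ∀ {p q : GolayPt}, p ≠ q → Lay.ev {p, q} = Lay.D p q := fun {p q} h => by
    rw [Layer.D, Layer.pair_eq h]
  refine duad_transfer z Lay.A g Lay.ev Lay.ρ Lay.ρ_surj (layer_ker Lay) ?_ ?_ ?_ A M hA hM t htA
    ht1 ht
  · intro p q r s hpq hrs h
    rw [hD hpq, hD hrs] at h
    rcases Lay.D_eq_D hpq h with ⟨rfl, rfl⟩ | ⟨rfl, rfl⟩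
    · rfl
    · exact Finset.pair_comm _ _
  · intro a ha ha1 hna
    obtain ⟨S, hS, rfl⟩ := (Lay.class_iff a ha ha1).1 hna
    obtain ⟨p, q, hpq, rfl⟩ := Finset.card_eq_two.1 hS
    exact ⟨p, q, hpq, rfl⟩
  · intro k p q hpq
    have hne : Lay.act k p ≠ Lay.act k q := (Lay.act_injective k).ne hpq
    rw [hD hpq, Lay.conj_D, ← hD hne]
    rfl

end CfsgLib.LargeFischer.Base
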