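import Cfsg.Agent.Lib.LargeFischer.Base.Move
import Cfsg.Agent.Lib.LargeFischer.Base.LayerData
import Cfsg.Agent.Lib.LargeFischer.Rows

/-!
Large Fischer type: in binary coordinates, conjugacy to `z` outside the layer of the 3-space is
constant on blocks of sixteen, and the layers are permuted transitively.
-/

set_option autoImplicit false
set_option linter.unusedSectionVars false
set_option linter.style.haveILetI false

namespace CfsgLib.LargeFischer.Base

open Orbits CfsgLib.ExtraspecialLarge

/-- All sums of sublists. -/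
def vSpan : List Nat → List Nat
  | [] => [0]
  | b :: bs => vSpan bs ++ (vSpan bs).map (b ^^^ ·)

/-- The translates of `r` in layer `p`. -/
def blockN (p r : Nat) : List Nat := (vSpan (blockVecs.getD (p - 1) [])).map fun v => trN v r

/-- The representatives of the blocks of layer `p`. -/
def blockReps (p : Nat) : List Nat :=
  [64 * p, 64 * p + 1024] ++
    (outerReps.getD (p - 1) []).flatMap fun k => [64 * p + k, 64 * p + k + 1024]

/-- The codes of layer `p`, by blocks. -/
def layerList (p : Nat) : List Nat := (blockReps p).flatMap (blockN p)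

theorem layer_count : ((List.range 15).all fun i =>
    decide ((List.range 2048).countP (fun n => layN n == i + 1) = 128) &&
    decide ((layerList (i + 1)).length = 128)) = true := by decide +kernel

theorem layer_mem : ((List.range 15).all fun i =>
    ((vSpan (blockVecs.getD i [])).all fun v => decide (v < 4096)) &&
    ((layerList (i + 1)).all fun n => decide (n < 2048) && (layN n == i + 1)) &&
    decide ((layerList (i + 1)).Nodup) && decide ((blockReps (i + 1)).length = 8)) = true := by
  decide +kernel

theorem flip_check : ((List.range 15).all fun i => (List.range 3).all fun j =>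
    let k := (outerReps.getD i []).getD j 0
    let v := (outerFlips.getD i []).getD j 0
    decide (v < 4096) && (trN v (64 * (i + 1) + k) == 64 * (i + 1) + k + 1024)) = true := by
  decide +kernel

theorem inner_check : ((List.range 2048).all fun n =>
    layN n != 0 || n == 0 || n == 1024 || shortN (wN n) || longN (wN n)) = true := by
  decide +kernel

/-- The action of the three maps on the indices. -/
def layF (i p : Nat) : Nat := (movLay.getD i []).getD p 0

/-- Closure of a set of indices under the three maps, iterated. -/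
def layReach : Nat → List Nat → List Nat
  | 0, l => l
  | k + 1, l => layReach k (l ++ l.flatMap fun p => [layF 0 p, layF 1 p, layF 2 p]).dedup

theorem layReach_check : ((List.range 15).all fun a => (List.range 15).all fun b =>
    (layReach 8 [a + 1]).contains (b + 1)) = true := by decide +kernel

theorem layerList_cover {n : Nat} (hn : n < 2048) (hp : 1 ≤ layN n ∧ layN n < 16) :
    n ∈ layerList (layN n) := by
  classical
  set p := layN n with hpd
  have hk := List.all_eq_true.1 layer_mem (p - 1) (List.mem_range.2 (by omega))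
  have hc := List.all_eq_true.1 layer_count (p - 1) (List.mem_range.2 (by omega))
  simp only [Nat.sub_add_cancel hp.1, Bool.and_eq_true, List.all_eq_true, decide_eq_true_eq,
    beq_iff_eq] at hk hc
  obtain ⟨⟨⟨-, hmem⟩, hnd⟩, -⟩ := hk
  set F := ((List.range 2048).filter fun m => layN m == p).toFinset with hF
  have hcard : F.card = 128 := by
    rw [hF, List.toFinset_card_of_nodup (List.nodup_range.filter _), ← List.countP_eq_length_filter]
    exact hc.1
  have hsub : (layerList p).toFinset ⊆ F := fun m hm => by
    have h := hmem m (List.mem_toFinset.1 hm)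
    simp [hF, h.1, h.2]
  have heq := Finset.eq_of_subset_of_card_le hsub
    (by rw [hcard, List.toFinset_card_of_nodup hnd, hc.2])
  exact List.mem_toFinset.1 (heq ▸ (by simp [hF, hn, ← hpd]))

theorem layF_check : ∀ i : Fin 3, ∀ p : Fin 16, layF i.val p.val < 16 ∧
    (layF i.val p.val = 0 → p.val = 0) ∧
    (bitsN.all fun b => appN (radImgs.getD (layF i.val p.val) []) (appN (movL i.val) b) ==
      appN (movL i.val) (appN (radImgs.getD p.val []) b)) = true := by decide +kernel

variable {G : Type*} [Group G] [Finite G] {z : G}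
  {Q : Subgroup ↥(Subgroup.centralizer ({z} : Set G))} [Q.Normal]
  (hs : Cfsg.IsExtraspecialCentralizerSetting z Q 6) {C : Coords z Q} (L : Lifts C)

/-- The element of `G` with given coordinates. -/
noncomputable def gpt (n : Nat) : G := (pt L n).1

/-- Nonidentity and not conjugate to `z`. -/
def NonZ (n : Nat) : Prop := n ≠ 0 ∧ ¬ IsConj z (gpt L n)

/-- Conjugacy under the normaliser. -/
def MConj (C : Coords z Q) (a b : G) : Prop :=
  ∃ m ∈ Subgroup.normalizer (baseA C : Set G), m * a * m⁻¹ = b

theorem MConj.trans {a b c : G} (h : MConj C a b) (h' : MConj C b c) : MConj C a c := by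
  obtain ⟨m, hm, rfl⟩ := h
  obtain ⟨k, hk, rfl⟩ := h'
  exact ⟨k * m, mul_mem hk hm, by group⟩

theorem MConj.symm {a b : G} (h : MConj C a b) : MConj C b a := by
  obtain ⟨m, hm, rfl⟩ := h
  exact ⟨m⁻¹, inv_mem hm, by group⟩

theorem MConj.refl (C : Coords z Q) (a : G) : MConj C a a := ⟨1, one_mem _, by group⟩

theorem MConj.isConj {a b : G} (h : MConj C a b) : IsConj z a ↔ IsConj z b := by
  obtain ⟨m, -, rfl⟩ := h
  have hab : IsConj a (m * a * m⁻¹) := isConj_iff.2 ⟨m, rfl⟩
  exact ⟨fun h => h.trans hab, fun h => h.trans hab.symm⟩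

variable (hc : C.ClassData 0)
include hs hc

theorem gpt_mem (n : Nat) : gpt L n ∈ baseA C := ⟨_, pt_mem hs L hc n, rfl⟩

theorem gpt_xor (a b : Nat) : gpt L (a ^^^ b) = gpt L a * gpt L b :=
  congrArg Subtype.val (pt_xor hs L hc a b)

theorem gpt_zero : gpt L 0 = 1 := by
  show (prodL (ptGen L) 0).1 = 1
  rw [prodL_zero]; rfl

theorem gpt_z : gpt L 1024 = z := by
  have h := pt_bit hs L hc true
  rw [if_pos rfl] at h
  exact congrArg Subtype.val h

theorem exists_gpt {a : G} (ha : a ∈ baseA C) : ∃ n < 2048, gpt L n = a := by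
  obtain ⟨b, hb, rfl⟩ := ha
  obtain ⟨n, hn, rfl⟩ := exists_pt hs L hc hb
  exact ⟨n, hn, rfl⟩

theorem gpt_injective {a b : Nat} (ha : a < 2048) (hb : b < 2048) (h : gpt L a = gpt L b) :
    a = b := pt_injective hs L hc ha hb (Subtype.ext h)

theorem gpt_ne_one {n : Nat} (hn : n < 2048) (h : n ≠ 0) : gpt L n ≠ 1 := fun e =>
  h (gpt_injective hs L hc hn (by norm_num) (e.trans (gpt_zero hs L hc).symm))

/-- Translations give conjugates. -/
theorem mconj_trN {v : Nat} (hv : v < 4096) (n : Nat) : MConj C (gpt L n) (gpt L (trN v n)) := by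
  refine ⟨(canon C (dec v)).1, ?_, congrArg Subtype.val (pt_conj hs L hc hv n)⟩
  exact QG_le_normalizer hs C hc ⟨_, (canon_spec hs C _).1.mem hs, rfl⟩

theorem nonZ_trN {v : Nat} (hv : v < 4096) {n : Nat} (hn : n < 2048) (hm : trN v n < 2048) :
    NonZ L (trN v n) ↔ NonZ L n := by
  have h := mconj_trN hs L hc hv n
  refine and_congr (not_congr ⟨fun e => ?_, fun e => ?_⟩) (not_congr h.isConj.symm)
  · obtain ⟨m, -, hmn⟩ := h
    rw [e, gpt_zero hs L hc, conj_eq_one_iff] at hmn
    exact gpt_injective hs L hc hn (by norm_num) (hmn.trans (gpt_zero hs L hc).symm)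
  · obtain ⟨m, -, hmn⟩ := h
    have h1 : gpt L n = 1 := by rw [e, gpt_zero hs L hc]
    rw [h1, mul_one, mul_inv_cancel] at hmn
    exact gpt_injective hs L hc hm (by norm_num) (hmn.symm.trans (gpt_zero hs L hc).symm)

/-- The layer of the 3-space. -/
theorem rep_inner {n : Nat} (hn : n < 2048) (h : layN n = 0) : C.Rep (dec (wN n)) (pt L n) := by
  have key : ((List.range 2048).all fun m => layN m != 0 || decide (m / 64 % 16 = 0)) = true := by
    decide +kernel
  have hmid := List.all_eq_true.1 key n (List.mem_range.2 hn)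
  simp only [h, bne_self_eq_false, Bool.false_or, decide_eq_true_eq] at hmid
  have hr : rPart L n = 1 := by
    simp only [rPart, prodL, Nat.div_div_eq_div_mul]
    have h1 : n / 64 % 2 = 0 := by omega
    have h2 : n / (64 * 2) % 2 = 0 := by omega
    have h3 : n / (64 * (2 * 2)) % 2 = 0 := by omega
    have h4 : n / (64 * (2 * (2 * 2))) % 2 = 0 := by omega
    simp [h1, h2, h3, h4]
  rw [pt_split hs L, hr, mul_one]
  have h' := (canon_spec hs C (dec (wN n))).1
  cases zbN n
  · simpa [pw] using h'
  · exact h'.mul_z hs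

/-- The action of `pt` on the vectors. -/
theorem act_pt (n : Nat) : C.act (QuotientGroup.mk (pt L n)) = rP ⟨layN n, layN_lt n⟩ := by
  rw [pt_split hs L, QuotientGroup.mk_mul, QuotientGroup.mk_mul,
    (QuotientGroup.eq_one_iff _).2 ((canon_spec hs C _).1.mem hs),
    (QuotientGroup.eq_one_iff _).2 (pw_mem hs _), one_mul, mul_one, act_rPart hs L]

theorem wN_zero_of_radLift {n : Nat} (h : pt L n ∈ radLift C) : wN n = 0 := by
  rw [pt_split hs L] at h
  have hpw : pw z (zbN n) ∈ radLift C := by
    cases zbN n
    · exact one_mem _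
    · exact zH_mem_radLift hs C
  have h1 : canon C (dec (wN n)) ∈ radLift C := by
    have := mul_mem (mul_mem h (inv_mem hpw)) (inv_mem (rPart_mem hs L n))
    simpa [mul_assoc] using this
  have hrep := (canon_spec hs C (dec (wN n))).1
  have h0 := (hrep.zero_iff hs).2 (radLift_inter hs C h1 (hrep.mem hs))
  rw [← enc_dec (wN n) (appN_lt _ _ (by decide)), h0]
  rfl

/-- Classes in the layer of the 3-space. -/
theorem nonZ_inner {n : Nat} (hn : n < 2048) (h : layN n = 0) :
    NonZ L n ↔ shortN (wN n) = true := by
  have hrep := rep_inner hs L hc hn h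
  have hlt : wN n < 4096 := appN_lt _ _ (by decide)
  constructor
  · rintro ⟨h0, hconj⟩
    have hk := List.all_eq_true.1 inner_check n (List.mem_range.2 hn)
    simp only [h, bne_self_eq_false, Bool.false_or, Bool.or_eq_true, beq_iff_eq] at hk
    rcases hk with ((e | e) | e) | e
    · exact absurd e h0
    · subst e
      exact absurd (by rw [gpt_z hs L hc]) hconj
    · exact e
    · exfalso
      refine hconj (isConj_of_inFour hs C hc hrep ((inFour_iff _).2 ?_))
      rwa [enc_dec _ hlt]
  · intro hsh
    have h2 : InTwo 0 (dec (wN n)) := (inTwo_iff _).2 (by rwa [enc_dec _ hlt])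
    have hne0 : dec (wN n) ≠ zeroPt := h2.singular.1
    refine ⟨fun e => hne0 ((hrep.zero_iff hs).2 (Or.inl ?_)), fun hcj => ?_⟩
    · subst e
      exact Subtype.ext (gpt_zero hs L hc)
    · obtain ⟨g, hg⟩ := isConj_iff.1 hcj
      obtain ⟨w, hw⟩ := exists_meetData hs C hc g _ (hrep.mem hs) hg
        (fun e => hne0 ((hrep.zero_iff hs).2 (Or.inr e)))
      exact not_two_four h2 (hw.rep.unique hs hrep ▸ hw.inFour)

/-- The three maps permute the layers. -/
theorem exists_layer_map (i : Fin 3) : ∃ c : ↥(Subgroup.centralizer ({z} : Set G)),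
    c.1 ∈ Subgroup.normalizer (baseA C : Set G) ∧ c * x₀ C * c⁻¹ = x₀ C ∧
    (∀ v, enc (C.act (QuotientGroup.mk c) v) = appN (movL i.val) (enc v)) ∧
    (∀ r ∈ radLift C, c * r * c⁻¹ ∈ radLift C) ∧
    ∀ n < 2048, ∃ m < 2048, c * pt L n * c⁻¹ = pt L m ∧ layN m = layF i.val (layN n) := by
  obtain ⟨c, hcm, hcx, hcW⟩ := exists_mov hs C hc i
  have hconj : ∀ p : Fin 16, C.act (QuotientGroup.mk c) * rP p * (C.act (QuotientGroup.mk c))⁻¹ =
      rP ⟨layF i.val p.val, (layF_check i p).1⟩ := by
    intro p
    rw [mul_inv_eq_iff_eq_mul]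
    refine Equiv.ext fun v => enc_injective ?_
    rw [Equiv.Perm.mul_apply, Equiv.Perm.mul_apply, hcm, enc_rP, enc_rP, hcm]
    exact (eq_of_bits (f := fun n => appN (radImgs.getD (layF i.val p.val) []) (appN (movL i.val) n))
      (g := fun n => appN (movL i.val) (appN (radImgs.getD p.val []) n))
      (fun a b => by simp only [appN_xor]) (fun a b => by simp only [appN_xor])
      (fun b hb => by simpa using List.all_eq_true.1 (layF_check i p).2.2 b hb) (enc v) (enc_lt v)).symm
  refine ⟨c, mem_normalizer_of_conj hs C fun a ha => conj_baseH_of_W hs C hc (Or.inl hcx) hcW ha,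
    hcx, hcm, fun r hr => ?_, fun n hn => ?_⟩
  · obtain ⟨hrx, p, hp⟩ := hr
    refine ⟨?_, ⟨layF i.val p.val, (layF_check i p).1⟩, ?_⟩
    · calc c * r * c⁻¹ * x₀ C = c * r * c⁻¹ * (c * x₀ C * c⁻¹) := by rw [hcx]
        _ = c * (r * x₀ C) * c⁻¹ := by group
        _ = c * x₀ C * c⁻¹ * (c * r * c⁻¹) := by rw [hrx]; group
        _ = x₀ C * (c * r * c⁻¹) := by rw [hcx]
    · rw [QuotientGroup.mk_mul, QuotientGroup.mk_mul, QuotientGroup.mk_inv, map_mul, map_mul,
        map_inv, hp, hconj]
  · obtain ⟨m, hm, hcn⟩ := exists_pt hs L hc (conj_baseH_of_W hs C hc (Or.inl hcx) hcW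
      (pt_mem hs L hc n))
    refine ⟨m, hm, hcn.symm, ?_⟩
    have h1 := act_pt hs L hc m
    rw [hcn, QuotientGroup.mk_mul, QuotientGroup.mk_mul, QuotientGroup.mk_inv, map_mul, map_mul,
      map_inv, act_pt hs L hc n, hconj] at h1
    exact (congrArg Fin.val (rP_injective h1)).symm

open scoped Classical in
/-- The non-conjugates in a layer. -/
noncomputable def layerT (p : Nat) : Finset Nat :=
  (Finset.range 2048).filter fun n => layN n = p ∧ NonZ L n

omit hs hc in
theorem mem_layerT {p n : Nat} : n ∈ layerT L p ↔ n < 2048 ∧ layN n = p ∧ NonZ L n := by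
  classical
  simp [layerT]

theorem card_layerT_le (i : Fin 3) (p : Nat) :
    (layerT L p).card ≤ (layerT L (layF i.val p)).card := by
  classical
  obtain ⟨c, hcn, -, -, -, hmap⟩ := exists_layer_map hs L hc i
  choose! f hf1 hf2 hf3 using hmap
  refine Finset.card_le_card_of_injOn f (fun n hn => ?_) (fun a ha b hb hab => ?_)
  · obtain ⟨hn1, hn2, h0, hnc⟩ := (mem_layerT L).1 hn
    refine (mem_layerT L).2 ⟨hf1 n hn1, by rw [hf3 n hn1, hn2], ?_, ?_⟩
    · intro e
      have h := hf2 n hn1
      rw [e] at h
      have h' : c * pt L n * c⁻¹ = 1 := h.trans (Subtype.ext (gpt_zero hs L hc))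
      rw [conj_eq_one_iff] at h'
      exact h0 (pt_eq_one hs L hc hn1 h')
    · have hm : MConj C (gpt L n) (gpt L (f n)) :=
        ⟨c.1, hcn, congrArg Subtype.val (hf2 n hn1)⟩
      exact fun h => hnc (hm.isConj.2 h)
  · have ha1 := ((mem_layerT L).1 ha).1
    have hb1 := ((mem_layerT L).1 hb).1
    have h := hf2 a ha1
    rw [hab, ← hf2 b hb1] at h
    exact pt_injective hs L hc ha1 hb1 (mul_left_cancel (mul_right_cancel h))

theorem card_layerT_eq {p q : Nat} (hp : 1 ≤ p ∧ p < 16) (hq : 1 ≤ q ∧ q < 16) :
    (layerT L p).card = (layerT L q).card := by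
  have key : ∀ (k : Nat) (l : List Nat) (m : Nat), (∀ a ∈ l, m ≤ (layerT L a).card) →
      ∀ a ∈ layReach k l, m ≤ (layerT L a).card := by
    intro k
    induction k with
    | zero => intro l m h; exact h
    | succ k ih =>
      intro l m h
      refine ih _ m fun a ha => ?_
      rw [List.mem_dedup, List.mem_append, List.mem_flatMap] at ha
      rcases ha with ha | ⟨b, hb, ha⟩
      · exact h a ha
      · simp only [List.mem_cons, List.not_mem_nil, or_false] at ha
        refine (h b hb).trans ?_
        rcases ha with rfl | rfl | rfl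
        · exact card_layerT_le hs L hc 0 b
        · exact card_layerT_le hs L hc 1 b
        · exact card_layerT_le hs L hc 2 b
  have hle : ∀ a b : Nat, 1 ≤ a → a < 16 → 1 ≤ b → b < 16 →
      (layerT L a).card ≤ (layerT L b).card := by
    intro a b ha ha' hb hb'
    have h := List.all_eq_true.1 (List.all_eq_true.1 layReach_check (a - 1)
      (List.mem_range.2 (by omega))) (b - 1) (List.mem_range.2 (by omega))
    rw [Nat.sub_add_cancel ha, Nat.sub_add_cancel hb] at h
    exact key 8 [a] _ (fun x hx => by rw [List.mem_singleton] at hx; rw [hx]) b (by simpa using h)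
  exact le_antisymm (hle p q hp.1 hp.2 hq.1 hq.2) (hle q p hq.1 hq.2 hp.1 hp.2)

/-- A layer is a union of blocks. -/
theorem layerT_blocks {p : Nat} (hp : 1 ≤ p ∧ p < 16) [DecidablePred (NonZ L)] :
    (layerT L p).card = 16 * ((blockReps p).countP fun r => decide (NonZ L r)) := by
  classical
  have hk := List.all_eq_true.1 layer_mem (p - 1) (List.mem_range.2 (by omega))
  simp only [Nat.sub_add_cancel hp.1, Bool.and_eq_true, List.all_eq_true, decide_eq_true_eq,
    beq_iff_eq] at hk
  obtain ⟨⟨⟨hv, hmem⟩, hnd⟩, -⟩ := hk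
  have heq : layerT L p = ((layerList p).filter fun n => decide (NonZ L n)).toFinset := by
    ext n
    rw [mem_layerT, List.mem_toFinset, List.mem_filter, decide_eq_true_eq]
    constructor
    · rintro ⟨hn, hl, hnz⟩
      exact ⟨hl ▸ layerList_cover hn (hl ▸ hp), hnz⟩
    · rintro ⟨hn, hnz⟩
      exact ⟨(hmem n hn).1, (hmem n hn).2, hnz⟩
  rw [heq, List.toFinset_card_of_nodup (hnd.filter _), ← List.countP_eq_length_filter, layerList]
  have hblock : ∀ r ∈ blockReps p, (blockN p r).countP (fun n => decide (NonZ L n)) =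
      if NonZ L r then 16 else 0 := by
    intro r hr
    have hr2 : ∀ n ∈ blockN p r, n < 2048 := fun n hn =>
      (hmem n (List.mem_flatMap.2 ⟨r, hr, hn⟩)).1
    have hrr : r < 2048 := by
      have : r ∈ blockN p r := by
        have h0 : (0 : Nat) ∈ vSpan (blockVecs.getD (p - 1) []) := by
          generalize blockVecs.getD (p - 1) [] = l
          induction l with
          | nil => simp [vSpan]
          | cons a l ih => exact List.mem_append_left _ ih
        refine List.mem_map.2 ⟨0, h0, ?_⟩
        have hz : ∀ (l : List Nat), appN l 0 = 0 := by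
          intro l; induction l with
          | nil => rfl
          | cons a l ih => simp [appN, ih]
        simp [trN, epsN, hz, cdN, bN, oddN, scalN, dig, qN, wtN]
      exact hr2 r this
    have hiff : ∀ n ∈ blockN p r, (NonZ L n ↔ NonZ L r) := by
      intro n hn
      obtain ⟨v, hvm, rfl⟩ := List.mem_map.1 hn
      exact nonZ_trN hs L hc (hv v hvm) hrr (hr2 _ hn)
    have hlen : (blockN p r).length = 16 := by
      have h16 : ((List.range 15).all fun i =>
          decide ((vSpan (blockVecs.getD i [])).length = 16)) = true := by decide +kernel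
      rw [blockN, List.length_map]
      simpa using List.all_eq_true.1 h16 (p - 1) (List.mem_range.2 (by omega))
    split_ifs with hr'
    · rw [List.countP_eq_length.2 (fun n hn => by simpa using (hiff n hn).2 hr'), hlen]
    · exact List.countP_eq_zero.2 (fun n hn => by simpa using fun h => hr' ((hiff n hn).1 h))
  revert hblock
  generalize blockReps p = l
  intro hblock
  induction l with
  | nil => simp
  | cons r l ih =>
    rw [List.flatMap_cons, List.countP_append, List.countP_cons, hblock r List.mem_cons_self,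
      ih fun a ha => hblock a (List.mem_cons_of_mem _ ha)]
    by_cases h : NonZ L r <;> simp [h]; omega

/-- In a layer with sixteen non-conjugates they form one of the two blocks on the axis. -/
theorem layer_axis {p : Nat} (hp : 1 ≤ p ∧ p < 16) (h16 : (layerT L p).card = 16) :
    (NonZ L (64 * p) ↔ ¬ NonZ L (64 * p + 1024)) ∧
    ∀ n, n ∈ layerT L p ↔ ∃ r ∈ ([64 * p, 64 * p + 1024] : List Nat), NonZ L r ∧ n ∈ blockN p r := by
  classical
  have hone : (blockReps p).countP (fun r => decide (NonZ L r)) = 1 := by
    have h := layerT_blocks hs L hc hp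
    omega
  have hflip : ∀ k ∈ outerReps.getD (p - 1) [],
      (NonZ L (64 * p + k) ↔ NonZ L (64 * p + k + 1024)) := by
    intro k hk
    have hlen : (outerReps.getD (p - 1) []).length = 3 := by
      have h3 : ((List.range 15).all fun i => decide ((outerReps.getD i []).length = 3) &&
          (outerReps.getD i []).all fun k => decide (k < 64)) = true := by decide +kernel
      have := List.all_eq_true.1 h3 (p - 1) (List.mem_range.2 (by omega))
      simp only [Bool.and_eq_true, decide_eq_true_eq] at this
      exact this.1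
    have hk64 : k < 64 := by
      have h3 : ((List.range 15).all fun i =>
          (outerReps.getD i []).all fun k => decide (k < 64)) = true := by decide +kernel
      simpa using List.all_eq_true.1 (List.all_eq_true.1 h3 (p - 1) (List.mem_range.2 (by omega))) k hk
    obtain ⟨j, hj, rfl⟩ := List.getElem_of_mem hk
    have h := List.all_eq_true.1 (List.all_eq_true.1 flip_check (p - 1) (List.mem_range.2 (by omega)))
      j (List.mem_range.2 (by omega))
    simp only [Nat.sub_add_cancel hp.1, Bool.and_eq_true, decide_eq_true_eq, beq_iff_eq,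
      List.getD_eq_getElem _ _ hj] at h
    rw [← h.2]
    exact (nonZ_trN hs L hc h.1 (by omega) (by rw [h.2]; omega)).symm
  have houter : ∀ r ∈ (outerReps.getD (p - 1) []).flatMap
      (fun k => [64 * p + k, 64 * p + k + 1024]), ¬ NonZ L r := by
    intro r hr hnz
    obtain ⟨k, hk, hrk⟩ := List.mem_flatMap.1 hr
    have hboth : NonZ L (64 * p + k) ∧ NonZ L (64 * p + k + 1024) := by
      simp only [List.mem_cons, List.not_mem_nil, or_false] at hrk
      rcases hrk with rfl | rfl
      · exact ⟨hnz, (hflip k hk).1 hnz⟩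
      · exact ⟨(hflip k hk).2 hnz, hnz⟩
    have hsub : [64 * p + k, 64 * p + k + 1024].countP (fun r => decide (NonZ L r)) ≤
        (blockReps p).countP fun r => decide (NonZ L r) := by
      refine List.Sublist.countP_le ?_
      refine (List.Sublist.trans ?_ (List.sublist_append_right _ _))
      obtain ⟨l₁, l₂, hl⟩ := List.append_of_mem hk
      rw [hl, List.flatMap_append, List.flatMap_cons]
      exact (List.sublist_append_left _ _).trans (List.sublist_append_right _ _)
    rw [hone] at hsub
    simp [hboth.1, hboth.2] at hsub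
  have h0 : ((outerReps.getD (p - 1) []).flatMap
      (fun k => [64 * p + k, 64 * p + k + 1024])).countP (fun r => decide (NonZ L r)) = 0 :=
    List.countP_eq_zero.2 fun r hr => by simpa using houter r hr
  rw [blockReps, List.countP_append, h0, add_zero] at hone
  refine ⟨?_, fun n => ?_⟩
  · by_cases ha : NonZ L (64 * p) <;> by_cases hb : NonZ L (64 * p + 1024) <;>
      simp [ha, hb] at hone ⊢
  have hk := List.all_eq_true.1 layer_mem (p - 1) (List.mem_range.2 (by omega))
  simp only [Nat.sub_add_cancel hp.1, Bool.and_eq_true, List.all_eq_true, decide_eq_true_eq,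
    beq_iff_eq] at hk
  obtain ⟨⟨⟨hv, hmem⟩, -⟩, -⟩ := hk
  rw [mem_layerT]
  have hax : ∀ r ∈ ([64 * p, 64 * p + 1024] : List Nat), r < 2048 := by
    intro r hr
    simp only [List.mem_cons, List.not_mem_nil, or_false] at hr
    omega
  constructor
  · rintro ⟨hn, hl, hnz⟩
    obtain ⟨r, hr, hnr⟩ := List.mem_flatMap.1
      (hl ▸ layerList_cover hn (hl ▸ hp) : n ∈ layerList p)
    rw [blockReps, List.mem_append] at hr
    have hrr : r < 2048 := by
      rcases hr with hr | hr
      · exact hax r hr
      · obtain ⟨k, hk, hrk⟩ := List.mem_flatMap.1 hr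
        have h3 : ((List.range 15).all fun i =>
            (outerReps.getD i []).all fun k => decide (k < 64)) = true := by decide +kernel
        have := List.all_eq_true.1 (List.all_eq_true.1 h3 (p - 1) (List.mem_range.2 (by omega))) k hk
        simp only [decide_eq_true_eq] at this
        simp only [List.mem_cons, List.not_mem_nil, or_false] at hrk
        omega
    obtain ⟨v, hvm, hvn⟩ := List.mem_map.1 hnr
    have hnzr : NonZ L r := (nonZ_trN hs L hc (hv v hvm) hrr (hvn ▸ hn)).1 (hvn ▸ hnz)
    exact ⟨r, hr.resolve_right fun hr' => houter r hr' hnzr, hnzr, hnr⟩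
  · rintro ⟨r, hr, hnzr, hnr⟩
    have hm := hmem n (List.mem_flatMap.2 ⟨r, List.mem_append_left _ hr, hnr⟩)
    refine ⟨hm.1, hm.2, ?_⟩
    obtain ⟨v, hvm, hvn⟩ := List.mem_map.1 hnr
    exact hvn ▸ (nonZ_trN hs L hc (hv v hvm) (hax r hr) (hvn ▸ hm.1)).2 hnzr

/-- Members of one block are conjugate under the normaliser. -/
theorem mconj_block {p r n : Nat} (hp : 1 ≤ p ∧ p < 16) (hn : n ∈ blockN p r) :
    MConj C (gpt L r) (gpt L n) := by
  have hk := List.all_eq_true.1 layer_mem (p - 1) (List.mem_range.2 (by omega))
  simp only [Nat.sub_add_cancel hp.1, Bool.and_eq_true, List.all_eq_true, decide_eq_true_eq,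
    beq_iff_eq] at hk
  obtain ⟨v, hvm, rfl⟩ := List.mem_map.1 hn
  exact mconj_trN hs L hc (hk.1.1.1 v hvm) r

end CfsgLib.LargeFischer.Base
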