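import Cfsg.Agent.Lib.LargeFischer.Base.Code
import Cfsg.Agent.Lib.LargeFischer.Base.DuadData

/-!
Large Fischer type: elements of `C(z)` preserving the singular 3-space normalise the elementary
abelian subgroup of order `2 ^ 11`, and they induce at least `2160` maps on the 3-space.
-/

set_option autoImplicit false
set_option linter.unusedSectionVars false
set_option linter.style.haveILetI false

namespace CfsgLib.LargeFischer.Base

open Orbits CfsgLib.ExtraspecialLarge

/-- The images of the unit bits of the `i`-th map. -/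
def movL (i : Nat) : List Nat := movImgs.getD i []

/-- The action of a word. -/
def wordN : List Nat → Nat → Nat
  | [], n => n
  | i :: w, n => appN (movL i) (wordN w n)

theorem mov_W_check : ∀ i : Fin 3, (wBasis.all fun b =>
    projN (appN (movL i.val) b) == 0) = true ∧
    (movL i.val).all (fun a => decide (a < 4096)) = true := by decide +kernel

theorem word_lt_check : (word18 ++ word60).all (fun w => w.all fun i => decide (i < 3)) = true := by
  decide +kernel

theorem word18_check : (word18.map fun w => wordN w 5).Nodup ∧ word18.length = 18 := by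
  decide +kernel

theorem word60_check : (word60.map fun w => (wordN w 80, wordN w 1280)).Nodup ∧
    (word60.all fun w => wordN w 5 == 5) = true ∧ word60.length = 60 := by
  decide +kernel

/-- The monomial data of the three maps. -/
def movPerm : List (List Nat × List Nat × Nat × List Nat) :=
  [([4, 5, 0, 1, 2, 3], [2, 2, 0, 0, 1, 1], 0, [0, 1, 2, 3, 4, 5]),
   ([5, 0, 4, 1, 2, 3], [0, 0, 0, 0, 0, 0], 3, [1, 3, 4, 5, 2, 0]),
   ([1, 2, 3, 0, 5, 4], [0, 0, 0, 0, 0, 0], 9, [3, 0, 1, 2, 5, 4])]

theorem movPerm_check : ∀ i : Fin 3,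
    let t := movPerm.getD i.val ([], [], 0, [])
    (t.1.length = 6 ∧ t.2.1.length = 6 ∧ t.2.2.2.length = 6 ∧ t.1.Nodup ∧ t.2.2.2.Nodup ∧
      t.2.1.sum % 3 = 0 ∧ (∀ a ∈ t.1, a < 6) ∧ (∀ a ∈ t.2.2.2, a < 6) ∧ (∀ a ∈ t.2.1, a < 3) ∧
      t.2.2.1 < 16) ∧
    (∀ l ∈ [t.1, t.2.2.2],
      ((List.range 6).countP (fun i => (List.range 6).countP (fun j =>
        decide (i < j) && decide (l.getD j 0 < l.getD i 0)) % 2 == 1) % 2 == 0) = true) ∧
    (bitsN.all fun b => appN (movL i.val) b ==
      monN t.1 t.2.1 (appN (radImgs.getD t.2.2.1 [])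
        (monN t.2.2.2 [0, 0, 0, 0, 0, 0] b))) = true := by
  decide +kernel

theorem conj_W_check : ∀ b ∈ wBasis,
    projN (enc (conjP (dec b))) = 0 ∧ swapP (dec b) = dec b := by
  decide +kernel

theorem wBasis_span : (bitsN.all fun b => wBasis.contains (wN b) || (wN b == 0)) = true := by
  decide +kernel

variable {G : Type*} [Group G] [Finite G] {z : G}
  {Q : Subgroup ↥(Subgroup.centralizer ({z} : Set G))} [Q.Normal]
  (hs : Cfsg.IsExtraspecialCentralizerSetting z Q 6) (C : Coords z Q) (hc : C.ClassData 0)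
include hs hc

/-- An additive map preserving a spanning set of the 3-space preserves it. -/
theorem act_W_of_basis {γ : ↥(Subgroup.centralizer ({z} : Set G)) ⧸ Q}
    (h : ∀ b ∈ wBasis, InW (C.act γ (dec b))) : ∀ v, InW v → InW (C.act γ v) := by
  intro v hv
  have hv' := List.all_eq_true.1 cdN_spec (enc v) hv
  simp only [Bool.and_eq_true, decide_eq_true_eq, beq_iff_eq] at hv'
  obtain ⟨⟨⟨-, h2⟩, -⟩, -⟩ := hv'
  have key : ∀ (l : List Nat) (n : Nat), (∀ b ∈ l, InW (C.act γ (dec b))) →
      InW (C.act γ (dec (appN l n))) := by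
    intro l
    induction l with
    | nil =>
      intro n _
      show InW (C.act γ (dec 0))
      have h0 : dec 0 = zeroPt := by rw [← enc_zeroPt, dec_enc]
      have := act_addPt hs C γ zeroPt zeroPt
      rw [addPt_self, addPt_self] at this
      rw [h0, this]
      exact InW.zero
    | cons a l ih =>
      intro n h
      simp only [appN]
      have ih' := ih (n / 2) fun b hb => h b (List.mem_cons_of_mem _ hb)
      split_ifs
      · rw [dec_xor, act_addPt hs C]
        exact (h a List.mem_cons_self).add ih'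
      · rwa [Nat.zero_xor]
  rw [← dec_enc v, ← h2]
  exact key _ _ h

theorem act_W_inv {γ : ↥(Subgroup.centralizer ({z} : Set G)) ⧸ Q}
    (h : ∀ v, InW v → InW (C.act γ v)) : ∀ v, InW v → InW (C.act γ⁻¹ v) := by
  intro v hv
  have hpow : ∀ n : ℕ, ∀ v, InW v → InW (C.act (γ ^ n) v) := by
    intro n
    induction n with
    | zero => intro v hv; simpa using hv
    | succ n ih => intro v hv; rw [pow_succ, C.act_mul_apply]; exact ih _ (h v hv)
  have hinv : γ⁻¹ = γ ^ (orderOf γ - 1) := by
    refine inv_eq_of_mul_eq_one_right ?_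
    rw [← pow_succ', Nat.sub_add_cancel (orderOf_pos γ), pow_orderOf_eq_one]
  rw [hinv]
  exact hpow _ v hv

omit hc in
/-- A semilinear element lifts to an element inverting `x₀`. -/
theorem exists_lift_inv {γ : ↥(Subgroup.centralizer ({z} : Set G)) ⧸ Q}
    (hγ : ∀ v, C.act γ (shift (fun _ => 1) v) = shift (fun _ => -1) (C.act γ v)) :
    ∃ c, x₀ C * c * x₀ C = c ∧ QuotientGroup.mk c = γ := by
  classical
  obtain ⟨c, rfl⟩ := QuotientGroup.mk_surjective γ
  have hq : (QuotientGroup.mk (x₀ C * c * x₀ C) : ↥(Subgroup.centralizer ({z} : Set G)) ⧸ Q) =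
      QuotientGroup.mk c := by
    refine C.act_injective (Equiv.ext fun v => ?_)
    rw [QuotientGroup.mk_mul, QuotientGroup.mk_mul, C.act_mul_apply, C.act_mul_apply, act_x₀,
      act_x₀, hγ, shift_shift]
    exact shift_zero _
  haveI : Fact (Nat.Prime 3) := ⟨Nat.prime_three⟩
  let T := {a : ↥(Subgroup.centralizer ({z} : Set G)) //
    (QuotientGroup.mk a : ↥(Subgroup.centralizer ({z} : Set G)) ⧸ Q) = QuotientGroup.mk c}
  have hmem : ∀ a : T, (QuotientGroup.mk (x₀ C * a.1 * x₀ C) :
      ↥(Subgroup.centralizer ({z} : Set G)) ⧸ Q) = QuotientGroup.mk c := by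
    intro a
    rw [QuotientGroup.mk_mul, QuotientGroup.mk_mul, a.2, ← QuotientGroup.mk_mul,
      ← QuotientGroup.mk_mul, hq]
  have hx3 := x₀_cube hs C
  have hmem' : ∀ a : T, (QuotientGroup.mk ((x₀ C)⁻¹ * a.1 * (x₀ C)⁻¹) :
      ↥(Subgroup.centralizer ({z} : Set G)) ⧸ Q) = QuotientGroup.mk c := by
    intro a
    have h1 := hmem ⟨_, hmem a⟩
    rw [show (x₀ C)⁻¹ = x₀ C * x₀ C from inv_eq_of_mul_eq_one_right (by
      rw [← mul_assoc, ← pow_two, ← pow_succ, hx3])]
    simpa [mul_assoc] using h1
  let σ : Equiv.Perm T :=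
    { toFun := fun a => ⟨_, hmem a⟩
      invFun := fun a => ⟨_, hmem' a⟩
      left_inv := fun a => Subtype.ext (by simp [mul_assoc])
      right_inv := fun a => Subtype.ext (by simp [mul_assoc]) }
  have hσ : σ ^ 3 ^ 1 = 1 := by
    refine Equiv.ext fun a => Subtype.ext ?_
    show x₀ C * (x₀ C * (x₀ C * a.1 * x₀ C) * x₀ C) * x₀ C = a.1
    calc x₀ C * (x₀ C * (x₀ C * a.1 * x₀ C) * x₀ C) * x₀ C
        = x₀ C ^ 3 * a.1 * x₀ C ^ 3 := by simp only [pow_succ, pow_zero, one_mul, mul_assoc]
      _ = a.1 := by rw [hx3, one_mul, mul_one]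
  haveI : Finite T := Subtype.finite
  letI := Fintype.ofFinite T
  have hT : ¬ 3 ∣ Fintype.card T := by
    rw [← Nat.card_eq_fintype_card, show Nat.card T = 2 ^ 13 from ?_]
    · norm_num
    rw [← hs.2.2.2.1]
    refine Nat.card_congr
      { toFun := fun a => ⟨c⁻¹ * a.1, (QuotientGroup.eq).1 a.2.symm⟩
        invFun := fun q => ⟨c * q.1, by
          rw [QuotientGroup.mk_mul, (QuotientGroup.eq_one_iff q.1).2 q.2, mul_one]⟩
        left_inv := fun a => Subtype.ext (mul_inv_cancel_left c a.1)
        right_inv := fun q => Subtype.ext (inv_mul_cancel_left c q.1) }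
  obtain ⟨a, ha⟩ := Equiv.Perm.exists_fixed_point_of_prime hT hσ
  exact ⟨a.1, congrArg Subtype.val ha, a.2⟩

omit hc in
theorem exists_lift_pm (γ : ↥(Subgroup.centralizer ({z} : Set G)) ⧸ Q) :
    ∃ c, (c * x₀ C * c⁻¹ = x₀ C ∨ c * x₀ C * c⁻¹ = (x₀ C)⁻¹) ∧ QuotientGroup.mk c = γ := by
  rcases C.act_semilinear γ with h | h
  · obtain ⟨c, hcx, hcγ⟩ := exists_lift hs C (C.mem_linPart.2 h)
    exact ⟨c, Or.inl (mul_inv_eq_iff_eq_mul.2 hcx), hcγ⟩
  · obtain ⟨c, hcx, hcγ⟩ := exists_lift_inv hs C h
    refine ⟨c, Or.inr ?_, hcγ⟩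
    calc c * x₀ C * c⁻¹ = (x₀ C)⁻¹ * (x₀ C * c * x₀ C) * c⁻¹ := by group
      _ = (x₀ C)⁻¹ := by rw [hcx]; group

/-- The image of a map centralised by `c` in the sixteen. -/
theorem conj_rad {γ : ↥(Subgroup.centralizer ({z} : Set G)) ⧸ Q}
    (hW : ∀ v, InW v → InW (C.act γ v)) (p : Fin 16) :
    ∃ q, C.act γ * rP p * (C.act γ)⁻¹ = rP q := by
  obtain ⟨δ, hδ, hδp⟩ := exists_rad C hs hc p
  haveI := Subgroup.normal_of_index_eq_two (C.index_linPart hs)
  have hlin : γ * δ * γ⁻¹ ∈ C.linPart := Subgroup.Normal.conj_mem inferInstance δ hδ γ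
  have hfix : ∀ v, InW v → C.act (γ * δ * γ⁻¹) v = v := by
    intro v hv
    rw [C.act_mul_apply, C.act_mul_apply, hδp, rP_fix p (act_W_inv hs C hc hW v hv),
      ← C.act_mul_apply, mul_inv_cancel, map_one, Equiv.Perm.one_apply]
  have hW3 : ∀ n : Nat, n = 5 ∨ n = 80 ∨ n = 1280 → InW (dec n) := by
    rintro n (rfl | rfl | rfl) <;> (show enc (dec _) ∈ wList; decide +kernel)
  obtain ⟨q, hq⟩ := fix_W hs C hc hlin (hfix _ (hW3 5 (by simp))) (hfix _ (hW3 80 (by simp)))
    (hfix _ (hW3 1280 (by simp)))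
  exact ⟨q, by rw [← hq, map_mul, map_mul, map_inv, hδp]⟩

/-- Elements inverting or fixing `x₀` and preserving the 3-space normalise the lifts. -/
theorem conj_baseH_of_W {c : ↥(Subgroup.centralizer ({z} : Set G))}
    (hx : c * x₀ C * c⁻¹ = x₀ C ∨ c * x₀ C * c⁻¹ = (x₀ C)⁻¹)
    (hW : ∀ v, InW v → InW (C.act (QuotientGroup.mk c) v))
    {a : ↥(Subgroup.centralizer ({z} : Set G))} (ha : a ∈ baseH C) : c * a * c⁻¹ ∈ baseH C := by
  obtain ⟨d, hd, r, hr, rfl⟩ := (mem_baseH hs C hc).1 ha
  obtain ⟨v, hv, hdv⟩ := (mem_wLift hs C).1 hd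
  have h1 : c * d * c⁻¹ ∈ wLift C := (mem_wLift hs C).2 ⟨_, hW v hv, hdv.conj hs c⟩
  have h2 : c * r * c⁻¹ ∈ radLift C := by
    obtain ⟨hrx, p, hp⟩ := hr
    refine ⟨?_, ?_⟩
    · rcases hx with e | e
      · calc c * r * c⁻¹ * x₀ C = c * r * c⁻¹ * (c * x₀ C * c⁻¹) := by rw [e]
          _ = c * (r * x₀ C) * c⁻¹ := by group
          _ = c * x₀ C * c⁻¹ * (c * r * c⁻¹) := by rw [hrx]; group
          _ = x₀ C * (c * r * c⁻¹) := by rw [e]
      · have e' : c * (x₀ C)⁻¹ * c⁻¹ = x₀ C := by
          calc c * (x₀ C)⁻¹ * c⁻¹ = (c * x₀ C * c⁻¹)⁻¹ := by group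
            _ = x₀ C := by rw [e, inv_inv]
        calc c * r * c⁻¹ * x₀ C = c * r * c⁻¹ * (c * (x₀ C)⁻¹ * c⁻¹) := by rw [e']
          _ = c * (r * (x₀ C)⁻¹) * c⁻¹ := by group
          _ = c * (x₀ C)⁻¹ * c⁻¹ * (c * r * c⁻¹) := by
            rw [(Commute.inv_right (hrx : Commute r (x₀ C))).eq]; group
          _ = x₀ C * (c * r * c⁻¹) := by rw [e']
    · obtain ⟨q, hq⟩ := conj_rad hs C hc hW p
      exact ⟨q, by rw [QuotientGroup.mk_mul, QuotientGroup.mk_mul, QuotientGroup.mk_inv, map_mul,
        map_mul, map_inv, hp, hq]⟩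
  rw [show c * (d * r) * c⁻¹ = c * d * c⁻¹ * (c * r * c⁻¹) by group]
  exact (mem_baseH hs C hc).2 ⟨_, h1, _, h2, rfl⟩

/-- The three linear maps are induced. -/
theorem exists_mov (i : Fin 3) : ∃ c, (∀ v, enc (C.act (QuotientGroup.mk c) v) = appN (movL i.val) (enc v)) ∧
    c * x₀ C * c⁻¹ = x₀ C ∧ ∀ v, InW v → InW (C.act (QuotientGroup.mk c) v) := by
  obtain ⟨⟨l1, l2, l3, n1, n3, hsum, b1, b3, b2, hp⟩, hev, hbit⟩ := movPerm_check i
  set t := movPerm.getD i.val ([], [], 0, []) with ht
  obtain ⟨σ, hσ⟩ := list_perm t.1 b1 l1 n1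
  obtain ⟨τ, hτ⟩ := list_perm t.2.2.2 b3 l3 n3
  obtain ⟨α, hα0, hα⟩ := list_expo t.2.1 b2 l2 hsum
  have hσe : σ ∈ alternatingGroup (Fin 6) := Equiv.Perm.mem_alternatingGroup.2
    (sign_check σ (by rw [hσ]; exact hev _ (by simp)))
  have hτe : τ ∈ alternatingGroup (Fin 6) := Equiv.Perm.mem_alternatingGroup.2
    (sign_check τ (by rw [hτ]; exact hev _ (by simp)))
  obtain ⟨δ, hδP, hδ⟩ := exists_mono C hc σ hσe α hα0
  obtain ⟨ε, hεP, hε⟩ := exists_mono C hc τ hτe 0 (by simp)
  obtain ⟨ρ, hρ, hρp⟩ := exists_rad C hs hc ⟨t.2.2.1, hp⟩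
  obtain ⟨c, hcx, hcγ⟩ := exists_lift hs C (C.linPart.mul_mem
    (C.linPart.mul_mem (C.P_le_linPart hδP) hρ) (C.P_le_linPart hεP))
  have hval : ∀ v, enc (C.act (QuotientGroup.mk c) v) = appN (movL i.val) (enc v) := by
    intro v
    have h := eq_of_bits (f := fun n => enc (C.act (QuotientGroup.mk c) (dec n)))
      (g := fun n => appN (movL i.val) n)
      (fun a b => by simp only [dec_xor, act_addPt hs C, enc_addPt])
      (fun a b => appN_xor _ a b)
      (fun b hb => by
        have hlt : b < 4096 := by simp [bitsN] at hb; omega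
        have h0 : (List.ofFn fun i : Fin 6 => ((0 : Fin 6 → ZMod 3) i).val) = [0, 0, 0, 0, 0, 0] := by
          decide
        rw [beq_iff_eq.1 (List.all_eq_true.1 hbit b hb), hcγ, C.act_mul_apply, C.act_mul_apply,
          enc_mono C hδ, hσ, hα, hρp, enc_rP, enc_mono C hε, hτ, h0, enc_dec b hlt]
        rfl)
      (enc v) (enc_lt v)
    simpa [dec_enc] using h
  refine ⟨c, hval, mul_inv_eq_iff_eq_mul.2 hcx, act_W_of_basis hs C hc fun b hb => inW_of_proj ?_⟩
  have hblt : b < 4096 := by simp [wBasis] at hb; omega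
  rw [hval, enc_dec b hblt]
  simpa using List.all_eq_true.1 (mov_W_check i).1 b hb

omit hs hc in
/-- The elements over the sixteen maps. -/
def radPre : Subgroup ↥(Subgroup.centralizer ({z} : Set G)) where
  carrier := {c | ∃ p, C.act (QuotientGroup.mk c) = rP p}
  one_mem' := ⟨0, by rw [QuotientGroup.mk_one, map_one, rP_zero]⟩
  mul_mem' := by
    rintro a b ⟨p, hp⟩ ⟨q, hq⟩
    exact ⟨⟨(p.val ^^^ q.val) % 16, Nat.mod_lt _ (by norm_num)⟩,
      by rw [QuotientGroup.mk_mul, map_mul, hp, hq, rP_mul]⟩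
  inv_mem' := by
    rintro a ⟨p, hp⟩
    exact ⟨p, by rw [QuotientGroup.mk_inv, map_inv, hp, rP_inv]⟩

theorem card_radPre : Nat.card (radPre C) = 2 ^ 17 := by
  classical
  choose d hdm hdp using exists_radLift hs C hc
  have hQ : ∀ p, ∀ q : Q, C.act (QuotientGroup.mk (d p * q.1)) = rP p := fun p q => by
    rw [QuotientGroup.mk_mul, (QuotientGroup.eq_one_iff _).2 q.2, mul_one, hdp]
  let f : Fin 16 × Q → radPre C := fun a => ⟨d a.1 * a.2.1, a.1, hQ a.1 a.2⟩
  have hf : Function.Bijective f := by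
    refine ⟨?_, ?_⟩
    · rintro ⟨p, q⟩ ⟨p', q'⟩ h
      have h' : d p * q.1 = d p' * q'.1 := congrArg Subtype.val h
      obtain rfl : p = p' := rP_injective (by rw [← hQ p q, ← hQ p' q', h'])
      rw [Subtype.ext (mul_left_cancel h')]
    · rintro ⟨a, p, hp⟩
      refine ⟨(p, ⟨(d p)⁻¹ * a, ?_⟩), Subtype.ext (mul_inv_cancel_left _ _)⟩
      rw [← QuotientGroup.eq]
      exact C.act_injective (by rw [hdp, hp])
  rw [← Nat.card_eq_of_bijective f hf, Nat.card_prod, hs.2.2.2.1, Nat.card_eq_fintype_card,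
    Fintype.card_fin]
  norm_num

theorem radPre_normalizes {h : ↥(Subgroup.centralizer ({z} : Set G))} (hh : h ∈ radPre C) :
    (h : G) ∈ Subgroup.normalizer (baseA C : Set G) := by
  obtain ⟨p, hp⟩ := hh
  obtain ⟨r, hr, hrp⟩ := exists_radLift hs C hc p
  have hq : r⁻¹ * h ∈ Q := by
    rw [← QuotientGroup.eq]
    exact C.act_injective (by rw [hrp, hp])
  refine mem_normalizer_of_conj hs C fun a ha => ?_
  rw [show h * a * h⁻¹ = r * ((r⁻¹ * h) * a * (r⁻¹ * h)⁻¹) * r⁻¹ by group]
  have h1 := conj_baseH hs C hc hq ha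
  have hrH := radLift_le_baseH hs C hc hr
  exact mul_mem (mul_mem hrH h1) (inv_mem hrH)

/-- The normaliser of the subgroup in `C(z)` is large. -/
theorem card_normalizer_inf :
    2 ^ 17 * 2160 ≤
      Nat.card ↥(Subgroup.normalizer (baseA C : Set G) ⊓ Subgroup.centralizer ({z} : Set G)) := by
  classical
  choose cm hcm hcx hcW using exists_mov hs C hc
  obtain ⟨γ₃, hγ₃⟩ := exists_conjAut hs C hc
  obtain ⟨c₃, hc₃x, hc₃γ⟩ := exists_lift_pm hs C γ₃
  have h5 : InW (dec 5) := by show enc (dec 5) ∈ wList; decide +kernel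
  have hγ₃b : ∀ b ∈ wBasis, C.act γ₃ (dec b) = conjP (dec b) := by
    intro b hb
    rcases hγ₃ with e | e <;> rw [e]
    rw [Equiv.Perm.mul_apply, (conj_W_check b hb).2]
  have hγ₃W : ∀ v, InW v → InW (C.act (QuotientGroup.mk c₃) v) := by
    rw [hc₃γ]
    refine act_W_of_basis hs C hc fun b hb => inW_of_proj ?_
    rw [hγ₃b b hb, (conj_W_check b hb).1]
  have hγ₃ne : ∀ v, InW v → C.act γ₃ (shift (fun _ => 1) v) = shift (fun _ => 1) (C.act γ₃ v) →
      C.act γ₃ v = zeroPt := by
    intro v _ h
    rcases C.act_semilinear γ₃ with hl | hl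
    · exfalso
      have e := hl (dec 5)
      have h2 : shift (fun _ => (1 : ZMod 3)) (dec 5) = dec 10 := by decide +kernel
      rw [h2, hγ₃b 5 (by simp [wBasis]), hγ₃b 10 (by simp [wBasis])] at e
      revert e
      decide +kernel
    · exact eq_zero_of_shift (h.symm.trans (hl v))
  -- elements of the words
  let wc : List Nat → ↥(Subgroup.centralizer ({z} : Set G)) := fun w =>
    (w.map fun i => cm ⟨i % 3, Nat.mod_lt _ (by norm_num)⟩).prod
  have hwW : ∀ w, ∀ v, InW v → InW (C.act (QuotientGroup.mk (wc w)) v) := by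
    intro w
    induction w with
    | nil => intro v hv; simpa [wc] using hv
    | cons i w ih =>
      intro v hv
      show InW (C.act (QuotientGroup.mk (cm _ * wc w)) v)
      rw [QuotientGroup.mk_mul, C.act_mul_apply]
      exact hcW _ _ (ih v hv)
  have hwN : ∀ w, (∀ i ∈ w, i < 3) → ∀ v,
      enc (C.act (QuotientGroup.mk (wc w)) v) = wordN w (enc v) := by
    intro w
    induction w with
    | nil => intro _ v; simp [wc, wordN]
    | cons i w ih =>
      intro h v
      show enc (C.act (QuotientGroup.mk (cm _ * wc w)) v) = _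
      rw [QuotientGroup.mk_mul, C.act_mul_apply, hcm, ih (fun j hj => h j (List.mem_cons_of_mem _ hj))]
      simp [wordN, Nat.mod_eq_of_lt (h i List.mem_cons_self)]
  have hwlin : ∀ w v, C.act (QuotientGroup.mk (wc w)) (shift (fun _ => 1) v) =
      shift (fun _ => 1) (C.act (QuotientGroup.mk (wc w)) v) := by
    intro w
    induction w with
    | nil => intro v; simp [wc]
    | cons i w ih =>
      intro v
      show C.act (QuotientGroup.mk (cm _ * wc w)) _ = shift _ (C.act (QuotientGroup.mk (cm _ * wc w)) v)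
      rw [QuotientGroup.mk_mul, C.act_mul_apply, C.act_mul_apply, ih]
      have hx := hcx ⟨i % 3, Nat.mod_lt _ (by norm_num)⟩
      have hm := congrArg (fun a => C.act (QuotientGroup.mk a) (C.act (QuotientGroup.mk (wc w)) v))
        (mul_inv_eq_iff_eq_mul.1 hx)
      simpa only [QuotientGroup.mk_mul, C.act_mul_apply, act_x₀] using hm
  let s : Fin 2 × Fin 18 × Fin 60 → ↥(Subgroup.centralizer ({z} : Set G)) := fun a =>
    (if a.1 = 0 then 1 else c₃) * (wc (word18.getD a.2.1.val []) * wc (word60.getD a.2.2.val []))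
  have hsN : ∀ a, (s a : G) ∈ Subgroup.normalizer (baseA C : Set G) := by
    intro a
    have hwN' : ∀ w, (wc w : G) ∈ Subgroup.normalizer (baseA C : Set G) := by
      intro w
      induction w with
      | nil => simp [wc]
      | cons i w ih =>
        show ((cm _ * wc w : ↥(Subgroup.centralizer ({z} : Set G))) : G) ∈ _
        exact mul_mem (mem_normalizer_of_conj hs C fun b hb =>
          conj_baseH_of_W hs C hc (Or.inl (hcx _)) (hcW _) hb) ih
    refine mul_mem ?_ (mul_mem (hwN' _) (hwN' _))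
    split_ifs
    · simp
    · exact mem_normalizer_of_conj hs C fun b hb => conj_baseH_of_W hs C hc hc₃x hγ₃W hb
  let F : (Fin 2 × Fin 18 × Fin 60) × radPre C →
      ↥(Subgroup.normalizer (baseA C : Set G) ⊓ Subgroup.centralizer ({z} : Set G)) := fun a =>
    ⟨(s a.1 * a.2.1 : ↥(Subgroup.centralizer ({z} : Set G))).1,
      Subgroup.mem_inf.2 ⟨mul_mem (hsN a.1) (radPre_normalizes hs C hc a.2.2), Subtype.prop _⟩⟩
  have hF : Function.Injective F := by
    rintro ⟨⟨e, j, k⟩, r⟩ ⟨⟨e', j', k'⟩, r'⟩ h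
    have h' : s (e, j, k) * r.1 = s (e', j', k') * r'.1 :=
      Subtype.ext (congrArg Subtype.val h :)
    have himg : ∀ v, InW v →
        C.act (QuotientGroup.mk (s (e, j, k))) v = C.act (QuotientGroup.mk (s (e', j', k'))) v := by
      intro v hv
      obtain ⟨p, hp⟩ := r.2
      obtain ⟨q, hq⟩ := r'.2
      have := congrArg (fun a => C.act (QuotientGroup.mk a) v) h'
      simpa only [QuotientGroup.mk_mul, C.act_mul_apply, hp, hq, rP_fix _ hv] using this
    have hwl : ∀ (l : List (List Nat)) (n : Nat), l = word18 ∨ l = word60 →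
        ∀ i ∈ l.getD n [], i < 3 := by
      intro l n hl i hi
      by_cases hn : n < l.length
      · rw [List.getD_eq_getElem l [] hn] at hi
        have hall := List.all_eq_true.1 word_lt_check _ (show l[n] ∈ word18 ++ word60 by
          rw [List.mem_append]
          rcases hl with rfl | rfl
          · exact Or.inl (List.getElem_mem hn)
          · exact Or.inr (List.getElem_mem hn))
        simpa using List.all_eq_true.1 hall i hi
      · rw [List.getD_eq_default l [] (by omega)] at hi
        simp at hi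
    set M : Fin 18 → Fin 60 → ↥(Subgroup.centralizer ({z} : Set G)) := fun j k =>
      wc (word18.getD j.val []) * wc (word60.getD k.val []) with hM
    have hMv : ∀ j k v, enc (C.act (QuotientGroup.mk (M j k)) v) =
        wordN (word18.getD j.val []) (wordN (word60.getD k.val []) (enc v)) := by
      intro j k v
      rw [hM, QuotientGroup.mk_mul, C.act_mul_apply, hwN _ (hwl _ _ (Or.inl rfl)),
        hwN _ (hwl _ _ (Or.inr rfl))]
    have hMlin : ∀ j k v, C.act (QuotientGroup.mk (M j k)) (shift (fun _ => 1) v) =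
        shift (fun _ => 1) (C.act (QuotientGroup.mk (M j k)) v) := fun j k v => by
      rw [hM, QuotientGroup.mk_mul, C.act_mul_apply, C.act_mul_apply, hwlin, hwlin]
    have hMW : ∀ j k v, InW v → InW (C.act (QuotientGroup.mk (M j k)) v) := fun j k v hv => by
      rw [hM, QuotientGroup.mk_mul, C.act_mul_apply]
      exact hwW _ _ (hwW _ _ hv)
    have h5' : dec 5 ≠ zeroPt := fun h0 => absurd (congrArg enc h0) (by decide +kernel)
    have hee : e = e' := by
      by_contra hne
      have key : ∀ j k j' k', (∀ v, InW v → C.act (QuotientGroup.mk (M j k)) v =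
          C.act (QuotientGroup.mk (c₃ * M j' k')) v) → False := by
        intro j k j' k' hh
        have e1 := hh _ h5.scal
        rw [hMlin, hh _ h5, QuotientGroup.mk_mul, C.act_mul_apply, C.act_mul_apply, hMlin,
          hc₃γ] at e1
        have e2 := hγ₃ne _ (hMW j' k' _ h5) e1.symm
        refine h5' ((C.act (QuotientGroup.mk (c₃ * M j' k'))).injective ?_)
        rw [QuotientGroup.mk_mul, C.act_mul_apply, hc₃γ, e2]
        have hz : ∀ γ, C.act γ zeroPt = zeroPt := fun γ => by
          have := act_addPt hs C γ zeroPt zeroPt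
          rwa [addPt_self, addPt_self] at this
        simp only [hz]
      rcases (by omega : (e.val = 0 ∧ e'.val = 1) ∨ (e.val = 1 ∧ e'.val = 0)) with ⟨a, b⟩ | ⟨a, b⟩
      · obtain rfl : e = 0 := Fin.ext a
        obtain rfl : e' = 1 := Fin.ext b
        exact key j k j' k' fun v hv => by simpa [s, hM] using himg v hv
      · obtain rfl : e = 1 := Fin.ext a
        obtain rfl : e' = 0 := Fin.ext b
        exact key j' k' j k fun v hv => by simpa [s, hM] using (himg v hv).symm
    subst hee
    have himg' : ∀ v, InW v →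
        C.act (QuotientGroup.mk (M j k)) v = C.act (QuotientGroup.mk (M j' k')) v := by
      intro v hv
      have h1 := himg v hv
      simp only [s, QuotientGroup.mk_mul, C.act_mul_apply] at h1
      simp only [hM, QuotientGroup.mk_mul, C.act_mul_apply]
      exact (C.act _).injective h1
    have hcode : ∀ b, InW (dec b) → b < 4096 →
        wordN (word18.getD j.val []) (wordN (word60.getD k.val []) b) =
        wordN (word18.getD j'.val []) (wordN (word60.getD k'.val []) b) := by
      intro b hbW hb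
      have h1 := congrArg enc (himg' _ hbW)
      rwa [hMv, hMv, enc_dec b hb] at h1
    have hk5 : ∀ k : Fin 60, wordN (word60.getD k.val []) 5 = 5 := by
      intro k
      have hk : k.val < word60.length := by rw [word60_check.2.2]; exact k.isLt
      rw [List.getD_eq_getElem _ _ hk]
      simpa using List.all_eq_true.1 word60_check.2.1 _ (List.getElem_mem hk)
    have hj : j = j' := by
      have h1 := hcode 5 h5 (by norm_num)
      rw [hk5, hk5] at h1
      have hl : j.val < (word18.map fun w => wordN w 5).length := by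
        rw [List.length_map, word18_check.2]; exact j.isLt
      have hl' : j'.val < (word18.map fun w => wordN w 5).length := by
        rw [List.length_map, word18_check.2]; exact j'.isLt
      refine Fin.ext ((List.Nodup.getElem_inj_iff word18_check.1).1
        (show (word18.map fun w => wordN w 5)[j.val] = (word18.map fun w => wordN w 5)[j'.val] from ?_))
      simp only [List.getElem_map]
      rwa [List.getD_eq_getElem _ _ (by simpa using hl), List.getD_eq_getElem _ _ (by simpa using hl')] at h1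
    subst hj
    have hkk : k = k' := by
      have hinj : ∀ a b : Nat, a < 4096 → b < 4096 →
          wordN (word18.getD j.val []) a = wordN (word18.getD j.val []) b → a = b := by
        intro a b ha hb hab
        have h1 : C.act (QuotientGroup.mk (wc (word18.getD j.val []))) (dec a) =
            C.act (QuotientGroup.mk (wc (word18.getD j.val []))) (dec b) := by
          refine enc_injective ?_
          rw [hwN _ (hwl _ _ (Or.inl rfl)), hwN _ (hwl _ _ (Or.inl rfl)), enc_dec a ha,
            enc_dec b hb, hab]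
        rw [← enc_dec a ha, ← enc_dec b hb, (C.act _).injective h1]
      have hlt : ∀ (k : Fin 60) b, b < 4096 → wordN (word60.getD k.val []) b < 4096 := fun k b hb => by
        rw [← enc_dec b hb, ← hwN _ (hwl _ _ (Or.inr rfl))]; exact enc_lt _
      have hW : ∀ b, b = 80 ∨ b = 1280 → InW (dec b) ∧ b < 4096 := by
        rintro b (rfl | rfl) <;>
          exact ⟨by show enc (dec _) ∈ wList; decide +kernel, by norm_num⟩
      have a1 := hinj _ _ (hlt _ _ (by norm_num)) (hlt _ _ (by norm_num))
        (hcode 80 (hW 80 (by simp)).1 (by norm_num))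
      have a2 := hinj _ _ (hlt _ _ (by norm_num)) (hlt _ _ (by norm_num))
        (hcode 1280 (hW 1280 (by simp)).1 (by norm_num))
      have hl : k.val < (word60.map fun w => (wordN w 80, wordN w 1280)).length := by
        rw [List.length_map, word60_check.2.2]; exact k.isLt
      have hl' : k'.val < (word60.map fun w => (wordN w 80, wordN w 1280)).length := by
        rw [List.length_map, word60_check.2.2]; exact k'.isLt
      refine Fin.ext ((List.Nodup.getElem_inj_iff word60_check.1).1
        (show (word60.map fun w => (wordN w 80, wordN w 1280))[k.val] =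
          (word60.map fun w => (wordN w 80, wordN w 1280))[k'.val] from ?_))
      simp only [List.getElem_map]
      rw [List.getD_eq_getElem _ _ (by simpa using hl), List.getD_eq_getElem _ _ (by simpa using hl')] at a1 a2
      rw [a1, a2]
    subst hkk
    exact Prod.ext rfl (Subtype.ext (mul_left_cancel h'))
  have h := Nat.card_le_card_of_injective F hF
  rw [Nat.card_prod, card_radPre hs C hc, Nat.card_eq_fintype_card] at h
  simp only [Fintype.card_prod, Fintype.card_fin] at h
  omega

end CfsgLib.LargeFischer.Base
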