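import Cfsg.Agent.Lib.LargeFischer.Base.Move

/-!
Large Fischer type: the exact order of the normaliser of the elementary abelian subgroup in the
centraliser of the involution, by counting the maps of the 3-space preserving the shorter class.
-/

set_option autoImplicit false
set_option linter.unusedSectionVars false
set_option linter.style.haveILetI false

namespace CfsgLib.LargeFischer.Base

open Orbits CfsgLib.ExtraspecialLarge

/-- The short codes of the 3-space. -/
def shortNW : List Nat := wList.filter shortN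

/-- Possible images of `80` under a linear map of the 3-space fixing `5`. -/
def cand80 : List Nat :=
  wList.filter fun b => (spanN [5, b]).map shortN == (spanN [5, 80]).map shortN

/-- Possible pairs of images of `80` and `1280`. -/
def candPairs : List (Nat × Nat) :=
  cand80.flatMap fun b =>
    (wList.filter fun c => (spanN [5, b, c]).map shortN == (spanN [5, 80, 1280]).map shortN).map
      fun c => (b, c)

theorem shortNW_count : shortNW.length ≤ 18 := by decide +kernel

theorem candPairs_count : candPairs.length ≤ 60 := by decide +kernel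

theorem span_base_lt : ∀ l ∈ ([[5], [5, 80], [5, 80, 1280]] : List (List Nat)),
    (spanN l).all (fun n => decide (n < 4096)) = true := by decide +kernel

theorem w_basis_check : ∀ n ∈ ([5, 80, 1280] : List Nat),
    n ∈ wList ∧ n < 4096 ∧ (n = 5 → shortN n = true) := by decide +kernel

/-- A subgroup mapped into a set with fibres in cosets of another. -/
theorem card_le_of_fibres {Γ α : Type*} [Group Γ] [Finite Γ] (S K : Subgroup Γ) (f : Γ → α)
    (T : Finset α) (hT : ∀ a ∈ S, f a ∈ T) (hK : ∀ a ∈ S, ∀ b ∈ S, f a = f b → a⁻¹ * b ∈ K) :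
    Nat.card S ≤ T.card * Nat.card K := by
  classical
  have hex : ∀ t : T, ∃ r : Γ, ∀ a ∈ S, f a = t → r⁻¹ * a ∈ K := by
    intro t
    by_cases h : ∃ r ∈ S, f r = t
    · obtain ⟨r, hr, hrt⟩ := h
      exact ⟨r, fun a ha hat => hK r hr a ha (hrt.trans hat.symm)⟩
    · exact ⟨1, fun a ha hat => absurd ⟨a, ha, hat⟩ h⟩
  choose r hr using hex
  let F : S → T × K := fun a => (⟨f a, hT a a.2⟩, ⟨(r ⟨f a, hT a a.2⟩)⁻¹ * a, hr _ a a.2 rfl⟩)
  have hF : Function.Injective F := by
    intro a b h
    have h1 : (⟨f a, hT a a.2⟩ : T) = ⟨f b, hT b b.2⟩ := congrArg Prod.fst h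
    have h2 := congrArg (fun x => (x.2 : Γ)) h
    simp only [F, h1] at h2
    exact Subtype.ext (mul_left_cancel h2)
  have h := Nat.card_le_card_of_injective F hF
  rwa [Nat.card_prod, Nat.card_eq_finsetCard] at h

/-- Additive maps commuting with the scalar carry spans to spans. -/
theorem spanN_map (f : Nat → Nat) (h0 : f 0 = 0) (hx : ∀ a b, f (a ^^^ b) = f a ^^^ f b)
    (hsc : ∀ a, a < 4096 → f (scalN a) = scalN (f a)) :
    ∀ l : List Nat, (∀ a ∈ l, a < 4096) → (spanN l).map f = spanN (l.map f) := by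
  intro l
  induction l with
  | nil => intro _; simp [spanN, h0]
  | cons b l ih =>
    intro hl
    have hb := hl b List.mem_cons_self
    simp only [spanN, List.map_cons]
    rw [← ih fun a ha => hl a (List.mem_cons_of_mem _ ha), List.map_flatMap, List.flatMap_map]
    refine List.flatMap_congr fun x _ => ?_
    simp only [List.map_cons, List.map_nil, hx, hsc b hb, hsc _ (scalN_lt hb)]

variable {G : Type*} [Group G] [Finite G] {z : G}
  {Q : Subgroup ↥(Subgroup.centralizer ({z} : Set G))} [Q.Normal]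
  (hs : Cfsg.IsExtraspecialCentralizerSetting z Q 6) (C : Coords z Q) (hc : C.ClassData 0)
include hs hc

omit hs hc in
/-- The classes preserving the 3-space. -/
def keepW (C : Coords z Q) : Submonoid (↥(Subgroup.centralizer ({z} : Set G)) ⧸ Q) where
  carrier := {γ | ∀ v, InW v → InW (C.act γ v)}
  one_mem' := fun v hv => by simpa using hv
  mul_mem' := fun {a b} ha hb v hv => by rw [C.act_mul_apply]; exact ha _ (hb _ hv)

omit hs hc in
/-- The classes preserving the 3-space, as a subgroup. -/
def keepG (hs : Cfsg.IsExtraspecialCentralizerSetting z Q 6) (C : Coords z Q) (hc : C.ClassData 0) :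
    Subgroup (↥(Subgroup.centralizer ({z} : Set G)) ⧸ Q) :=
  { keepW C with inv_mem' := fun {a} (h : ∀ v, InW v → InW (C.act a v)) => act_W_inv hs C hc h }

theorem mem_keepG {γ : ↥(Subgroup.centralizer ({z} : Set G)) ⧸ Q} :
    γ ∈ keepG hs C hc ↔ ∀ v, InW v → InW (C.act γ v) := Iff.rfl

omit hs hc in
/-- The code of the image of a code. -/
def imgN (C : Coords z Q) (γ : ↥(Subgroup.centralizer ({z} : Set G)) ⧸ Q) (n : Nat) : Nat :=
  enc (C.act γ (dec n))

theorem card_keep_linear :
    Nat.card ↥(keepG hs C hc ⊓ C.linPart) ≤ 18 * 60 * 16 := by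
  classical
  set Γ := ↥(Subgroup.centralizer ({z} : Set G)) ⧸ Q
  have hW : ∀ n : Nat, n = 5 ∨ n = 80 ∨ n = 1280 → InW (dec n) := by
    rintro n (rfl | rfl | rfl) <;> (show enc (dec _) ∈ wList; decide +kernel)
  set S₁ : Subgroup Γ := keepG hs C hc ⊓ C.linPart with hS₁
  let S₂ : Subgroup Γ :=
    { carrier := {γ | γ ∈ S₁ ∧ C.act γ (dec 5) = dec 5}
      one_mem' := ⟨one_mem _, by simp⟩
      mul_mem' := fun {a b} ha hb => ⟨mul_mem ha.1 hb.1, by rw [C.act_mul_apply, hb.2, ha.2]⟩
      inv_mem' := fun {a} ha => ⟨inv_mem ha.1, by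
        rw [map_inv, Equiv.Perm.inv_eq_iff_eq, ha.2]⟩ }
  let R : Subgroup Γ :=
    { carrier := {γ | ∃ p, C.act γ = rP p}
      one_mem' := ⟨0, by rw [map_one, rP_zero]⟩
      mul_mem' := by
        rintro a b ⟨p, hp⟩ ⟨q, hq⟩
        exact ⟨⟨(p.val ^^^ q.val) % 16, Nat.mod_lt _ (by norm_num)⟩,
          by rw [map_mul, hp, hq, rP_mul]⟩
      inv_mem' := by
        rintro a ⟨p, hp⟩
        exact ⟨p, by rw [map_inv, hp, rP_inv]⟩ }
  have hx : ∀ γ : Γ, ∀ a b, imgN C γ (a ^^^ b) = imgN C γ a ^^^ imgN C γ b := fun γ a b => by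
    simp only [imgN, dec_xor, act_addPt hs C, enc_addPt]
  have h00 : ∀ γ : Γ, imgN C γ 0 = 0 := fun γ => by
    have := hx γ 0 0
    simpa using this
  have hsc : ∀ γ ∈ S₁, ∀ a, a < 4096 → imgN C γ (scalN a) = scalN (imgN C γ a) := by
    intro γ hγ a ha
    simp only [imgN]
    rw [scalN_eq ha, C.mem_linPart.1 hγ.2]
    have h := scalN_eq (enc_lt (C.act γ (dec a)))
    rw [dec_enc] at h
    rw [← h, enc_dec _ (scalN_lt (enc_lt _))]
  have hshort : ∀ γ : Γ, ∀ n, n < 4096 → shortN (imgN C γ n) = shortN n := by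
    intro γ n hn
    refine Bool.eq_iff_iff.2 ?_
    simp only [imgN]
    rw [← inTwo_iff, ← enc_dec n hn, ← inTwo_iff, dec_enc]
    refine ⟨fun h => ?_, hc.two_act γ _⟩
    have h' := hc.two_act γ⁻¹ _ h
    rwa [C.act_inv_apply rfl] at h'
  have hmemW : ∀ γ ∈ S₁, ∀ n, n = 5 ∨ n = 80 ∨ n = 1280 → imgN C γ n ∈ wList := fun γ hγ n hn =>
    (mem_keepG hs C hc).1 hγ.1 _ (hW n hn)
  have hspan : ∀ γ ∈ S₁, ∀ l ∈ ([[5], [5, 80], [5, 80, 1280]] : List (List Nat)),
      (spanN (l.map (imgN C γ))).map shortN = (spanN l).map shortN := by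
    intro γ hγ l hl
    have hlt : ∀ a ∈ l, a < 4096 := by
      intro a ha
      simp only [List.mem_cons, List.not_mem_nil, or_false] at hl
      rcases hl with rfl | rfl | rfl <;>
        (simp only [List.mem_cons, List.not_mem_nil, or_false] at ha; omega)
    rw [← spanN_map _ (h00 γ) (hx γ) (hsc γ hγ) l hlt, List.map_map]
    refine List.map_congr_left fun n hn => hshort γ n ?_
    simpa using List.all_eq_true.1 (span_base_lt l hl) n hn
  have hfix5 : ∀ γ ∈ S₂, imgN C γ 5 = 5 := fun γ hγ => by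
    rw [imgN, hγ.2, enc_dec 5 (by norm_num)]
  have h1 : Nat.card S₁ ≤ 18 * Nat.card S₂ := by
    refine le_trans (card_le_of_fibres S₁ S₂ (fun γ => imgN C γ 5) shortNW.toFinset ?_ ?_)
      (Nat.mul_le_mul_right _ (le_trans (List.toFinset_card_le _) shortNW_count))
    · intro γ hγ
      rw [List.mem_toFinset, shortNW, List.mem_filter]
      refine ⟨hmemW γ hγ 5 (Or.inl rfl), ?_⟩
      rw [hshort γ 5 (by norm_num)]
      exact (w_basis_check 5 (by simp)).2.2 rfl
    · intro a ha b hb e
      refine ⟨mul_mem (inv_mem ha) hb, ?_⟩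
      rw [C.act_mul_apply, map_inv, Equiv.Perm.inv_eq_iff_eq]
      exact enc_injective (by simpa [imgN] using e.symm)
  have h2 : Nat.card S₂ ≤ 60 * Nat.card R := by
    refine le_trans (card_le_of_fibres S₂ R (fun γ => (imgN C γ 80, imgN C γ 1280)) candPairs.toFinset ?_ ?_)
      (Nat.mul_le_mul_right _ (le_trans (List.toFinset_card_le _) candPairs_count))
    · intro γ hγ
      have e1 := hspan γ hγ.1 [5, 80] (by simp)
      have e2 := hspan γ hγ.1 [5, 80, 1280] (by simp)
      simp only [List.map_cons, List.map_nil, hfix5 γ hγ] at e1 e2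
      rw [List.mem_toFinset, candPairs, List.mem_flatMap]
      refine ⟨imgN C γ 80, ?_, List.mem_map.2 ⟨imgN C γ 1280, ?_, rfl⟩⟩
      · rw [cand80, List.mem_filter]
        exact ⟨hmemW γ hγ.1 80 (by simp), by simpa using e1⟩
      · rw [List.mem_filter]
        exact ⟨hmemW γ hγ.1 1280 (by simp), by simpa using e2⟩
    · intro a ha b hb e
      simp only [Prod.mk.injEq, imgN] at e
      have hf : ∀ n, C.act a (dec n) = C.act b (dec n) → C.act (a⁻¹ * b) (dec n) = dec n := by
        intro n h
        rw [C.act_mul_apply, map_inv, Equiv.Perm.inv_eq_iff_eq, h]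
      exact fix_W hs C hc (C.linPart.mul_mem (C.linPart.inv_mem ha.1.2) hb.1.2)
        (hf 5 (ha.2.trans hb.2.symm)) (hf 80 (enc_injective e.1)) (hf 1280 (enc_injective e.2))
  have h3 : Nat.card R ≤ 16 := by
    have h := Nat.card_le_card_of_injective (fun a : R => a.2.choose) fun a b e => by
      refine Subtype.ext (C.act_injective ?_)
      rw [a.2.choose_spec, b.2.choose_spec]
      exact congrArg rP e
    rwa [Nat.card_eq_fintype_card (α := Fin 16), Fintype.card_fin] at h
  calc Nat.card S₁ ≤ 18 * Nat.card S₂ := h1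
    _ ≤ 18 * (60 * Nat.card R) := Nat.mul_le_mul_left _ h2
    _ ≤ 18 * (60 * 16) := Nat.mul_le_mul_left _ (Nat.mul_le_mul_left _ h3)
    _ = 18 * 60 * 16 := by norm_num

/-- The exact order of the normaliser in `C(z)`. -/
theorem card_normalizer_inf_eq :
    Nat.card ↥(Subgroup.normalizer (baseA C : Set G) ⊓ Subgroup.centralizer ({z} : Set G)) =
      2 ^ 17 * 2160 := by
  classical
  refine le_antisymm ?_ (card_normalizer_inf hs C hc)
  set N := (Subgroup.normalizer (baseA C : Set G)).subgroupOf (Subgroup.centralizer ({z} : Set G))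
    with hN
  have hNc : Nat.card ↥(Subgroup.normalizer (baseA C : Set G) ⊓ Subgroup.centralizer ({z} : Set G)) =
      Nat.card N := by
    rw [hN, ← Subgroup.inf_subgroupOf_right,
      Nat.card_congr (Subgroup.subgroupOfEquivOfLe inf_le_right).toEquiv]
  rw [hNc]
  set π := QuotientGroup.mk' Q
  have hkeep : N.map π ≤ keepG hs C hc := by
    rintro _ ⟨h, hh, rfl⟩
    refine (mem_keepG hs C hc).2 fun v hv => ?_
    have hd : C.lift v ∈ wLift C := (mem_wLift hs C).2 ⟨v, hv, Or.inl rfl⟩
    obtain ⟨a, ha, hav⟩ := (Subgroup.mem_normalizer_iff.1 (Subgroup.mem_subgroupOf.1 hh) _).1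
      ⟨C.lift v, wLift_le_baseH hs C hc hd, rfl⟩
    have e : a = h * C.lift v * h⁻¹ := Subtype.ext hav
    have hQ : a ∈ Q := by
      rw [e]; exact (inferInstance : Q.Normal).conj_mem _ (wLift_le hs C hd) h
    have hw : a ∈ wLift C := by
      rw [← baseH_inf hs C hc]; exact ⟨ha, hQ⟩
    obtain ⟨w, hw1, hw2⟩ := (mem_wLift hs C).1 hw
    have hr : C.Rep v (C.lift v) := Or.inl rfl
    have h1 := hr.conj hs h
    rw [← e] at h1
    show InW (C.act (QuotientGroup.mk h) v)
    rwa [h1.unique hs hw2]
  have hker : Nat.card N ≤ Nat.card Q * Nat.card (N.map π) := by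
    set f := π.comp N.subtype with hf
    have h := f.ker.card_mul_index
    rw [Subgroup.index_ker] at h
    have hk : Nat.card f.ker ≤ Nat.card Q :=
      Nat.card_le_card_of_injective (fun a => (⟨(a.1 : ↥(Subgroup.centralizer ({z} : Set G))),
        (QuotientGroup.eq_one_iff _).1 (MonoidHom.mem_ker.1 a.2)⟩ : Q)) fun a b e =>
        Subtype.ext (Subtype.ext (congrArg Subtype.val e :))
    have hr : f.range = N.map π := by rw [hf, MonoidHom.range_comp, Subgroup.range_subtype]
    rw [hr] at h
    rw [← h]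
    exact Nat.mul_le_mul_right _ hk
  have hlin : Nat.card (keepG hs C hc) ≤ 2 * Nat.card ↥(keepG hs C hc ⊓ C.linPart) := by
    have h := Subgroup.card_mul_index (C.linPart.subgroupOf (keepG hs C hc))
    haveI : C.linPart.Normal := Subgroup.normal_of_index_eq_two (C.index_linPart hs)
    have h1 : (C.linPart.subgroupOf (keepG hs C hc)).index ≤ 2 :=
      Nat.le_of_dvd (by norm_num) ((C.index_linPart hs) ▸
        Subgroup.relIndex_dvd_index_of_normal C.linPart (keepG hs C hc))
    have h2 : Nat.card (C.linPart.subgroupOf (keepG hs C hc)) =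
        Nat.card ↥(keepG hs C hc ⊓ C.linPart) := by
      rw [← Subgroup.inf_subgroupOf_right C.linPart (keepG hs C hc), inf_comm (keepG hs C hc)]
      exact Nat.card_congr (Subgroup.subgroupOfEquivOfLe inf_le_right).toEquiv
    rw [← h, h2, Nat.mul_comm 2]
    exact Nat.mul_le_mul_left _ h1
  calc Nat.card N ≤ Nat.card Q * Nat.card (N.map π) := hker
    _ ≤ Nat.card Q * (2 * (18 * 60 * 16)) :=
        Nat.mul_le_mul_left _ (((Subgroup.card_le_of_le hkeep).trans hlin).trans
          (Nat.mul_le_mul_left _ (card_keep_linear hs C hc)))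
    _ = 2 ^ 17 * 2160 := by rw [hs.2.2.2.1]; norm_num

end CfsgLib.LargeFischer.Base
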