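import Cfsg.Agent.Lib.LargeFischer.Base.Chain

/-!
Large Fischer type: a group of sixteen maps fixing a singular 3-space pointwise lies in the image
of `H/Q`.
-/

set_option autoImplicit false
set_option linter.unusedSectionVars false
set_option linter.style.haveILetI false

namespace CfsgLib.LargeFischer.Base

open Orbits

/-- The images of the unit bits under the `p`-th map. -/
def rImg (p : Fin 16) : List Nat := radImgs.getD p.val []

/-- The unit bits. -/
def bitsN : List Nat := [1, 2, 4, 8, 16, 32, 64, 128, 256, 512, 1024, 2048]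

theorem rImg_check : ∀ p : Fin 16, ((rImg p).all fun a => decide (a < 4096)) = true ∧
    (bitsN.all fun b => appN (rImg p) (appN (rImg p) b) == b &&
      appN (rImg p) (scalN b) == scalN (appN (rImg p) b)) = true := by decide +kernel

theorem rImg_mul : ∀ p q : Fin 16, (bitsN.all fun b =>
    appN (rImg p) (appN (rImg q) b) == appN (rImg ⟨(p.val ^^^ q.val) % 16,
      Nat.mod_lt _ (by norm_num)⟩) b) = true := by decide +kernel

theorem rImg_keep : ([1, 2, 4, 8] : List (Fin 16)).all (fun p => (List.range 4096).all fun n =>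
    shortN (appN (rImg p) n) == shortN n && qN (appN (rImg p) n) == qN n) = true := by
  decide +kernel

theorem eq_of_bits {f g : Nat → Nat} (hf : ∀ a b, f (a ^^^ b) = f a ^^^ f b)
    (hg : ∀ a b, g (a ^^^ b) = g a ^^^ g b) (h : ∀ b ∈ bitsN, f b = g b) :
    ∀ n < 4096, f n = g n := by
  have key : ∀ k, k ≤ 12 → ∀ n, n < 2 ^ k → f n = g n := by
    intro k
    induction k with
    | zero =>
      intro _ n hn
      obtain rfl : n = 0 := by omega
      have h1 := hf 0 0
      have h2 := hg 0 0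
      simp only [Nat.xor_self] at h1 h2
      rw [h1, h2]
    | succ k ih =>
      intro hk n hn
      by_cases hlt : n < 2 ^ k
      · exact ih (by omega) n hlt
      · rw [pow_succ] at hn
        obtain ⟨m, hm, rfl⟩ : ∃ m, m < 2 ^ k ∧ n = 2 ^ k ^^^ m := by
          refine ⟨n - 2 ^ k, by omega, ?_⟩
          have h' : n - 2 ^ k < 2 ^ k := by omega
          have h2 : 2 ^ k + (n - 2 ^ k) = 2 ^ k ||| (n - 2 ^ k) := by
            simpa using Nat.two_pow_add_eq_or_of_lt h' 1
          apply Nat.eq_of_testBit_eq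
          intro i
          rw [Nat.testBit_xor]
          conv_lhs => rw [show n = 2 ^ k + (n - 2 ^ k) by omega, h2, Nat.testBit_or]
          by_cases hik : i = k
          · subst hik
            rw [Nat.testBit_lt_two_pow h']
            simp
          · rw [Nat.testBit_two_pow_of_ne (Ne.symm hik)]
            simp
        rw [hf, hg, ih (by omega) m hm, h (2 ^ k) (by
          have : k < 12 := by omega
          interval_cases k <;> simp [bitsN])]
  exact fun n hn => key 12 le_rfl n hn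

theorem scalN_eq {n : Nat} (hn : n < 4096) : dec (scalN n) = shift (fun _ => 1) (dec n) := by
  conv_lhs => rw [← enc_dec n hn, ← enc_shift, dec_enc]

theorem scalN_lt {n : Nat} (hn : n < 4096) : scalN n < 4096 := by
  rw [← enc_dec n hn, ← enc_shift]; exact enc_lt _

theorem dec_eq_mod (b : Nat) : dec b = dec (b % 4096) ∧ scalN b = scalN (b % 4096) := by
  have hd : ∀ i < 6, dig b i = dig (b % 4096) i := by
    intro i hi
    unfold dig
    rw [Nat.shiftRight_eq_div_pow, Nat.shiftRight_eq_div_pow]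
    interval_cases i <;> norm_num <;> omega
  refine ⟨?_, ?_⟩
  · funext i
    show toCoord (dig b i.val) = _
    rw [hd i.val i.isLt]
    rfl
  · unfold scalN
    simp only []
    rw [hd 0 (by norm_num), hd 1 (by norm_num), hd 2 (by norm_num), hd 3 (by norm_num),
      hd 4 (by norm_num), hd 5 (by norm_num)]

theorem scalN_xor (a b : Nat) : scalN (a ^^^ b) = scalN a ^^^ scalN b := by
  have h : ∀ x y, x < 4096 → y < 4096 → scalN (x ^^^ y) = scalN x ^^^ scalN y := by
    intro x y hx hy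
    rw [← enc_dec x hx, ← enc_dec y hy, ← enc_addPt, ← enc_shift, ← enc_shift, ← enc_shift,
      ← enc_addPt]
    congr 1
    funext i
    have h' : ∀ b c : Option (ZMod 3), (addCoord b c).map (· + 1) =
        addCoord (b.map (· + 1)) (c.map (· + 1)) := by decide
    exact h' _ _
  rw [(dec_eq_mod (a ^^^ b)).2, (dec_eq_mod a).2, (dec_eq_mod b).2,
    show (4096 : Nat) = 2 ^ 12 from rfl, Nat.xor_mod_two_pow]
  exact h _ _ (Nat.mod_lt _ (by norm_num)) (Nat.mod_lt _ (by norm_num))

theorem rImg_lt (p : Fin 16) (n : Nat) : appN (rImg p) n < 4096 :=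
  appN_lt _ _ fun a ha => by simpa using List.all_eq_true.1 (rImg_check p).1 a ha

theorem rImg_mul' (p q : Fin 16) {n : Nat} (hn : n < 4096) :
    appN (rImg p) (appN (rImg q) n) =
      appN (rImg ⟨(p.val ^^^ q.val) % 16, Nat.mod_lt _ (by norm_num)⟩) n :=
  eq_of_bits (f := fun n => appN (rImg p) (appN (rImg q) n))
    (fun a b => by simp only [appN_xor]) (fun a b => appN_xor _ a b)
    (fun b hb => by simpa using List.all_eq_true.1 (rImg_mul p q) b hb) n hn

theorem rImg_invol (p : Fin 16) {n : Nat} (hn : n < 4096) :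
    appN (rImg p) (appN (rImg p) n) = n :=
  eq_of_bits (f := fun n => appN (rImg p) (appN (rImg p) n))
    (fun a b => by simp only [appN_xor]) (g := fun n => n) (fun _ _ => rfl)
    (fun b hb => by
      have h := List.all_eq_true.1 (rImg_check p).2 b hb
      simp only [Bool.and_eq_true, beq_iff_eq] at h
      exact h.1) n hn

/-- The `p`-th map. -/
def rP (p : Fin 16) : Equiv.Perm Pt where
  toFun v := dec (appN (rImg p) (enc v))
  invFun v := dec (appN (rImg p) (enc v))
  left_inv v := by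
    show dec (appN (rImg p) (enc (dec (appN (rImg p) (enc v))))) = v
    rw [enc_dec _ (rImg_lt p _), rImg_invol p (enc_lt v), dec_enc]
  right_inv v := by
    show dec (appN (rImg p) (enc (dec (appN (rImg p) (enc v))))) = v
    rw [enc_dec _ (rImg_lt p _), rImg_invol p (enc_lt v), dec_enc]

theorem rP_apply (p : Fin 16) (v : Pt) : rP p v = dec (appN (rImg p) (enc v)) := rfl

theorem enc_rP (p : Fin 16) (v : Pt) : enc (rP p v) = appN (rImg p) (enc v) := by
  rw [rP_apply, enc_dec _ (rImg_lt p _)]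

theorem rP_mul (p q : Fin 16) :
    rP p * rP q = rP ⟨(p.val ^^^ q.val) % 16, Nat.mod_lt _ (by norm_num)⟩ := by
  refine Equiv.ext fun v => enc_injective ?_
  rw [Equiv.Perm.mul_apply, enc_rP, enc_rP, enc_rP, rImg_mul' p q (enc_lt v)]

theorem rP_zero : rP 0 = 1 := by
  refine Equiv.ext fun v => enc_injective ?_
  rw [enc_rP]
  exact eq_of_bits (fun a b => appN_xor _ a b) (g := fun n => n) (fun _ _ => rfl)
    (by decide +kernel) _ (enc_lt v)

theorem rP_inv (p : Fin 16) : (rP p)⁻¹ = rP p := rfl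

theorem rP_mem_of_gen {S : Subgroup (Equiv.Perm Pt)} (h1 : rP 1 ∈ S) (h2 : rP 2 ∈ S)
    (h4 : rP 4 ∈ S) (h8 : rP 8 ∈ S) : ∀ p, rP p ∈ S := by
  have hm : ∀ p q : Fin 16, rP p ∈ S → rP q ∈ S →
      rP ⟨(p.val ^^^ q.val) % 16, Nat.mod_lt _ (by norm_num)⟩ ∈ S := fun p q hp hq => by
    rw [← rP_mul]; exact mul_mem hp hq
  have h3 : rP 3 ∈ S := hm 1 2 h1 h2
  have h5 : rP 5 ∈ S := hm 1 4 h1 h4
  have h6 : rP 6 ∈ S := hm 2 4 h2 h4
  have h7 : rP 7 ∈ S := hm 3 4 h3 h4
  intro p
  fin_cases p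
  · exact rP_zero ▸ one_mem S
  · exact h1
  · exact h2
  · exact h3
  · exact h4
  · exact h5
  · exact h6
  · exact h7
  · exact h8
  · exact hm 1 8 h1 h8
  · exact hm 2 8 h2 h8
  · exact hm 3 8 h3 h8
  · exact hm 4 8 h4 h8
  · exact hm 5 8 h5 h8
  · exact hm 6 8 h6 h8
  · exact hm 7 8 h7 h8

theorem rP_mem_isoGroup : ∀ p, rP p ∈ isoGroup := by
  have key : ∀ p : Fin 16, p ∈ ([1, 2, 4, 8] : List (Fin 16)) → rP p ∈ isoGroup := by
    intro p hp
    have hk : ∀ n < 4096, shortN (appN (rImg p) n) = shortN n ∧ qN (appN (rImg p) n) = qN n :=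
      fun n hn => by
        have h := List.all_eq_true.1 (List.all_eq_true.1 rImg_keep p hp) n (List.mem_range.2 hn)
        simpa using h
    refine ⟨fun u w => ?_, fun v => ?_, fun v => ?_, fun v => ?_⟩
    · refine enc_injective ?_
      rw [enc_rP, enc_addPt, enc_addPt, enc_rP, enc_rP, appN_xor]
    · refine enc_injective ?_
      rw [enc_rP, enc_shift, enc_shift, enc_rP]
      exact eq_of_bits (f := fun n => appN (rImg p) (scalN n))
        (g := fun n => scalN (appN (rImg p) n)) (fun a b => by simp only [scalN_xor, appN_xor])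
        (fun a b => by simp only [appN_xor, scalN_xor])
        (fun b hb => by
          have h := List.all_eq_true.1 (rImg_check p).2 b hb
          simp only [Bool.and_eq_true, beq_iff_eq] at h
          exact h.2) _ (enc_lt v)
    · rw [inTwo_iff, inTwo_iff, enc_rP, (hk _ (enc_lt v)).1]
    · rw [even_iff, even_iff, enc_rP, (hk _ (enc_lt v)).2]
  exact rP_mem_of_gen (key 1 (by simp)) (key 2 (by simp)) (key 4 (by simp)) (key 8 (by simp))

variable {G : Type*} [Group G] [Finite G] {z : G}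
  {Q : Subgroup ↥(Subgroup.centralizer ({z} : Set G))} [Q.Normal] (C : Coords z Q)

/-- Every monomial map of determinant one with even permutation comes from the monomial group. -/
theorem exists_mono (hc : C.ClassData 0) (σ : Equiv.Perm (Fin 6))
    (hσ : σ ∈ alternatingGroup (Fin 6)) (a : Fin 6 → ZMod 3) (ha : ∑ i, a i = 0) :
    ∃ γ ∈ C.P, C.Mono γ σ a := by
  obtain ⟨γ, hγ, hγs⟩ := C.P_perm σ hσ
  obtain ⟨τ, -, b, hb⟩ := C.P_mono γ hγ
  have hτ : τ = σ := by
    ext i
    have e := (Coords.Mono.supp_eq hb (Function.update zeroPt i (some 0))).symm.trans (hγs _)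
    have hs : supp (Function.update zeroPt i (some 0)) = {i} := by
      ext j
      rw [mem_supp, Finset.mem_singleton]
      by_cases hj : j = i <;> simp [Function.update, hj, zeroPt]
    rw [hs, Finset.image_singleton, Finset.image_singleton, Finset.singleton_inj] at e
    rw [e]
  subst hτ
  have hb0 := Coords.P_sum hc hb
  obtain ⟨δ, hδ, hδs⟩ := C.P_diag (fun j => a (τ⁻¹ j) - b (τ⁻¹ j)) (by
    rw [Equiv.sum_comp τ⁻¹ (fun i => a i - b i), Finset.sum_sub_distrib, ha, hb0, sub_zero])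
  refine ⟨δ * γ, C.P.mul_mem hδ hγ, fun v i => ?_⟩
  rw [C.act_mul_apply, hδs]
  show (C.act γ v (τ i)).map _ = _
  rw [hb v i]
  rcases hv : v i with _ | e <;> simp

/-- Monomial maps on codes. -/
theorem enc_mono {γ : ↥(Subgroup.centralizer ({z} : Set G)) ⧸ Q} {σ : Equiv.Perm (Fin 6)}
    {a : Fin 6 → ZMod 3} (h : C.Mono γ σ a) (v : Pt) :
    enc (C.act γ v) =
      monN (List.ofFn fun i => (σ i).val) (List.ofFn fun i => (a i).val) (enc v) := by
  have h1 : ∀ (w : Pt), enc w = ∑ i : Fin 6, ofCoord (w i) * 4 ^ i.val := fun w => by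
    simp only [enc, Fin.sum_univ_six]
    norm_num
    ring
  have hd : ∀ i : Fin 6, dig (enc v) i.val = ofCoord (v i) := fun i => by
    conv_rhs => rw [← dec_enc v]
    exact (ofCoord_toCoord _ (Nat.mod_lt _ (by norm_num))).symm
  have hmap : ∀ (o : Option (ZMod 3)) (t : ZMod 3), ofCoord (o.map (· + t)) =
      if ofCoord o = 0 then 0 else 1 + (ofCoord o - 1 + t.val) % 3 := by decide
  have hterm : ∀ (i : Nat) (hi : i < 6),
      (if dig (enc v) i = 0 then 0 else
        1 + (dig (enc v) i - 1 + (List.ofFn fun j => (a j).val).getD i 0) % 3) <<<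
          (2 * (List.ofFn fun j => (σ j).val).getD i 0) =
      ofCoord (C.act γ v (σ ⟨i, hi⟩)) * 4 ^ (σ ⟨i, hi⟩).val := by
    intro i hi
    have hd' : dig (enc v) i = ofCoord (v ⟨i, hi⟩) := hd ⟨i, hi⟩
    rw [h v ⟨i, hi⟩, hmap, hd']
    simp only [List.getD_eq_getElem?_getD, List.getElem?_ofFn, hi, dite_true, Option.getD_some,
      Nat.shiftLeft_eq, pow_mul]
    norm_num
  rw [h1, ← Equiv.sum_comp σ, Fin.sum_univ_six]
  unfold monN
  simp only [show List.range 6 = [0, 1, 2, 3, 4, 5] from rfl, List.map_cons, List.map_nil,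
    List.sum_cons, List.sum_nil]
  rw [hterm 0 (by norm_num), hterm 1 (by norm_num), hterm 2 (by norm_num), hterm 3 (by norm_num),
    hterm 4 (by norm_num), hterm 5 (by norm_num)]
  simp only [show (⟨0, by norm_num⟩ : Fin 6) = 0 from rfl, show (⟨1, by norm_num⟩ : Fin 6) = 1 from rfl,
    show (⟨2, by norm_num⟩ : Fin 6) = 2 from rfl, show (⟨3, by norm_num⟩ : Fin 6) = 3 from rfl,
    show (⟨4, by norm_num⟩ : Fin 6) = 4 from rfl, show (⟨5, by norm_num⟩ : Fin 6) = 5 from rfl]
  ring

theorem mono_data :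
    Equiv.swap (0 : Fin 6) 1 * Equiv.swap 4 5 ∈ alternatingGroup (Fin 6) ∧
    Equiv.swap (2 : Fin 6) 3 * Equiv.swap 4 5 ∈ alternatingGroup (Fin 6) ∧
    ∑ i, (![1, 1, 2, 2, 0, 0] : Fin 6 → ZMod 3) i = 0 := by
  refine ⟨?_, ?_, ?_⟩
  · rw [Equiv.Perm.mem_alternatingGroup]; decide
  · rw [Equiv.Perm.mem_alternatingGroup]; decide
  · decide

theorem mono_check : ((List.range 4096).all fun n =>
    monN [1, 0, 2, 3, 5, 4] [0, 0, 0, 0, 0, 0] n == appN (rImg 1) n &&
    monN [0, 1, 3, 2, 5, 4] [0, 0, 0, 0, 0, 0] n == appN (rImg 2) n &&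
    monN [0, 1, 2, 3, 4, 5] [1, 1, 2, 2, 0, 0] (appN (rImg 4) n) ==
      appN (rImg 12) (monN [0, 1, 2, 3, 4, 5] [1, 1, 2, 2, 0, 0] n) &&
    monN [0, 1, 2, 3, 4, 5] [1, 1, 2, 2, 0, 0] (appN (rImg 8) n) ==
      appN (rImg 4) (monN [0, 1, 2, 3, 4, 5] [1, 1, 2, 2, 0, 0] n)) = true := by decide +kernel

/-- The sixteen maps come from linear elements of `H/Q`. -/
theorem exists_rad (hs : Cfsg.IsExtraspecialCentralizerSetting z Q 6) (hc : C.ClassData 0)
    (p : Fin 16) : ∃ γ ∈ C.linPart, C.act γ = rP p := by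
  suffices h : ∀ p, rP p ∈ C.linPart.map C.act from Subgroup.mem_map.1 (h p)
  set S := C.linPart.map C.act with hS
  have hck := fun n (hn : n < 4096) => List.all_eq_true.1 mono_check n (List.mem_range.2 hn)
  simp only [Bool.and_eq_true, beq_iff_eq] at hck
  obtain ⟨e1, e2, e3⟩ := mono_data
  obtain ⟨γ1, hg1, hm1⟩ := exists_mono C hc _ e1 0 (by simp)
  obtain ⟨γ2, hg2, hm2⟩ := exists_mono C hc _ e2 0 (by simp)
  obtain ⟨δ, hd, hmd⟩ := exists_mono C hc 1 (one_mem _) _ e3
  have hPS : ∀ γ ∈ C.P, C.act γ ∈ S := fun γ hγ =>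
    Subgroup.mem_map_of_mem _ (C.P_le_linPart hγ)
  have m1 : rP 1 ∈ S := by
    rw [show rP 1 = C.act γ1 from Equiv.ext fun v => enc_injective (by
      rw [enc_rP, enc_mono C hm1, ← (hck _ (enc_lt v)).1.1.1]
      rfl)]
    exact hPS γ1 hg1
  have m2 : rP 2 ∈ S := by
    rw [show rP 2 = C.act γ2 from Equiv.ext fun v => enc_injective (by
      rw [enc_rP, enc_mono C hm2, ← (hck _ (enc_lt v)).1.1.2]
      rfl)]
    exact hPS γ2 hg2
  have hconj : ∀ p q : Fin 16, (∀ n, n < 4096 →
      monN [0, 1, 2, 3, 4, 5] [1, 1, 2, 2, 0, 0] (appN (rImg p) n) =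
        appN (rImg q) (monN [0, 1, 2, 3, 4, 5] [1, 1, 2, 2, 0, 0] n)) →
      C.act δ * rP p * (C.act δ)⁻¹ = rP q := by
    intro p q h
    rw [mul_inv_eq_iff_eq_mul]
    refine Equiv.ext fun v => enc_injective ?_
    rw [Equiv.Perm.mul_apply, Equiv.Perm.mul_apply, enc_rP, enc_mono C hmd, enc_mono C hmd, enc_rP]
    exact h _ (enc_lt v)
  haveI : (S.subgroupOf isoGroup).Normal := by
    have h : (S.subgroupOf isoGroup).index ≤ 2 := index_linPart_le hs C hc
    have h0 : (S.subgroupOf isoGroup).index ≠ 0 := Subgroup.index_ne_zero_of_finite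
    rcases (show (S.subgroupOf isoGroup).index = 1 ∨ (S.subgroupOf isoGroup).index = 2 by omega)
      with h1 | h1
    · rw [Subgroup.index_eq_one.1 h1]; infer_instance
    · exact Subgroup.normal_of_index_eq_two h1
  have m8 : rP 8 ∈ S := by
    have hd' : C.act δ ∈ S := hPS δ hd
    have h := Subgroup.Normal.conj_mem (inferInstance : (S.subgroupOf isoGroup).Normal)
      ⟨(C.act δ)⁻¹, map_linPart_le hs C hc (inv_mem hd')⟩ (inv_mem hd') ⟨rP 4, rP_mem_isoGroup 4⟩
    have h' : rP 4 * (C.act δ)⁻¹ * (rP 4)⁻¹ ∈ S := h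
    have h'' := mul_mem hd' h'
    rw [← mul_assoc, ← mul_assoc, hconj 4 12 fun n hn => (hck n hn).1.2, rP_inv, rP_mul] at h''
    exact h''
  have m4 : rP 4 ∈ S := by
    have hd' : C.act δ ∈ S := hPS δ hd
    rw [← hconj 8 4 fun n hn => (hck n hn).2]
    exact mul_mem (mul_mem hd' m8) (inv_mem hd')
  exact rP_mem_of_gen m1 m2 m4 m8

end CfsgLib.LargeFischer.Base
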