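import Cfsg.Agent.Lib.Golay.Stab

/-!
Quotients by the kernel of a map onto `Cfsg.M24`: the whole group, and the centraliser of an element
which corresponds to a two-element subset of the twenty-four points.
-/

set_option autoImplicit false

namespace CfsgLib.LargeFischer.Base

open scoped Pointwise
open MulAction

variable {G : Type*} [Group G]

/-- A group mapped onto `Cfsg.M24` with kernel `A`. -/
theorem quotient_iso (M A : Subgroup G) (ρ : ↥M →* ↥Cfsg.M24) (hsurj : Function.Surjective ρ)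
    (hker : ρ.ker = A.subgroupOf M) :
    ∃ _ : (A.subgroupOf M).Normal, Nonempty (↥M ⧸ A.subgroupOf M ≃* ↥Cfsg.M24) := by
  have hN : (A.subgroupOf M).Normal := hker ▸ ρ.normal_ker
  exact ⟨hN, ⟨(QuotientGroup.quotientMulEquivOfEq hker.symm).trans
    (QuotientGroup.quotientKerEquivOfSurjective ρ hsurj)⟩⟩

/-- The centraliser of an element corresponding to a duad, modulo the kernel, is the setwise
stabiliser of the standard duad. -/
theorem duad_quotient (M A : Subgroup G) (hAM : A ≤ M) (ρ : ↥M →* ↥Cfsg.M24)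
    (hsurj : Function.Surjective ρ) (hker : ρ.ker = A.subgroupOf M) (t : G)
    (p q : Cfsg.GolayPt) (hpq : p ≠ q)
    (hiff : ∀ m : M, (m : G) * t * (m : G)⁻¹ = t ↔
      ((ρ m : Equiv.Perm Cfsg.GolayPt) • ({p, q} : Set Cfsg.GolayPt)) = {p, q}) :
    ∃ _ : (A.subgroupOf (M ⊓ Subgroup.centralizer ({t} : Set G))).Normal,
      Nonempty (↥(M ⊓ Subgroup.centralizer ({t} : Set G)) ⧸
          A.subgroupOf (M ⊓ Subgroup.centralizer ({t} : Set G)) ≃*
        ↥(Cfsg.M24 ⊓ stabilizer (Equiv.Perm Cfsg.GolayPt)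
          ({none, some 0} : Set Cfsg.GolayPt))) := by
  obtain ⟨g, hg0, hg1⟩ := MulAction.is_two_pretransitive_iff.1 CfsgLib.Golay.M24_two_transitive
    (show (none : Cfsg.GolayPt) ≠ some 0 from (Option.some_ne_none _).symm) hpq
  set d : Set Cfsg.GolayPt := {none, some 0} with hd
  set C : Subgroup G := M ⊓ Subgroup.centralizer ({t} : Set G) with hC
  set γ : Equiv.Perm Cfsg.GolayPt := (g : Equiv.Perm Cfsg.GolayPt) with hγ
  have hgd : γ • d = ({p, q} : Set Cfsg.GolayPt) := by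
    rw [hd, Set.smul_set_insert, Set.smul_set_singleton, ← hg0, ← hg1]
    rfl
  let ψ : ↥C →* Equiv.Perm Cfsg.GolayPt :=
    ((MulAut.conj γ⁻¹).toMonoidHom.comp Cfsg.M24.subtype).comp
      (ρ.comp (Subgroup.inclusion (inf_le_left : C ≤ M)))
  have hψ : ∀ x : C, ψ x =
      γ⁻¹ * (ρ (Subgroup.inclusion (inf_le_left : C ≤ M) x) : Equiv.Perm Cfsg.GolayPt) * γ := by
    intro x
    show MulAut.conj γ⁻¹ _ = _
    rw [MulAut.conj_apply, inv_inv]
    rfl
  have hfix : ∀ σ : Equiv.Perm Cfsg.GolayPt,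
      (γ⁻¹ * σ * γ) • d = d ↔ σ • ({p, q} : Set Cfsg.GolayPt) = {p, q} := by
    intro σ
    rw [← hgd, mul_assoc, mul_smul, inv_smul_eq_iff, mul_smul]
  have hcod : ∀ x : C, ψ x ∈ Cfsg.M24 ⊓ stabilizer (Equiv.Perm Cfsg.GolayPt) d := by
    intro x
    refine Subgroup.mem_inf.2 ⟨?_, ?_⟩
    · rw [hψ]
      exact Cfsg.M24.mul_mem (Cfsg.M24.mul_mem (Cfsg.M24.inv_mem g.2) (SetLike.coe_mem _)) g.2
    · rw [mem_stabilizer_iff, hψ, hfix, ← hiff]
      have := (Subgroup.mem_inf.1 x.2).2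
      rw [Subgroup.mem_centralizer_singleton_iff] at this
      show (x : G) * t * (x : G)⁻¹ = t
      rw [this, mul_assoc, mul_inv_cancel, mul_one]
  let φ := ψ.codRestrict _ hcod
  have hφsurj : Function.Surjective φ := by
    rintro ⟨σ, hσ⟩
    obtain ⟨hσ1, hσ2⟩ := Subgroup.mem_inf.1 hσ
    obtain ⟨m, hm⟩ := hsurj ⟨γ * σ * γ⁻¹,
      Cfsg.M24.mul_mem (Cfsg.M24.mul_mem g.2 hσ1) (Cfsg.M24.inv_mem g.2)⟩
    have hm' : (ρ m : Equiv.Perm Cfsg.GolayPt) = γ * σ * γ⁻¹ := congrArg Subtype.val hm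
    have ht : (m : G) * t * (m : G)⁻¹ = t := by
      rw [hiff, hm', ← hfix]
      rw [show γ⁻¹ * (γ * σ * γ⁻¹) * γ = σ by group]
      exact mem_stabilizer_iff.1 hσ2
    refine ⟨⟨m, Subgroup.mem_inf.2 ⟨m.2, ?_⟩⟩, Subtype.ext ?_⟩
    · rw [Subgroup.mem_centralizer_singleton_iff]
      exact mul_inv_eq_iff_eq_mul.1 ht
    · show ψ _ = σ
      rw [hψ]
      show γ⁻¹ * (ρ m : Equiv.Perm Cfsg.GolayPt) * γ = σ
      rw [hm']
      group
  have hφker : φ.ker = A.subgroupOf C := by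
    ext x
    rw [MonoidHom.mem_ker, Subgroup.mem_subgroupOf]
    constructor
    · intro h
      have h1 : ψ x = 1 := congrArg Subtype.val h
      rw [hψ] at h1
      have h2 : ρ (Subgroup.inclusion (inf_le_left : C ≤ M) x) = 1 := by
        refine Subtype.ext ?_
        have h3 := congrArg (fun τ => γ * τ * γ⁻¹) h1
        simpa [mul_assoc] using h3
      rw [← MonoidHom.mem_ker, hker, Subgroup.mem_subgroupOf] at h2
      exact h2
    · intro h
      have h2 : ρ (Subgroup.inclusion (inf_le_left : C ≤ M) x) = 1 := by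
        rw [← MonoidHom.mem_ker, hker, Subgroup.mem_subgroupOf]
        exact h
      refine Subtype.ext ?_
      show ψ x = 1
      rw [hψ, h2]
      simp
  have hN : (A.subgroupOf C).Normal := hφker ▸ φ.normal_ker
  exact ⟨hN, ⟨(QuotientGroup.quotientMulEquivOfEq hφker.symm).trans
    (QuotientGroup.quotientKerEquivOfSurjective φ hφsurj)⟩⟩

end CfsgLib.LargeFischer.Base
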