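import Cfsg.Agent.Lib.LargeFischer.Base.NormCard

/-!
Large Fischer type: Sylow 2-subgroups. One lies in the centraliser of the involution and normalises
the elementary abelian subgroup of order `2 ^ 11`, which is then its only one of that order.
-/

set_option autoImplicit false
set_option linter.unusedSectionVars false
set_option linter.style.haveILetI false

namespace CfsgLib.LargeFischer.Base

open Orbits CfsgLib.ExtraspecialLarge

variable {G : Type*} [Group G] [Finite G] {z : G}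
  {Q : Subgroup ↥(Subgroup.centralizer ({z} : Set G))} [Q.Normal]
  (hs : Cfsg.IsExtraspecialCentralizerSetting z Q 6) (C : Coords z Q) (hc : C.ClassData 0)
include hs hc

/-- A Sylow 2-subgroup of the centraliser of `z` normalises the subgroup and is one of the group. -/
theorem exists_sylow_normalizer : ∃ T : Sylow 2 G,
    (T : Subgroup G) ≤ Subgroup.normalizer (baseA C : Set G) ⊓ Subgroup.centralizer ({z} : Set G) ∧
      baseA C ≤ (T : Subgroup G) := by
  classical
  set N := Subgroup.normalizer (baseA C : Set G) ⊓ (Subgroup.centralizer ({z} : Set G))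
  have hAN : baseA C ≤ N := le_inf Subgroup.le_normalizer (baseA_le hs C hc)
  have hA2 : IsPGroup 2 ((baseA C).subgroupOf N) :=
    IsPGroup.of_card (n := 11) (by
      rw [Nat.card_congr (Subgroup.subgroupOfEquivOfLe hAN).toEquiv, card_baseA hs C hc])
  obtain ⟨P, hPA⟩ := hA2.exists_le_sylow
  set T₀ : Subgroup G := (P : Subgroup N).map N.subtype with hT₀
  have hT₀N : T₀ ≤ N := Subgroup.map_subtype_le _
  have hAT : baseA C ≤ T₀ := fun a ha => ⟨⟨a, hAN ha⟩, hPA (Subgroup.mem_subgroupOf.2 ha), rfl⟩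
  have hcard : Nat.card T₀ = 2 ^ 21 := by
    rw [hT₀, Subgroup.card_map_of_injective (Subgroup.subtype_injective _),
      P.card_eq_multiplicity, card_normalizer_inf_eq hs C hc]
    rw [show 2 ^ 17 * 2160 = 2 ^ 21 * 135 by norm_num, Nat.factorization_mul (by norm_num) (by norm_num),
      Finsupp.add_apply, Nat.prime_two.factorization_pow, Finsupp.single_eq_same,
      Nat.factorization_eq_zero_of_not_dvd (show ¬ 2 ∣ 135 by norm_num)]
  have hH : Nat.card (Subgroup.centralizer ({z} : Set G)) = 2 ^ 21 * 76545 := by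
    rw [Subgroup.card_eq_card_quotient_mul_card_subgroup Q, C.card_quot, hs.2.2.2.1]
    norm_num
  have hmax : ∀ S : Subgroup G, IsPGroup 2 S → T₀ ≤ S → S ≤ (Subgroup.centralizer ({z} : Set G)) → S = T₀ := by
    intro S hS hle hSH
    obtain ⟨k, hk⟩ := IsPGroup.iff_card.1 hS
    have hd : 2 ^ k ∣ 2 ^ 21 * 76545 := by rw [← hk, ← hH]; exact Subgroup.card_dvd_of_le hSH
    have hk' : k ≤ 21 :=
      (Nat.pow_dvd_pow_iff_le_right (by norm_num)).1
        ((Nat.Coprime.pow_left k (by norm_num : Nat.Coprime 2 76545)).dvd_of_dvd_mul_right hd)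
    exact (Subgroup.eq_of_le_of_card_ge hle (by
      rw [hcard, hk]; exact Nat.pow_le_pow_right (by norm_num) hk')).symm
  have hp₀ : IsPGroup 2 T₀ := IsPGroup.of_card hcard
  have hQT : QG Q ≤ T₀ := by
    have hQ2 : IsPGroup 2 Q := IsPGroup.of_card hs.2.2.2.1
    have hT₀H : T₀ ≤ (Subgroup.centralizer ({z} : Set G)) := hT₀N.trans inf_le_right
    have h2 : IsPGroup 2 ↥(T₀.subgroupOf (Subgroup.centralizer ({z} : Set G))) :=
      hp₀.of_equiv (Subgroup.subgroupOfEquivOfLe hT₀H).symm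
    have hsup : IsPGroup 2 ↥(T₀.subgroupOf (Subgroup.centralizer ({z} : Set G)) ⊔ Q) := h2.to_sup_of_normal_right hQ2
    have hle : T₀ ≤ ((T₀.subgroupOf (Subgroup.centralizer ({z} : Set G)) ⊔ Q).map (Subgroup.centralizer ({z} : Set G)).subtype) := fun a ha =>
      ⟨⟨a, hT₀H ha⟩, Subgroup.mem_sup_left (Subgroup.mem_subgroupOf.2 ha), rfl⟩
    rw [← hmax _ (hsup.map _) hle (Subgroup.map_subtype_le _)]
    exact Subgroup.map_mono le_sup_right
  have hzT : z ∈ T₀ := hAT (z_mem_baseA hs C hc)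
  have hz1 : z ≠ 1 := fun e => zH_ne_one hs (Subtype.ext e)
  have hcen : ∀ x ∈ T₀, (∀ y ∈ T₀, y * x = x * y) → x = 1 ∨ x = z := by
    intro x hx hxy
    rcases centralizer_cases hs (c := ⟨x, (hT₀N hx).2⟩) fun y hy => Subtype.ext
        (hxy y (hQT ⟨y, hy, rfl⟩)).symm with e | e
    exacts [Or.inl (congrArg Subtype.val e), Or.inr (congrArg Subtype.val e)]
  obtain ⟨T, hT⟩ := hp₀.exists_le_sylow
  refine ⟨T, ?_, hAT.trans hT⟩
  suffices hTT : T₀ = (T : Subgroup G) by rw [← hTT]; exact hT₀N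
  refine le_antisymm hT ?_
  by_contra hne
  have hlt : T₀ < (T : Subgroup G) := lt_of_le_not_ge hT hne
  haveI : Fact (Nat.Prime 2) := ⟨Nat.prime_two⟩
  haveI : Group.IsNilpotent ↥(T : Subgroup G) := T.2.isNilpotent
  have hnc := Group.normalizerCondition_of_isNilpotent (G := ↥(T : Subgroup G)) (T₀.subgroupOf (T : Subgroup G))
    (lt_of_le_of_ne le_top fun e => hne fun a ha => Subgroup.mem_subgroupOf.1
      (e.symm ▸ Subgroup.mem_top (⟨a, ha⟩ : ↥(T : Subgroup G))))
  obtain ⟨g, hgn, hgT₀⟩ := SetLike.exists_of_lt hnc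
  have hconj : ∀ a ∈ T₀, (g : G) * a * (g : G)⁻¹ ∈ T₀ := fun a ha =>
    Subgroup.mem_subgroupOf.1 ((Subgroup.mem_normalizer_iff.1 hgn ⟨a, hT ha⟩).1
      (Subgroup.mem_subgroupOf.2 ha))
  have hconj' : ∀ a ∈ T₀, (g : G)⁻¹ * a * (g : G) ∈ T₀ := by
    intro a ha
    have h := Subgroup.mem_subgroupOf.1 ((Subgroup.mem_normalizer_iff.1
      (inv_mem hgn) ⟨a, hT ha⟩).1 (Subgroup.mem_subgroupOf.2 ha))
    simpa using h
  have hgz : (g : G) * z * (g : G)⁻¹ = z := by
    rcases hcen _ (hconj z hzT) fun y hy => by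
        have hw := Subgroup.mem_centralizer_singleton_iff.1 (hT₀N (hconj' y hy)).2
        calc y * ((g : G) * z * (g : G)⁻¹) = g * ((g : G)⁻¹ * y * g * z) * (g : G)⁻¹ := by group
          _ = g * (z * ((g : G)⁻¹ * y * g)) * (g : G)⁻¹ := by rw [hw]
          _ = _ := by group with e | e
    · exact absurd (conj_eq_one_iff.1 e) hz1
    · exact e
  have hgH : (g : G) ∈ (Subgroup.centralizer ({z} : Set G)) := Subgroup.mem_centralizer_singleton_iff.2 (mul_inv_eq_iff_eq_mul.1 hgz)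
  have hS : IsPGroup 2 ↥(T₀ ⊔ Subgroup.zpowers (g : G)) := T.2.to_le (sup_le hT (by
    rw [Subgroup.zpowers_le]; exact g.2))
  have h := hmax _ hS le_sup_left (sup_le (hT₀N.trans inf_le_right) (by
    rw [Subgroup.zpowers_le]; exact hgH))
  exact hgT₀ (Subgroup.mem_subgroupOf.2 (h ▸ Subgroup.mem_sup_right (Subgroup.mem_zpowers _)))

/-- The exports, given uniqueness among normalising subgroups. -/
theorem exists_sylow_baseA_of
    (huniq : ∀ B : Subgroup ↥(Subgroup.centralizer ({z} : Set G)), (∀ a ∈ B, ∀ b ∈ B, a * b = b * a) →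
      (∀ a ∈ B, a * a = 1) → 2 ^ 11 ≤ Nat.card B →
      (∀ b ∈ B, ∀ a ∈ baseH C, b * a * b⁻¹ ∈ baseH C) → B = baseH C) :
    ∃ T : Sylow 2 G, baseA C ≤ (T : Subgroup G) ∧
      (T : Subgroup G) ≤ Subgroup.centralizer ({z} : Set G) ∧
      ∀ B : Subgroup G, B ≤ (T : Subgroup G) → Cfsg.IsElementaryAbelian 2 B →
        2 ^ 11 ≤ Nat.card B → B = baseA C := by
  obtain ⟨T, hT, hAT⟩ := exists_sylow_normalizer hs C hc
  refine ⟨T, hAT, hT.trans inf_le_right, fun B hB hel hcard => ?_⟩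
  have hBH : B ≤ Subgroup.centralizer ({z} : Set G) := hB.trans (hT.trans inf_le_right)
  have e := huniq (B.subgroupOf (Subgroup.centralizer ({z} : Set G)))
    (fun a ha b hb => Subtype.ext (congrArg Subtype.val
      (hel.1.is_comm.comm ⟨a.1, Subgroup.mem_subgroupOf.1 ha⟩ ⟨b.1, Subgroup.mem_subgroupOf.1 hb⟩) :))
    (fun a ha => Subtype.ext (by
      show (a : G) * a = 1
      rw [← pow_two]; exact hel.2 _ (Subgroup.mem_subgroupOf.1 ha)))
    (by rwa [Nat.card_congr (Subgroup.subgroupOfEquivOfLe hBH).toEquiv])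
    (fun b hb a ha => by
      obtain ⟨a', ha', e'⟩ := (Subgroup.mem_normalizer_iff.1
        (hT (hB (Subgroup.mem_subgroupOf.1 hb))).1 (a : G)).1 ⟨a, ha, rfl⟩
      rwa [show b * a * b⁻¹ = a' from Subtype.ext e'.symm])
  rw [baseA, ← e, Subgroup.map_subgroupOf_eq_of_le hBH]

theorem thompsonSubgroupOf_eq_conj_of {T₀ : Sylow 2 G} (hAT : baseA C ≤ (T₀ : Subgroup G))
    (huniq : ∀ B : Subgroup G, B ≤ (T₀ : Subgroup G) → Cfsg.IsElementaryAbelian 2 B →
      2 ^ 11 ≤ Nat.card B → B = baseA C) (T : Sylow 2 G) :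
    ∃ g : G, Cfsg.thompsonSubgroupOf 2 (T : Subgroup G) =
      (baseA C).map (MulAut.conj g).toMonoidHom := by
  haveI : Fact (Nat.Prime 2) := ⟨Nat.prime_two⟩
  obtain ⟨g, hg⟩ := MulAction.exists_smul_eq G T₀ T
  refine ⟨g, ?_⟩
  set A' := (baseA C).map (MulAut.conj g).toMonoidHom with hA'
  have hTg : (T : Subgroup G) = (T₀ : Subgroup G).map (MulAut.conj g).toMonoidHom := by
    rw [← hg]; rfl
  have hA'T : A' ≤ (T : Subgroup G) := by rw [hTg]; exact Subgroup.map_mono hAT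
  have hel : Cfsg.IsElementaryAbelian 2 A' := by
    refine ⟨⟨⟨?_⟩⟩, ?_⟩
    · rintro ⟨_, a, ha, rfl⟩ ⟨_, b, hb, rfl⟩
      refine Subtype.ext ?_
      show (MulAut.conj g).toMonoidHom a * (MulAut.conj g).toMonoidHom b = _
      have hab : a * b = b * a :=
        congrArg Subtype.val ((elem_baseA hs C hc).1.is_comm.comm ⟨a, ha⟩ ⟨b, hb⟩)
      rw [← map_mul, hab, map_mul]
      rfl
    · rintro _ ⟨a, ha, rfl⟩
      rw [← map_pow, (elem_baseA hs C hc).2 a ha, map_one]
  have hcA' : Nat.card A' = 2 ^ 11 := by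
    rw [hA', Subgroup.card_map_of_injective (MulEquiv.injective _), card_baseA hs C hc]
  have hu : ∀ B : Subgroup G, B ≤ (T : Subgroup G) → Cfsg.IsElementaryAbelian 2 B →
      2 ^ 11 ≤ Nat.card B → B = A' := by
    intro B hB hBel hBc
    have hback : (B.map (MulAut.conj g⁻¹).toMonoidHom).map (MulAut.conj g).toMonoidHom = B := by
      rw [Subgroup.map_map]
      convert Subgroup.map_id B
      ext x; simp [mul_assoc]
    rw [← hback, hA']
    congr 1
    refine huniq _ ?_ ?_ (by rwa [Subgroup.card_map_of_injective (MulEquiv.injective _)])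
    · rintro _ ⟨b, hb, rfl⟩
      obtain ⟨t, ht, rfl⟩ := hTg ▸ hB hb
      show g⁻¹ * (g * t * g⁻¹) * g⁻¹⁻¹ ∈ (T₀ : Subgroup G)
      rwa [show g⁻¹ * (g * t * g⁻¹) * g⁻¹⁻¹ = t by group]
    · refine ⟨⟨⟨?_⟩⟩, ?_⟩
      · rintro ⟨_, a, ha, rfl⟩ ⟨_, b, hb, rfl⟩
        refine Subtype.ext ?_
        show (MulAut.conj g⁻¹).toMonoidHom a * (MulAut.conj g⁻¹).toMonoidHom b = _
        have hab : a * b = b * a := congrArg Subtype.val (hBel.1.is_comm.comm ⟨a, ha⟩ ⟨b, hb⟩)
        rw [← map_mul, hab, map_mul]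
        rfl
      · rintro _ ⟨a, ha, rfl⟩
        rw [← map_pow, hBel.2 a ha, map_one]
  have hset : Cfsg.maxElementaryAbelianSubgroups 2 ↥(T : Subgroup G) = {A'.subgroupOf (T : Subgroup G)} := by
    have hel' : Cfsg.IsElementaryAbelian 2 (A'.subgroupOf (T : Subgroup G)) :=
      ⟨⟨⟨fun a b => Subtype.ext (Subtype.ext (congrArg Subtype.val
        (hel.1.is_comm.comm ⟨a.1.1, Subgroup.mem_subgroupOf.1 a.2⟩ ⟨b.1.1, Subgroup.mem_subgroupOf.1 b.2⟩) :))⟩⟩,
        fun a ha => Subtype.ext (by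
          rw [SubmonoidClass.coe_pow]; exact hel.2 _ (Subgroup.mem_subgroupOf.1 ha))⟩
    have hc' : Nat.card (A'.subgroupOf (T : Subgroup G)) = 2 ^ 11 := by
      rw [Nat.card_congr (Subgroup.subgroupOfEquivOfLe hA'T).toEquiv, hcA']
    have key : ∀ B : Subgroup ↥(T : Subgroup G), Cfsg.IsElementaryAbelian 2 B → 2 ^ 11 ≤ Nat.card B →
        B = A'.subgroupOf (T : Subgroup G) := by
      intro B hBel hBc
      have hm : B.map (T : Subgroup G).subtype = A' := by
        refine hu _ (Subgroup.map_subtype_le _) ⟨⟨⟨?_⟩⟩, ?_⟩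
          (by rwa [Subgroup.card_map_of_injective (Subgroup.subtype_injective _)])
        · rintro ⟨_, a, ha, rfl⟩ ⟨_, b, hb, rfl⟩
          exact Subtype.ext (congrArg (fun x : B => ((x : ↥(T : Subgroup G)) : G))
            (hBel.1.is_comm.comm ⟨a, ha⟩ ⟨b, hb⟩) :)
        · rintro _ ⟨a, ha, rfl⟩
          rw [← map_pow, hBel.2 a ha, map_one]
      rw [← hm, Subgroup.subgroupOf, Subgroup.comap_map_eq_self_of_injective (Subgroup.subtype_injective _)]
    ext B
    refine ⟨fun ⟨hB1, hB2⟩ => key B hB1 (hc' ▸ hB2 _ hel'), ?_⟩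
    rintro rfl
    refine ⟨hel', fun D hD => ?_⟩
    by_contra hlt
    push Not at hlt
    have := key D hD (by omega)
    subst this
    exact lt_irrefl _ hlt
  rw [Cfsg.thompsonSubgroupOf, Cfsg.thompsonSubgroup, hset, sSup_singleton,
    Subgroup.map_subgroupOf_eq_of_le hA'T]

end CfsgLib.LargeFischer.Base
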