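import Cfsg.Agent.Lib.LargeFischer.Base.UniqueCert

/-!
Large Fischer type: an elementary abelian subgroup of order at least `2 ^ 11` normalising the
subgroup `baseH` is equal to it.
-/

set_option autoImplicit false
set_option linter.unusedSectionVars false
set_option linter.style.haveILetI false

namespace CfsgLib.LargeFischer.Base

open Orbits CfsgLib.ExtraspecialLarge

theorem wList_lt {n : Nat} (hn : n ∈ wList) : n < 4096 := by
  have h := List.all_eq_true.1 wList_check n hn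
  simp only [Bool.and_eq_true, decide_eq_true_eq] at h
  exact h.1.1.1

theorem dec_inW {n : Nat} (hn : n ∈ wList) : InW (dec n) := by
  show enc (dec n) ∈ wList
  rwa [enc_dec _ (wList_lt hn)]

theorem wBase_mem : 5 ∈ wList ∧ 80 ∈ wList ∧ 1280 ∈ wList := by decide +kernel

/-- The images of the basis of the 3-space. -/
def tOf (g : Equiv.Perm Pt) : Nat × Nat × Nat :=
  (enc (g (dec 5)), enc (g (dec 80)), enc (g (dec 1280)))

theorem tOf_one : tOf 1 = idT := by decide +kernel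

/-- A linear map preserving the 3-space. -/
structure WMap (g : Equiv.Perm Pt) : Prop where
  add : ∀ u w, g (addPt u w) = addPt (g u) (g w)
  lin : ∀ v, g (shift (fun _ => 1) v) = shift (fun _ => 1) (g v)
  keep : ∀ v, InW v → InW (g v)

theorem WMap.enc_mulN {g : Equiv.Perm Pt} (h : WMap g) {k x : Nat} (hx : x < 4096) (hk : k < 4) :
    enc (g (dec (mulN k x))) = mulN k (enc (g (dec x))) := by
  interval_cases k
  · have h0 := h.add (dec 0) (dec 0)
    rw [addPt_self, addPt_self, ← dec_zero] at h0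
    show enc (g (dec 0)) = 0
    rw [h0, enc_dec 0 (by norm_num)]
  · rfl
  · show enc (g (dec (scalN x))) = scalN _
    rw [scalN_eq hx, h.lin, enc_shift]
  · show enc (g (dec (scalN (scalN x)))) = scalN (scalN _)
    rw [scalN_eq (scalN_lt hx), h.lin, scalN_eq hx, h.lin, enc_shift, enc_shift]

theorem dig_lt_four (n i : Nat) : dig n i < 4 := Nat.mod_lt _ (by norm_num)

theorem WMap.enc_apply {g : Equiv.Perm Pt} (h : WMap g) {n : Nat} (hn : n ∈ wList) :
    enc (g (dec n)) = phiN (tOf g) n := by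
  have h' := List.all_eq_true.1 idT_fix n hn
  simp only [Bool.and_eq_true, beq_iff_eq] at h'
  conv_lhs => rw [← h'.1]
  simp only [phiN, idT, tOf]
  rw [dec_xor, dec_xor, h.add, h.add, enc_addPt, enc_addPt,
    h.enc_mulN (by norm_num) (dig_lt_four _ _), h.enc_mulN (by norm_num) (dig_lt_four _ _),
    h.enc_mulN (by norm_num) (dig_lt_four _ _)]

theorem WMap.tOf_mul {g k : Equiv.Perm Pt} (hg : WMap g) (hk : WMap k) :
    tOf (g * k) = compT (tOf g) (tOf k) := by
  have key : ∀ n ∈ wList, enc ((g * k) (dec n)) = phiN (tOf g) (enc (k (dec n))) := by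
    intro n hn
    rw [Equiv.Perm.mul_apply, ← hg.enc_apply (hk.keep _ (dec_inW hn)), dec_enc]
  exact Prod.ext (key 5 wBase_mem.1) (Prod.ext (key 80 wBase_mem.2.1) (key 1280 wBase_mem.2.2))

theorem WMap.tOf_mem {g : Equiv.Perm Pt} (h : WMap g) (hsq : g * g = 1)
    (h2 : ∀ v, InTwo 0 v → InTwo 0 (g v)) : tOf g ∈ invTab := by
  have hsh : ∀ n ∈ shortW, enc (g (dec n)) ∈ shortW := by
    intro n hn
    obtain ⟨hn', hsn⟩ := List.mem_filter.1 hn
    refine List.mem_filter.2 ⟨h.keep _ (dec_inW hn'), ?_⟩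
    rw [← inTwo_iff]
    refine h2 _ ?_
    rwa [inTwo_iff, enc_dec _ (wList_lt hn')]
  have hb : 5 ∈ shortW ∧ 80 ∈ shortW ∧ 1280 ∈ shortW := by decide +kernel
  have hgood : goodT (tOf g) = true := by
    have hh : idT = compT (tOf g) (tOf g) := by rw [← h.tOf_mul h, hsq, tOf_one]
    simp only [goodT, Bool.and_eq_true, beq_iff_eq, List.all_eq_true]
    simp only [idT, compT, Prod.mk.injEq] at hh
    refine ⟨⟨⟨hh.1.symm, hh.2.1.symm⟩, hh.2.2.symm⟩, fun n hn => ?_⟩
    rw [← h.enc_apply (List.mem_filter.1 hn).1]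
    exact (List.mem_filter.1 (hsh n hn)).2
  have h' : (!goodT (tOf g) || invTab.contains (tOf g)) = true :=
    List.all_eq_true.1 (List.all_eq_true.1 (List.all_eq_true.1 invTab_cover _ (hsh 5 hb.1))
      _ (hsh 80 hb.2.1)) _ (hsh 1280 hb.2.2)
  simpa [hgood] using h'

theorem diffN_eq (p : Fin 16) {n : Nat} (hn : n < 4096) : diffN p (projN n) = diffN p n :=
  eq_of_bits (f := fun n => diffN p (projN n))
    (fun a b => by simp only [diffN, projN_xor, appN_xor, Nat.xor_assoc, Nat.xor_left_comm])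
    (fun a b => by simp only [diffN, appN_xor, Nat.xor_assoc, Nat.xor_left_comm])
    (fun b hb => by simpa using List.all_eq_true.1 (diffN_proj p) b hb) n hn

theorem imP_of_diff (p : Fin 16) (v : Pt) : diffN p (enc v) ∈ imP p := by
  rw [← diffN_eq p (enc_lt v)]
  have h819 : projN (enc v) &&& 819 = projN (enc v) := by
    unfold projN; rw [Nat.and_assoc, Nat.and_self]
  have hlt : projN (enc v) < 4096 := lt_of_le_of_lt Nat.and_le_right (by norm_num)
  simpa [h819] using List.all_eq_true.1 (imP_mem p) _ (List.mem_range.2 hlt)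

theorem WMap.keepT {g : Equiv.Perm Pt} (h : WMap g) (p : Fin 16)
    (hcomm : ∀ v, g (rP p v) = rP p (g v)) : Base.keepT (tOf g) p = true := by
  refine List.all_eq_true.2 fun w hw => ?_
  have h1 := List.all_eq_true.1 (imP_pre p) w hw
  simp only [Bool.and_eq_true, List.contains_eq_mem, decide_eq_true_eq, List.any_eq_true,
    beq_iff_eq] at h1
  obtain ⟨hwW, n, hn, hd⟩ := h1
  have hnlt : n < 4096 := List.mem_range.1 (List.mem_filter.1 hn).1
  have e : dec w = addPt (dec n) (rP p (dec n)) := by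
    rw [← hd, diffN, dec_xor, rP_apply, enc_dec n hnlt]
  rw [List.contains_eq_mem, decide_eq_true_eq, ← h.enc_apply hwW, e, h.add, hcomm, enc_addPt,
    enc_rP]
  exact imP_of_diff p _

theorem card_fix_rP {p : Fin 16} (hp : p ≠ 0) : Nat.card {v : Pt // rP p v = v} ≤ 256 := by
  refine le_trans ?_ ((fixL_card p).resolve_left hp)
  refine le_trans ?_ (List.toFinset_card_le _)
  rw [← Nat.card_eq_finsetCard]
  refine Nat.card_le_card_of_injective (fun v => ⟨enc v.1, ?_⟩)
    (fun v w h => Subtype.ext (enc_injective (congrArg Subtype.val h)))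
  rw [List.mem_toFinset, fixL, List.mem_filter, List.mem_range, ← enc_rP, v.2]
  exact ⟨enc_lt _, beq_self_eq_true _⟩

theorem inW_of_fix {p q : Fin 16} (hp : p ≠ 0) (hq : q ≠ 0) (hpq : q ≠ p) {v : Pt}
    (h1 : rP p v = v) (h2 : rP q v = v) : InW v := by
  have h := List.all_eq_true.1 ((fixL_common p).resolve_left hp) (enc v) (by
    rw [fixL, List.mem_filter, List.mem_range, ← enc_rP, h1]
    exact ⟨enc_lt _, beq_self_eq_true _⟩)
  simp only [Bool.or_eq_true, List.contains_eq_mem, decide_eq_true_eq, List.all_eq_true] at h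
  rcases h with h | h
  · exact h
  · have h' := h q (List.mem_finRange q)
    rw [← enc_rP, h2] at h'
    simp [hq, hpq] at h'

theorem card_fix_tOf {t : Nat × Nat × Nat} (ht : t ∈ invTab) (hne : t ≠ idT) :
    Nat.card {v : Pt // InW v ∧ phiN t (enc v) = enc v} ≤ 16 := by
  have h := List.all_eq_true.1 invTab_fix t ht
  simp only [Bool.or_eq_true, beq_iff_eq, decide_eq_true_eq, hne, false_or] at h
  refine le_trans ?_ h
  rw [List.countP_eq_length_filter]
  refine le_trans ?_ (List.toFinset_card_le _)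
  rw [← Nat.card_eq_finsetCard]
  refine Nat.card_le_card_of_injective (fun v => ⟨enc v.1, ?_⟩)
    (fun v w h => Subtype.ext (enc_injective (congrArg Subtype.val h)))
  rw [List.mem_toFinset, List.mem_filter]
  exact ⟨v.2.1, beq_iff_eq.2 v.2.2⟩

theorem rot_inj : ∀ a b a' b' : Option (ZMod 3),
    addCoord a (b.map (· + 1)) = addCoord a' (b'.map (· + 1)) →
    addCoord a (b.map (· + -1)) = addCoord a' (b'.map (· + -1)) → a = a' ∧ b = b' := by decide

/-- A space fixed by a semilinear map and by one of the sixteen maps is small. -/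
theorem card_fixed_le {g : Equiv.Perm Pt} (hadd : ∀ u w, g (addPt u w) = addPt (g u) (g w))
    (hsemi : ∀ v, g (shift (fun _ => 1) v) = shift (fun _ => -1) (g v)) {p : Fin 16} (hp : p ≠ 0)
    (F : Pt → Prop) (hgF : ∀ v, F v → g v = v) (hpF : ∀ v, F v → rP p v = v) :
    Nat.card {v : Pt // F v} ≤ 16 := by
  have hiso := rP_mem_isoGroup p
  have h : Nat.card ({v : Pt // F v} × {v : Pt // F v}) ≤ Nat.card {v : Pt // rP p v = v} := by
    refine Nat.card_le_card_of_injective
      (fun a => ⟨addPt a.1.1 (shift (fun _ => 1) a.2.1), ?_⟩) ?_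
    · rw [hiso.1, hiso.2.1, hpF _ a.1.2, hpF _ a.2.2]
    · rintro ⟨⟨u, hu⟩, ⟨v, hv⟩⟩ ⟨⟨u', hu'⟩, ⟨v', hv'⟩⟩ e
      have e1 : addPt u (shift (fun _ => 1) v) = addPt u' (shift (fun _ => 1) v') :=
        congrArg Subtype.val e
      have e2 := congrArg g e1
      rw [hadd, hadd, hsemi, hsemi, hgF u hu, hgF v hv, hgF u' hu', hgF v' hv'] at e2
      have key := fun i => rot_inj (u i) (v i) (u' i) (v' i) (congrFun e1 i) (congrFun e2 i)
      exact Prod.ext (Subtype.ext (funext fun i => (key i).1))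
        (Subtype.ext (funext fun i => (key i).2))
  rw [Nat.card_prod] at h
  have := h.trans (card_fix_rP hp)
  by_contra hlt
  push Not at hlt
  have := Nat.mul_le_mul hlt hlt
  omega

variable {G : Type*} [Group G] [Finite G] {z : G}
  {Q : Subgroup ↥(Subgroup.centralizer ({z} : Set G))} [Q.Normal]
  (hs : Cfsg.IsExtraspecialCentralizerSetting z Q 6) (C : Coords z Q)
  (B : Subgroup ↥(Subgroup.centralizer ({z} : Set G)))

include hs

theorem fixed_by (comm : ∀ a ∈ B, ∀ b ∈ B, a * b = b * a)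
    {b q : ↥(Subgroup.centralizer ({z} : Set G))} (hb : b ∈ B) (hq : q ∈ B) {v : Pt}
    (hr : C.Rep v q) : C.act (QuotientGroup.mk b) v = v := by
  have h := hr.conj hs b
  rw [comm b hb q hq, mul_inv_cancel_right] at h
  exact h.unique hs hr

theorem card_inf_le :
    Nat.card ↥(B ⊓ Q) ≤ 2 * Nat.card {v : Pt // ∃ q ∈ B, C.Rep v q} := by
  classical
  choose f hf using fun a : ↥(B ⊓ Q) => Coords.exists_rep (C := C) a.2.2
  have h := Nat.card_le_card_of_injective
    (fun a => ((⟨f a, a.1, a.2.1, hf a⟩, decide (a.1 = C.lift (f a))) :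
      {v : Pt // ∃ q ∈ B, C.Rep v q} × Bool)) ?_
  · rw [Nat.card_prod, Nat.card_eq_fintype_card (α := Bool), Fintype.card_bool] at h
    omega
  · intro a b e
    simp only [Prod.mk.injEq, Subtype.mk.injEq, decide_eq_decide] at e
    obtain ⟨e1, e2⟩ := e
    refine Subtype.ext ?_
    have h1 := hf a
    have h2 := hf b
    rw [e1] at h1 e2
    rcases h1 with h1 | h1
    · rw [h1, e2.1 h1]
    · rcases h2 with h2 | h2
      · rw [h2, e2.2 h2]
      · rw [h1, h2]

theorem card_inf_le_128 (comm : ∀ a ∈ B, ∀ b ∈ B, a * b = b * a) :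
    Nat.card ↥(B ⊓ Q) ≤ 2 ^ 7 := by
  rw [← Subgroup.card_map_of_injective
    (f := (Subgroup.centralizer ({z} : Set G)).subtype) (Subgroup.subtype_injective _)]
  refine card_abelian_QG hs _ (Subgroup.map_mono inf_le_right) ?_
  rintro _ ⟨a, ha, rfl⟩ _ ⟨b, hb, rfl⟩
  exact congrArg Subtype.val (comm a ha.1 b hb.1)

omit hs in
theorem card_eq_mul : Nat.card B = Nat.card ↥(B.map (QuotientGroup.mk' Q)) * Nat.card ↥(B ⊓ Q) := by
  let f := (QuotientGroup.mk' Q).comp B.subtype
  have h := Subgroup.card_eq_card_quotient_mul_card_subgroup f.ker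
  rw [Nat.card_congr (QuotientGroup.quotientKerEquivRange f).toEquiv] at h
  have h1 : f.range = B.map (QuotientGroup.mk' Q) := by
    rw [MonoidHom.range_comp, Subgroup.range_subtype]
  have h2 : Nat.card f.ker = Nat.card ↥(B ⊓ Q) := by
    refine Nat.card_congr
      { toFun := fun a => ⟨a.1.1, a.1.2, (QuotientGroup.eq_one_iff _).1 (MonoidHom.mem_ker.1 a.2)⟩
        invFun := fun a => ⟨⟨a.1, a.2.1⟩, MonoidHom.mem_ker.2 ((QuotientGroup.eq_one_iff _).2 a.2.2)⟩
        left_inv := fun _ => rfl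
        right_inv := fun _ => rfl }
  rw [h, h1, h2]

theorem card_le_two_linPart (E : Subgroup (↥(Subgroup.centralizer ({z} : Set G)) ⧸ Q)) :
    Nat.card E ≤ 2 * Nat.card ↥(E ⊓ C.linPart) := by
  have h1 := Subgroup.card_mul_index (C.linPart.subgroupOf E)
  have h2 : Nat.card (C.linPart.subgroupOf E) = Nat.card ↥(E ⊓ C.linPart) := by
    rw [← Subgroup.inf_subgroupOf_left]
    exact Nat.card_congr (Subgroup.subgroupOfEquivOfLe inf_le_left).toEquiv
  haveI := Subgroup.normal_of_index_eq_two (C.index_linPart hs)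
  have hle : (C.linPart.subgroupOf E).index ≤ 2 :=
    Nat.le_of_dvd (by norm_num)
      (C.index_linPart hs ▸ Subgroup.relIndex_dvd_index_of_normal C.linPart E)
  rw [h2] at h1
  rw [← h1, mul_comm 2]
  exact Nat.mul_le_mul_left _ hle

variable (hc : C.ClassData 0)
include hc

/-- An elementary abelian subgroup of order at least `2 ^ 11` normalising `baseH` is equal to it. -/
theorem eq_baseH (comm : ∀ a ∈ B, ∀ b ∈ B, a * b = b * a) (sq : ∀ a ∈ B, a * a = 1)
    (hcard : 2 ^ 11 ≤ Nat.card B)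
    (hnorm : ∀ b ∈ B, ∀ a ∈ baseH C, b * a * b⁻¹ ∈ baseH C) : B = baseH C := by
  classical
  haveI := Fintype.ofFinite (↥(Subgroup.centralizer ({z} : Set G)) ⧸ Q)
  set E := B.map (QuotientGroup.mk' Q) with hE
  set Fv := {v : Pt // ∃ q ∈ B, C.Rep v q}
  have hB := card_eq_mul (z := z) B (Q := Q)
  rw [← hE] at hB
  have hF := card_inf_le hs C B
  have h128 := card_inf_le_128 hs B comm
  have hmemE : ∀ {γ}, γ ∈ E → ∃ b ∈ B, QuotientGroup.mk b = γ := fun {γ} h => Subgroup.mem_map.1 h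
  have hEcomm : ∀ γ ∈ E, ∀ δ ∈ E, γ * δ = δ * γ := by
    intro γ hγ δ hδ
    obtain ⟨a, ha, rfl⟩ := hmemE hγ
    obtain ⟨b, hb, rfl⟩ := hmemE hδ
    rw [← QuotientGroup.mk_mul, ← QuotientGroup.mk_mul, comm a ha b hb]
  have hEsq : ∀ γ ∈ E, γ * γ = 1 := by
    intro γ hγ
    obtain ⟨a, ha, rfl⟩ := hmemE hγ
    rw [← QuotientGroup.mk_mul, sq a ha, QuotientGroup.mk_one]
  have hEW : ∀ γ ∈ E, ∀ v, InW v → InW (C.act γ v) := by
    intro γ hγ v hv
    obtain ⟨b, hb, rfl⟩ := hmemE hγ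
    have hd : C.lift v ∈ wLift C := (mem_wLift hs C).2 ⟨v, hv, Or.inl rfl⟩
    have h1 : b * C.lift v * b⁻¹ ∈ baseH C ⊓ Q :=
      ⟨hnorm b hb _ (wLift_le_baseH hs C hc hd), ‹Q.Normal›.conj_mem _ (wLift_le hs C hd) b⟩
    rw [baseH_inf hs C hc] at h1
    obtain ⟨w, hw, hwr⟩ := (mem_wLift hs C).1 h1
    have hr : C.Rep v (C.lift v) := Or.inl rfl
    rwa [(hr.conj hs b).unique hs hwr]
  have hEfix : ∀ γ ∈ E, ∀ v, (∃ q ∈ B, C.Rep v q) → C.act γ v = v := by
    rintro γ hγ v ⟨q, hq, hr⟩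
    obtain ⟨b, hb, rfl⟩ := hmemE hγ
    exact fixed_by hs C B comm hb hq hr
  -- the linear part
  set s : Finset (↥(Subgroup.centralizer ({z} : Set G)) ⧸ Q) :=
    Finset.univ.filter (· ∈ E ⊓ C.linPart) with hs0
  have hsE : ∀ γ ∈ s, γ ∈ E ∧ γ ∈ C.linPart := fun γ h =>
    Subgroup.mem_inf.1 (Finset.mem_filter.1 h).2
  have hscard : Nat.card E ≤ 2 * s.card := by
    refine (card_le_two_linPart hs C E).trans ?_
    rw [Nat.card_eq_fintype_card, Fintype.card_subtype, hs0]
  have hWM : ∀ γ ∈ s, WMap (C.act γ) := fun γ h =>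
    ⟨act_addPt hs C γ, C.mem_linPart.1 (hsE γ h).2, hEW γ (hsE γ h).1⟩
  let t : (↥(Subgroup.centralizer ({z} : Set G)) ⧸ Q) → Nat × Nat × Nat := fun γ => tOf (C.act γ)
  have hinv : ∀ γ ∈ s, t γ ∈ invTab := fun γ h =>
    (hWM γ h).tOf_mem (by rw [← map_mul, hEsq γ (hsE γ h).1, map_one]) (hc.two_act γ)
  have hmul : ∀ γ ∈ s, ∀ δ ∈ s, t (γ * δ) = compT (t γ) (t δ) := fun γ h δ h' => by
    show tOf (C.act (γ * δ)) = _
    rw [map_mul]
    exact (hWM γ h).tOf_mul (hWM δ h')
  have htcomm : ∀ γ ∈ s, ∀ δ ∈ s, compT (t γ) (t δ) = compT (t δ) (t γ) := fun γ h δ h' => by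
    rw [← hmul γ h δ h', ← hmul δ h' γ h, hEcomm γ (hsE γ h).1 δ (hsE δ h').1]
  -- the part fixing the 3-space
  set K := s.filter (fun γ => t γ = idT) with hK
  let P : (↥(Subgroup.centralizer ({z} : Set G)) ⧸ Q) → Fin 16 := fun γ =>
    if h : ∃ p, C.act γ = rP p then h.choose else 0
  have hP : ∀ γ ∈ K, C.act γ = rP (P γ) := by
    intro γ hγ
    obtain ⟨hγs, ht⟩ := Finset.mem_filter.1 hγ
    have hex : ∃ p, C.act γ = rP p := by
      obtain ⟨e1, e2⟩ := Prod.ext_iff.1 ht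
      obtain ⟨e2, e3⟩ := Prod.ext_iff.1 e2
      refine fix_W hs C hc (hsE γ hγs).2 ?_ ?_ ?_ <;> refine enc_injective ?_ <;>
        rw [enc_dec _ (by norm_num)] <;> assumption
    simp only [P, dif_pos hex]
    exact hex.choose_spec
  have hPinj : ∀ γ ∈ K, ∀ δ ∈ K, P γ = P δ → γ = δ := fun γ h δ h' e =>
    C.act_injective (by rw [hP γ h, hP δ h', e])
  have hK16 : K.card ≤ 16 :=
    (Finset.card_le_card_of_injOn P (fun γ _ => Finset.mem_univ _) hPinj).trans (by simp)
  have h1s : (1 : ↥(Subgroup.centralizer ({z} : Set G)) ⧸ Q) ∈ s :=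
    Finset.mem_filter.2 ⟨Finset.mem_univ _, one_mem _⟩
  have h1K : (1 : ↥(Subgroup.centralizer ({z} : Set G)) ⧸ Q) ∈ K :=
    Finset.mem_filter.2 ⟨h1s, by show tOf (C.act 1) = idT; rw [map_one, tOf_one]⟩
  have hPne : ∀ γ ∈ K, γ ≠ 1 → P γ ≠ 0 := fun γ h hne e => hne (C.act_injective (by
    rw [hP γ h, e, rP_zero, map_one]))
  -- fibres
  have hfib : s.card ≤ K.card * (s.image t).card := by
    refine Finset.card_le_mul_card_image s K.card fun a ha => ?_
    obtain ⟨γ₀, h₀, rfl⟩ := Finset.mem_image.1 ha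
    refine Finset.card_le_card_of_injOn (γ₀ * ·) (fun γ hγ => ?_)
      (fun γ _ δ _ e => mul_left_cancel e)
    obtain ⟨hγ, e⟩ := Finset.mem_filter.1 hγ
    have hmem : γ₀ * γ ∈ s := Finset.mem_filter.2
      ⟨Finset.mem_univ _, mul_mem (Finset.mem_filter.1 h₀).2 (Finset.mem_filter.1 hγ).2⟩
    refine Finset.mem_filter.2 ⟨hmem, ?_⟩
    rw [hmul γ₀ h₀ γ hγ, e, ← hmul γ₀ h₀ γ₀ h₀, hEsq γ₀ (hsE γ₀ h₀).1]
    show tOf (C.act 1) = idT
    rw [map_one, tOf_one]
  have hT : (s.image t).card ≤ 4 := by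
    by_cases h2 : ∃ γ ∈ s, ∃ δ ∈ s, t γ ≠ idT ∧ t δ ≠ idT ∧ t δ ≠ t γ
    · obtain ⟨γ, hγ, δ, hδ, n1, n2, n3⟩ := h2
      have h := List.all_eq_true.1 invTab_comm _ (hinv γ hγ)
      simp only [Bool.or_eq_true, beq_iff_eq, n1, false_or, List.all_eq_true] at h
      have h' := h _ (hinv δ hδ)
      simp only [n2, n3, false_or, bne_iff_ne, ne_eq, htcomm γ hγ δ hδ, not_true_eq_false,
        decide_eq_true_eq] at h'
      refine le_trans ?_ h'
      rw [List.countP_eq_length_filter]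
      refine le_trans (Finset.card_le_card ?_) (List.toFinset_card_le _)
      intro a ha
      obtain ⟨ε, hε, rfl⟩ := Finset.mem_image.1 ha
      rw [List.mem_toFinset, List.mem_filter]
      exact ⟨hinv ε hε, by simp [htcomm γ hγ ε hε, htcomm δ hδ ε hε]⟩
    · push Not at h2
      by_cases h1 : ∃ γ ∈ s, t γ ≠ idT
      · obtain ⟨γ, hγ, n1⟩ := h1
        refine le_trans (Finset.card_le_card (t := {idT, t γ}) ?_) (Finset.card_le_two.trans (by norm_num))
        intro a ha
        obtain ⟨ε, hε, rfl⟩ := Finset.mem_image.1 ha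
        rw [Finset.mem_insert, Finset.mem_singleton]
        by_cases e : t ε = idT
        · exact Or.inl e
        · exact Or.inr (h2 γ hγ ε hε n1 e)
      · push Not at h1
        refine le_trans (Finset.card_le_card (t := {idT}) ?_) (by simp)
        intro a ha
        obtain ⟨ε, hε, rfl⟩ := Finset.mem_image.1 ha
        exact Finset.mem_singleton.2 (h1 ε hε)
  -- a map moving the 3-space cuts down the part fixing it
  have hK4 : ∀ γ₁ ∈ s, t γ₁ ≠ idT → K.card ≤ 4 := by
    intro γ₁ h₁ hne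
    have h := List.all_eq_true.1 keep_count _ (hinv γ₁ h₁)
    simp only [Bool.or_eq_true, beq_iff_eq, hne, false_or, decide_eq_true_eq] at h
    refine le_trans ?_ h
    rw [List.countP_eq_length_filter]
    refine le_trans ?_ (List.toFinset_card_le _)
    refine Finset.card_le_card_of_injOn P (fun γ hγ => ?_) hPinj
    rw [Finset.mem_coe, List.mem_toFinset, List.mem_filter]
    refine ⟨List.mem_finRange _, (hWM γ₁ h₁).keepT _ fun v => ?_⟩
    rw [← hP γ hγ, ← C.act_mul_apply, ← C.act_mul_apply,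
      hEcomm γ₁ (hsE γ₁ h₁).1 γ (hsE γ (Finset.mem_filter.1 hγ).1).1]
  have hs16 : s.card ≤ 16 := by
    by_cases h1 : ∃ γ ∈ s, t γ ≠ idT
    · obtain ⟨γ, hγ, n1⟩ := h1
      exact hfib.trans (Nat.mul_le_mul (hK4 γ hγ n1) hT)
    · push Not at h1
      rwa [hK, Finset.filter_true_of_mem h1] at hK16
  -- everything is linear
  have hlin : ∀ γ ∈ E, γ ∈ C.linPart := by
    intro γ hγ
    by_contra hnl
    have hsemi := (C.act_semilinear γ).resolve_left fun h => hnl (C.mem_linPart.2 h)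
    by_cases hne : ∃ δ ∈ K, δ ≠ 1
    · obtain ⟨δ, hδ, hδ1⟩ := hne
      have h16 : Nat.card Fv ≤ 16 := card_fixed_le (act_addPt hs C γ) hsemi (hPne δ hδ hδ1) _
        (hEfix γ hγ) fun v hv => by
          rw [← hP δ hδ]; exact hEfix δ (hsE δ (Finset.mem_filter.1 hδ).1).1 v hv
      have := Nat.mul_le_mul (hscard.trans (Nat.mul_le_mul_left 2 hs16))
        (hF.trans (Nat.mul_le_mul_left 2 h16))
      omega
    · push Not at hne
      have hK1 : K.card ≤ 1 := Finset.card_le_one.2 fun a ha b hb => by rw [hne a ha, hne b hb]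
      have h4 : s.card ≤ 1 * 4 := hfib.trans (Nat.mul_le_mul hK1 hT)
      have := Nat.mul_le_mul (hscard.trans (Nat.mul_le_mul_left 2 h4)) h128
      omega
  have hEs : Nat.card E ≤ s.card := by
    rw [Nat.card_eq_fintype_card, Fintype.card_subtype]
    exact Finset.card_le_card fun γ h => Finset.mem_filter.2
      ⟨Finset.mem_univ _, Subgroup.mem_inf.2 ⟨(Finset.mem_filter.1 h).2,
        hlin γ (Finset.mem_filter.1 h).2⟩⟩
  have hinf : 2 ^ 7 ≤ Nat.card ↥(B ⊓ Q) := by
    have := Nat.mul_le_mul (hEs.trans hs16) (le_refl (Nat.card ↥(B ⊓ Q)))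
    omega
  have hK3 : 4 ≤ K.card := by
    have h1 := Nat.mul_le_mul hEs h128
    have h2 := hfib.trans (Nat.mul_le_mul_left _ hT)
    omega
  obtain ⟨γa, ha, hane⟩ := Finset.exists_mem_ne (show 1 < K.card by omega) 1
  obtain ⟨γb, hb, hbne, hba⟩ : ∃ γb ∈ K, γb ≠ 1 ∧ γb ≠ γa := by
    have h : 1 < (K.erase γa).card := by rw [Finset.card_erase_of_mem ha]; omega
    obtain ⟨γb, hb, hbne⟩ := Finset.exists_mem_ne h 1
    exact ⟨γb, Finset.mem_of_mem_erase hb, hbne, Finset.ne_of_mem_erase hb⟩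
  have hFW : ∀ v, (∃ q ∈ B, C.Rep v q) → InW v := fun v hv =>
    inW_of_fix (hPne γa ha hane) (hPne γb hb hbne) (fun e => hba (hPinj γb hb γa ha e))
      (hP γa ha ▸ hEfix γa (hsE γa (Finset.mem_filter.1 ha).1).1 v hv)
      (hP γb hb ▸ hEfix γb (hsE γb (Finset.mem_filter.1 hb).1).1 v hv)
  have hall : ∀ γ ∈ s, t γ = idT := by
    intro γ hγ
    by_contra hne
    have h1 : Nat.card {v : Pt // ∃ q ∈ B, C.Rep v q} ≤ 16 := by
      refine le_trans ?_ (card_fix_tOf (hinv γ hγ) hne)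
      refine Nat.card_le_card_of_injective
        (fun v => ⟨v.1, hFW v.1 v.2, ?_⟩) (fun v w h => Subtype.ext (congrArg Subtype.val h :))
      rw [← (hWM γ hγ).enc_apply (hFW v.1 v.2), dec_enc, hEfix γ (hsE γ hγ).1 v.1 v.2]
    omega
  have hle : B ⊓ Q ≤ wLift C := by
    rintro q ⟨hqB, hqQ⟩
    obtain ⟨v, hv⟩ := Coords.exists_rep (C := C) hqQ
    exact (mem_wLift hs C).2 ⟨v, hFW v ⟨q, hqB, hv⟩, hv⟩
  have heq : B ⊓ Q = wLift C := Subgroup.eq_of_le_of_card_ge hle (by rw [card_wLift hs C]; omega)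
  have hBle : B ≤ baseH C := by
    intro b hb
    have hγE : (QuotientGroup.mk b : ↥(Subgroup.centralizer ({z} : Set G)) ⧸ Q) ∈ E :=
      Subgroup.mem_map_of_mem _ hb
    have hγs : (QuotientGroup.mk b : ↥(Subgroup.centralizer ({z} : Set G)) ⧸ Q) ∈ s :=
      Finset.mem_filter.2 ⟨Finset.mem_univ _, Subgroup.mem_inf.2 ⟨hγE, hlin _ hγE⟩⟩
    have hp := hP _ (Finset.mem_filter.2 ⟨hγs, hall _ hγs⟩)
    obtain ⟨r, hr, hrp⟩ := exists_radLift hs C hc (P (QuotientGroup.mk b))
    have hrH := radLift_le_baseH hs C hc hr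
    have hq : r⁻¹ * b ∈ Q := by
      rw [← QuotientGroup.eq]
      exact C.act_injective (by rw [hrp, hp])
    obtain ⟨v, hv⟩ := Coords.exists_rep (C := C) hq
    have hvW : InW v := by
      refine inW_of_perp fun w hw => ?_
      have hd : C.lift w ∈ wLift C := (mem_wLift hs C).2 ⟨w, hw, Or.inl rfl⟩
      have hdB : C.lift w ∈ B := (heq.ge hd).1
      have hc1 : r⁻¹ * b * C.lift w = C.lift w * (r⁻¹ * b) := by
        rw [mul_assoc, comm b hb _ hdB, ← mul_assoc,
          baseH_comm hs C hc (inv_mem hrH) (wLift_le_baseH hs C hc hd), mul_assoc]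
      have hwr : C.Rep w (C.lift w) := Or.inl rfl
      rw [← (Coords.Rep.mul hs C hv hwr).sq hs, ← hv.sq hs,
        show r⁻¹ * b * C.lift w * (r⁻¹ * b * C.lift w) =
          (r⁻¹ * b) * (C.lift w * (r⁻¹ * b)) * C.lift w by group, ← hc1,
        show r⁻¹ * b * (r⁻¹ * b * C.lift w) * C.lift w =
          (r⁻¹ * b) * (r⁻¹ * b) * (C.lift w * C.lift w) by group, (hwr.sq hs).2 hw.even, mul_one]
    have := mul_mem hrH (wLift_le_baseH hs C hc ((mem_wLift hs C).2 ⟨v, hvW, hv⟩))
    rwa [mul_inv_cancel_left] at this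
  exact Subgroup.eq_of_le_of_card_ge hBle (by rw [card_baseH hs C hc]; exact hcard)

end CfsgLib.LargeFischer.Base
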